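import Cfsg.Agent.Lib.Helper95.SympDecomp
import Cfsg.Agent.Lib.Helper95.Glue4

set_option autoImplicit false

/-! Over the field with two elements the stabiliser of an orthogonal decomposition into
non-degenerate planes preserves a quadratic form. -/

namespace Cfsg.Agent.Lib.Helper17.SympDecTwo

open Cfsg.Agent.Lib.Helper95 Module

variable {K V : Type*} [Field K] [AddCommGroup V] [Module K V]

open Classical in
/-- The indicator of "the component in `D i` is non-zero". -/
noncomputable def ci (B : LinearMap.BilinForm K V) {t : ℕ} (D : Fin t → Submodule K V) (i : Fin t)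
    (x : V) : K := if ∀ y ∈ D i, B x y = 0 then 0 else 1

/-- The number of non-zero components. -/
noncomputable def Qd (B : LinearMap.BilinForm K V) {t : ℕ} (D : Fin t → Submodule K V) (x : V) : K :=
  ∑ i, ci B D i x

/-- The group of linear automorphisms preserving `Qd`. -/
def QGrp (B : LinearMap.BilinForm K V) {t : ℕ} (D : Fin t → Submodule K V) :
    Subgroup (V ≃ₗ[K] V) where
  carrier := {g | ∀ x, Qd B D (g x) = Qd B D x}
  mul_mem' {a b} ha hb := by
    intro x
    rw [LinearEquiv.mul_apply, ha, hb]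
  one_mem' := by intro x; simp
  inv_mem' {a} ha := by
    intro x
    have h := ha (a⁻¹ x)
    rw [← LinearEquiv.mul_apply, mul_inv_cancel] at h
    exact h.symm

variable {B : LinearMap.BilinForm K V} {t : ℕ} {D : Fin t → Submodule K V}

lemma ci_add_of_perp {i : Fin t} {a : V} (ha : ∀ y ∈ D i, B a y = 0) (x : V) :
    ci B D i (x + a) = ci B D i x := by
  classical
  unfold ci
  have : (∀ y ∈ D i, B (x + a) y = 0) ↔ (∀ y ∈ D i, B x y = 0) := by
    constructor
    · intro h y hy
      have := h y hy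
      rwa [map_add, LinearMap.add_apply, ha y hy, add_zero] at this
    · intro h y hy
      rw [map_add, LinearMap.add_apply, ha y hy, add_zero, h y hy]
  exact if_congr this rfl rfl

lemma forall_iff_pair {j : Fin t} {a b : V} (ha : a ∈ D j) (hb : b ∈ D j)
    (hspan : ∀ y ∈ D j, ∃ α β : K, y = α • a + β • b) (x : V) :
    (∀ y ∈ D j, B x y = 0) ↔ (B x a = 0 ∧ B x b = 0) := by
  constructor
  · intro h
    exact ⟨h a ha, h b hb⟩
  · rintro ⟨h1, h2⟩ y hy
    obtain ⟨α, β, rfl⟩ := hspan y hy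
    simp [h1, h2]

lemma ci_add_self (hB : B.IsAlt) (h2 : ∀ c : K, c = 0 ∨ c = 1) (h11 : (1 : K) + 1 = 0) {j : Fin t}
    {a b : V} (ha : a ∈ D j) (hb : b ∈ D j) (hab : B a b = 1)
    (hspan : ∀ y ∈ D j, ∃ α β : K, y = α • a + β • b) (x : V) :
    ci B D j (x + a) = ci B D j x + 1 + B x a := by
  classical
  unfold ci
  rw [if_congr (forall_iff_pair ha hb hspan (x + a)) rfl rfl,
    if_congr (forall_iff_pair ha hb hspan x) rfl rfl]
  simp only [map_add, LinearMap.add_apply, hB a, hab, add_zero]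
  rcases h2 (B x a) with h | h <;> rcases h2 (B x b) with h' | h' <;> simp [h, h', h11]

lemma exists_pair (hB : B.IsAlt) (h2 : ∀ c : K, c = 0 ∨ c = 1) {j : Fin t}
    (hnd : NondegOn B (D j)) (hfr : finrank K (D j) = 2) {a : V} (ha : a ∈ D j) (ha0 : a ≠ 0) :
    ∃ b ∈ D j, B a b = 1 ∧ ∀ y ∈ D j, ∃ α β : K, y = α • a + β • b := by
  obtain ⟨b, hb, hab⟩ := hnd a ha ha0
  have hab1 : B a b = 1 := (h2 _).resolve_left hab
  refine ⟨b, hb, hab1, ?_⟩
  have hli : LinearIndependent K ![a, b] := by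
    rw [LinearIndependent.pair_iff]
    intro s u hsu
    have h1 : B (s • a + u • b) b = 0 := by rw [hsu]; simp
    have h3 : B a (s • a + u • b) = 0 := by rw [hsu]; simp
    simp only [map_add, map_smul, LinearMap.add_apply, LinearMap.smul_apply, hB a, hB b, hab1,
      smul_eq_mul, mul_one, mul_zero, add_zero, zero_add] at h1 h3
    exact ⟨h1, h3⟩
  have hle : Submodule.span K (Set.range ![a, b]) ≤ D j := by
    rw [Submodule.span_le]
    rintro _ ⟨i, rfl⟩
    fin_cases i
    · exact ha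
    · exact hb
  have hfin : FiniteDimensional K (D j) := FiniteDimensional.of_finrank_pos (by omega)
  have heq : Submodule.span K (Set.range ![a, b]) = D j := by
    apply Submodule.eq_of_le_of_finrank_eq hle
    rw [finrank_span_eq_card hli, hfr]
    simp
  intro y hy
  rw [← heq] at hy
  have : Set.range ![a, b] = {a, b} := by
    ext z
    simp [Matrix.range_cons, Matrix.range_empty, eq_comm, or_comm]
  rw [this, Submodule.mem_span_pair] at hy
  obtain ⟨α, β, h⟩ := hy
  exact ⟨α, β, h.symm⟩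

lemma Qd_add (hB : B.IsAlt) (h2 : ∀ c : K, c = 0 ∨ c = 1) (h11 : (1 : K) + 1 = 0)
    (hnd : ∀ i, NondegOn B (D i)) (hfr : ∀ i, finrank K (D i) = 2)
    (hperp : ∀ i j, i ≠ j → ∀ x ∈ D i, ∀ y ∈ D j, B x y = 0) {j : Fin t} {a : V} (ha : a ∈ D j)
    (ha0 : a ≠ 0) (x : V) : Qd B D (x + a) = Qd B D x + 1 + B x a := by
  obtain ⟨b, hb, hab, hspan⟩ := exists_pair hB h2 (hnd j) (hfr j) ha ha0
  unfold Qd
  rw [← Finset.add_sum_erase _ _ (Finset.mem_univ j), ← Finset.add_sum_erase _ (fun i => ci B D i x)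
    (Finset.mem_univ j), ci_add_self hB h2 h11 ha hb hab hspan]
  have : ∑ i ∈ Finset.univ.erase j, ci B D i (x + a) = ∑ i ∈ Finset.univ.erase j, ci B D i x := by
    apply Finset.sum_congr rfl
    intro i hi
    exact ci_add_of_perp (fun y hy => hperp j i (Finset.ne_of_mem_erase hi).symm a ha y hy) x
  rw [this]
  ring

lemma mem_QGrp_of_perm {g : V ≃ₗ[K] V} (hg : g ∈ isoGrp B)
    (hσ : ∃ σ : Equiv.Perm (Fin t), ∀ i, (D i).map (g : V →ₗ[K] V) = D (σ i)) : g ∈ QGrp B D := by
  classical
  obtain ⟨σ, hσ⟩ := hσ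
  intro x
  unfold Qd
  rw [← Equiv.sum_comp σ]
  apply Finset.sum_congr rfl
  intro i _
  unfold ci
  have : (∀ y ∈ D (σ i), B (g x) y = 0) ↔ (∀ y ∈ D i, B x y = 0) := by
    rw [← hσ i]
    constructor
    · intro h y hy
      have := h (g y) ⟨y, hy, rfl⟩
      rwa [hg] at this
    · rintro h _ ⟨y, hy, rfl⟩
      change B (g x) (g y) = 0
      rw [hg]
      exact h y hy
  exact if_congr this rfl rfl

lemma finrank_eq_mul [FiniteDimensional K V] (hind : iSupIndep D) (htop : iSup D = ⊤) {k : ℕ}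
    (hfr : ∀ i, finrank K (D i) = k) : finrank K V = t * k := by
  have hint := DirectSum.isInternal_submodule_of_iSupIndep_of_iSup_eq_top hind htop
  have e := LinearEquiv.ofBijective (DirectSum.coeLinearMap D) hint
  rw [← e.finrank_eq, finrank_directSum]
  simp [hfr]

section main

variable (hB : B.IsAlt) (h2 : ∀ c : K, c = 0 ∨ c = 1) (h11 : (1 : K) + 1 = 0)
  (hnd : ∀ i, NondegOn B (D i)) (hfr : ∀ i, finrank K (D i) = 2)
  (hperp : ∀ i j, i ≠ j → ∀ x ∈ D i, ∀ y ∈ D j, B x y = 0)

include h2 hnd hfr in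
lemma exists_ab (hB : B.IsAlt) (i : Fin t) : ∃ a ∈ D i, ∃ b ∈ D i, a ≠ 0 ∧ B a b = 1 := by
  have hne : D i ≠ ⊥ := by
    intro h
    have := hfr i
    rw [h, finrank_bot] at this
    omega
  obtain ⟨a, ha, ha0⟩ := Submodule.exists_mem_ne_zero_of_ne_bot hne
  obtain ⟨b, hb, hab, -⟩ := exists_pair hB h2 (hnd i) (hfr i) ha ha0
  exact ⟨a, ha, b, hb, ha0, hab⟩

include hB h2 h11 hnd hfr hperp in
/-- A transvection outside of the orthogonal group. -/
theorem exists_not_mem_QGrp {i j : Fin t} (hij : i ≠ j) : ∃ g ∈ isoGrp B, g ∉ QGrp B D := by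
  obtain ⟨a, ha, b, hb, ha0, hab⟩ := exists_ab h2 hnd hfr hB i
  obtain ⟨a', ha', b', hb', ha0', hab'⟩ := exists_ab h2 hnd hfr hB j
  refine ⟨stv B hB (a + a') 1, stv_mem_isoGrp hB _ _, fun h => ?_⟩
  have h1 := h b
  have hba : B b a = 1 := by
    rw [alt_swap hB, hab]
    linear_combination -h11
  have hba' : B b a' = 0 := hperp i j hij b hb a' ha'
  have haa' : B a a' = 0 := hperp i j hij a ha a' ha'
  rw [stv_apply, map_add, hba, hba', add_zero, mul_one, one_smul, ← add_assoc,
    Qd_add hB h2 h11 hnd hfr hperp ha' ha0', Qd_add hB h2 h11 hnd hfr hperp ha ha0, map_add,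
    LinearMap.add_apply, hba, hba', haa'] at h1
  have : (1 : K) = 0 := by linear_combination h1 - h11
  exact one_ne_zero this

include hB h2 h11 hnd hfr hperp in
/-- A transvection of the orthogonal group that does not permute the summands. -/
theorem exists_mem_QGrp_not_perm {i j l : Fin t} (hij : i ≠ j) (hil : i ≠ l) (hjl : j ≠ l) :
    ∃ g ∈ isoGrp B, g ∈ QGrp B D ∧
      ¬ ∃ σ : Equiv.Perm (Fin t), ∀ i, (D i).map (g : V →ₗ[K] V) = D (σ i) := by
  obtain ⟨a, ha, b, hb, ha0, hab⟩ := exists_ab h2 hnd hfr hB i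
  obtain ⟨a', ha', b', hb', ha0', hab'⟩ := exists_ab h2 hnd hfr hB j
  obtain ⟨a'', ha'', b'', hb'', ha0'', hab''⟩ := exists_ab h2 hnd hfr hB l
  have haa' : B a a' = 0 := hperp i j hij a ha a' ha'
  have haa'' : B a a'' = 0 := hperp i l hil a ha a'' ha''
  have ha'a'' : B a' a'' = 0 := hperp j l hjl a' ha' a'' ha''
  refine ⟨stv B hB (a + a' + a'') 1, stv_mem_isoGrp hB _ _, ?_, ?_⟩
  · intro x
    rw [stv_apply, one_mul]
    rcases h2 (B x (a + a' + a'')) with h | h
    · rw [h, zero_smul, add_zero]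
    · rw [h, one_smul, ← add_assoc, ← add_assoc, Qd_add hB h2 h11 hnd hfr hperp ha'' ha0'',
        Qd_add hB h2 h11 hnd hfr hperp ha' ha0', Qd_add hB h2 h11 hnd hfr hperp ha ha0]
      simp only [map_add, LinearMap.add_apply, haa', haa'', ha'a''] at h ⊢
      linear_combination h + 2 * h11
  · rintro ⟨σ, hσ⟩
    have hba : B b a = 1 := by
      rw [alt_swap hB, hab]
      linear_combination -h11
    have hba' : B b a' = 0 := hperp i j hij b hb a' ha'
    have hba'' : B b a'' = 0 := hperp i l hil b hb a'' ha''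
    have hmem : stv B hB (a + a' + a'') 1 b ∈ D (σ i) := by
      rw [← hσ i]
      exact ⟨b, hb, rfl⟩
    rw [stv_apply, map_add, map_add, hba, hba', hba'', add_zero, add_zero, mul_one, one_smul] at hmem
    by_cases hk : σ i = j
    · have h0 := hperp (σ i) l (by rw [hk]; exact hjl) _ hmem b'' hb''
      simp only [map_add, LinearMap.add_apply, hperp i l hil b hb b'' hb'',
        hperp i l hil a ha b'' hb'', hperp j l hjl a' ha' b'' hb'', hab'', zero_add] at h0
      exact one_ne_zero h0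
    · have h0 := hperp (σ i) j hk _ hmem b' hb'
      simp only [map_add, LinearMap.add_apply, hperp i j hij b hb b' hb',
        hperp i j hij a ha b' hb', hperp l j hjl.symm a'' ha'' b' hb', hab', zero_add,
        add_zero] at h0
      exact one_ne_zero h0

end main

end Cfsg.Agent.Lib.Helper17.SympDecTwo
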