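import Cfsg.Prelude.Def_GeometricClasses

set_option autoImplicit false

/-! A non-degenerate symmetric bilinear form in dimension three over the field with three elements
has, up to signs and order, a unique orthogonal basis of vectors of equal norms. -/

namespace Cfsg.Agent.Lib.Helper17.FrameThree

open Module Cfsg.Geo

variable {F : Type*} [Field F] {f : (Fin 3 → F) → (Fin 3 → F) → F}

/-- An orthogonal basis of vectors of the same norm. -/
structure Frame (f : (Fin 3 → F) → (Fin 3 → F) → F) (ε : F) (y : Fin 3 → (Fin 3 → F)) : Prop where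
  ne : ε ≠ 0
  orth : ∀ i j, f (y i) (y j) = if i = j then ε else 0
  span : ∀ w, ∃ a : Fin 3 → F, w = a 0 • y 0 + a 1 • y 1 + a 2 • y 2

/-- The property characterising the multiples of the members of a frame. -/
def Fr (f : (Fin 3 → F) → (Fin 3 → F) → F) (w : Fin 3 → F) : Prop :=
  f w w ≠ 0 ∧ ∀ v, f v w = 0 → f v v = 0 → v = 0

lemma Frame.form {ε : F} {y : Fin 3 → (Fin 3 → F)} (h : Frame f ε y) (hf : IsBilinearForm f)
    (a b : Fin 3 → F) :
    f (a 0 • y 0 + a 1 • y 1 + a 2 • y 2) (b 0 • y 0 + b 1 • y 1 + b 2 • y 2) =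
      ε * (a 0 * b 0 + a 1 * b 1 + a 2 * b 2) := by
  simp only [hf.add_left, hf.add_right, hf.smul_left, hf.smul_right, h.orth]
  simp
  ring

section three

variable (hF : ∀ a : F, a = 0 ∨ a = 1 ∨ a = -1) (h3 : (3 : F) = 0)

include hF in
lemma sq_eq_one {a : F} (ha : a ≠ 0) : a * a = 1 := by
  rcases hF a with h | h | h
  · exact absurd h ha
  · rw [h]; ring
  · rw [h]; ring

include hF h3 in
lemma frame_of_orth (hf : IsSymmetricForm f) {z₀ z₁ z₂ : Fin 3 → F} (h01 : f z₀ z₁ = 0)
    (h02 : f z₀ z₂ = 0) (h12 : f z₁ z₂ = 0) (hn0 : f z₀ z₀ ≠ 0) (hn2 : f z₂ z₂ ≠ 0)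
    (heq : f z₀ z₀ = f z₁ z₁) (hspan : ∀ w, ∃ a b c : F, w = a • z₀ + b • z₁ + c • z₂) :
    ∃ ε y, Frame f ε y := by
  have h10 : f z₁ z₀ = 0 := by rw [hf.symm, h01]
  have h20 : f z₂ z₀ = 0 := by rw [hf.symm, h02]
  have h21 : f z₂ z₁ = 0 := by rw [hf.symm, h12]
  by_cases h : f z₂ z₂ = f z₀ z₀
  · refine ⟨f z₀ z₀, ![z₀, z₁, z₂], hn0, ?_, ?_⟩
    · intro i j
      fin_cases i <;> fin_cases j <;> simp [h01, h02, h12, h10, h20, h21, ← heq, h]
    · intro w
      obtain ⟨a, b, c, rfl⟩ := hspan w
      exact ⟨![a, b, c], by simp⟩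
  · have h' : f z₂ z₂ = - f z₀ z₀ := by
      rcases hF (f z₂ z₂) with h2 | h2 | h2
      · exact absurd h2 hn2
      · rcases hF (f z₀ z₀) with h0 | h0 | h0
        · exact absurd h0 hn0
        · exact absurd (h2.trans h0.symm) h
        · rw [h2, h0, neg_neg]
      · rcases hF (f z₀ z₀) with h0 | h0 | h0
        · exact absurd h0 hn0
        · rw [h2, h0]
        · exact absurd (h2.trans h0.symm) h
    refine ⟨f z₂ z₂, ![z₀ + z₁, z₀ - z₁, z₂], hn2, ?_, ?_⟩
    · have hsub : z₀ - z₁ = z₀ + (-1 : F) • z₁ := by module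
      intro i j
      fin_cases i <;> fin_cases j <;>
        simp only [Fin.zero_eta, Fin.mk_one, Fin.reduceFinMk, Matrix.cons_val_zero,
          Matrix.cons_val_one, Matrix.cons_val, hsub, hf.bilinear.add_left, hf.bilinear.add_right,
          hf.bilinear.smul_left, hf.bilinear.smul_right, h01, h02, h12, h10, h20, h21, ← heq, h'] <;>
        simp <;> linear_combination (f z₀ z₀) * h3
    · intro w
      obtain ⟨a, b, c, rfl⟩ := hspan w
      refine ⟨![-(a + b), b - a, c], ?_⟩
      simp only [Matrix.cons_val_zero, Matrix.cons_val_one, Matrix.cons_val]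
      have e1 : a • z₀ = (-(2 : F) * a) • z₀ := by
        congr 1; linear_combination a * h3
      have e2 : b • z₁ = (-(2 : F) * b) • z₁ := by
        congr 1; linear_combination b * h3
      rw [e1, e2]
      module

include hF h3 in
theorem exists_frame (hf : IsSymmetricForm f) : ∃ ε y, Frame f ε y := by
  have h2 : (2 : F) ≠ 0 := by
    intro h2
    have : (1 : F) = 0 := by linear_combination h3 - h2
    exact one_ne_zero this
  have : Invertible (2 : F) := invertibleOfNonzero h2
  let B : LinearMap.BilinForm F (Fin 3 → F) := LinearMap.mk₂ F f hf.bilinear.add_left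
    hf.bilinear.smul_left hf.bilinear.add_right hf.bilinear.smul_right
  have hB : ∀ x y, B x y = f x y := fun x y => rfl
  have hsymm : LinearMap.IsSymm B := ⟨fun x y => hf.symm x y⟩
  obtain ⟨v, hv⟩ := LinearMap.BilinForm.exists_orthogonal_basis hsymm
  have hfr : finrank F (Fin 3 → F) = 3 := by simp
  let z : Basis (Fin 3) F (Fin 3 → F) := v.reindex (finCongr hfr)
  have horth : ∀ i j, i ≠ j → f (z i) (z j) = 0 := by
    intro i j hij
    have := hv (i := (finCongr hfr).symm i) (j := (finCongr hfr).symm j)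
      (fun h => hij ((finCongr hfr).symm.injective h))
    simpa [z, hB, Function.onFun] using this
  have hspan : ∀ w, w = z.repr w 0 • z 0 + z.repr w 1 • z 1 + z.repr w 2 • z 2 := by
    intro w
    conv_lhs => rw [← z.sum_repr w, Fin.sum_univ_three]
  have hn : ∀ i, f (z i) (z i) ≠ 0 := by
    intro i h0
    obtain ⟨x, hx⟩ := (hf.nondegenerate (z i) (z.ne_zero i)).1
    apply hx
    rw [hspan x]
    simp only [hf.bilinear.add_left, hf.bilinear.smul_left]
    fin_cases i
    · simp only [Fin.zero_eta] at h0 ⊢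
      rw [h0, horth 1 0 (by decide), horth 2 0 (by decide)]; simp
    · simp only [Fin.mk_one] at h0 ⊢
      rw [h0, horth 0 1 (by decide), horth 2 1 (by decide)]; simp
    · simp only [Fin.reduceFinMk] at h0 ⊢
      rw [h0, horth 0 2 (by decide), horth 1 2 (by decide)]; simp
  have hpm : ∀ i, f (z i) (z i) = 1 ∨ f (z i) (z i) = -1 := fun i => (hF _).resolve_left (hn i)
  have hcases : f (z 0) (z 0) = f (z 1) (z 1) ∨ f (z 0) (z 0) = f (z 2) (z 2) ∨
      f (z 1) (z 1) = f (z 2) (z 2) := by
    rcases hpm 0 with h0 | h0 <;> rcases hpm 1 with h1 | h1 <;> rcases hpm 2 with h2 | h2 <;>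
      simp [h0, h1, h2]
  rcases hcases with h | h | h
  · exact frame_of_orth hF h3 hf (horth 0 1 (by decide)) (horth 0 2 (by decide))
      (horth 1 2 (by decide)) (hn 0) (hn 2) h (fun w => ⟨_, _, _, hspan w⟩)
  · refine frame_of_orth hF h3 hf (horth 0 2 (by decide)) (horth 0 1 (by decide))
      (horth 2 1 (by decide)) (hn 0) (hn 1) h (fun w => ⟨z.repr w 0, z.repr w 2, z.repr w 1, ?_⟩)
    conv_lhs => rw [hspan w]
    abel
  · refine frame_of_orth hF h3 hf (horth 1 2 (by decide)) (horth 1 0 (by decide))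
      (horth 2 0 (by decide)) (hn 1) (hn 0) h (fun w => ⟨z.repr w 1, z.repr w 2, z.repr w 0, ?_⟩)
    conv_lhs => rw [hspan w]
    abel

variable {ε : F} {y : Fin 3 → (Fin 3 → F)}

lemma Frame.form_right (h : Frame f ε y) (hf : IsBilinearForm f) (a : Fin 3 → F) (k : Fin 3) :
    f (a 0 • y 0 + a 1 • y 1 + a 2 • y 2) (y k) = ε * a k := by
  simp only [hf.add_left, hf.smul_left, h.orth]
  fin_cases k <;> simp [mul_comm]

lemma Frame.ne_zero (h : Frame f ε y) (hf : IsBilinearForm f) (k : Fin 3) : y k ≠ 0 := by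
  intro h0
  have h1 := h.orth k k
  have h2 : f (y k) (y k) = 0 := by
    have := hf.smul_left 0 (y k) (y k)
    rw [zero_smul, zero_mul] at this
    rw [h0]
    rw [h0] at this
    exact this
  rw [h2, if_pos rfl] at h1
  exact h.ne h1.symm

include hF h3 in
lemma Frame.fr (h : Frame f ε y) (hf : IsBilinearForm f) (k : Fin 3) : Fr f (y k) := by
  refine ⟨by rw [h.orth, if_pos rfl]; exact h.ne, ?_⟩
  intro v hv hvv
  obtain ⟨a, rfl⟩ := h.span v
  rw [h.form_right hf] at hv
  rw [h.form hf] at hvv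
  have hk : a k = 0 := (mul_eq_zero.1 hv).resolve_left h.ne
  have hs : a 0 * a 0 + a 1 * a 1 + a 2 * a 2 = 0 := (mul_eq_zero.1 hvv).resolve_left h.ne
  have h2 : (1 : F) + 1 ≠ 0 := by
    intro h2
    have : (1 : F) = 0 := by linear_combination h3 - h2
    exact one_ne_zero this
  have hall : a 0 = 0 ∧ a 1 = 0 ∧ a 2 = 0 := by
    by_cases h0 : a 0 = 0 <;> by_cases h1 : a 1 = 0 <;> by_cases h2' : a 2 = 0 <;>
      fin_cases k <;>
      simp_all [sq_eq_one hF]
  rw [hall.1, hall.2.1, hall.2.2]
  simp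

include hF h3 in
lemma Frame.eq_of_fr (h : Frame f ε y) (hf : IsBilinearForm f) {w : Fin 3 → F} (hw : Fr f w) :
    ∃ (k : Fin 3) (c : F), w = c • y k := by
  obtain ⟨a, rfl⟩ := h.span w
  have key : ∀ b : Fin 3 → F, a 0 * b 0 + a 1 * b 1 + a 2 * b 2 = 0 →
      b 0 * b 0 + b 1 * b 1 + b 2 * b 2 = 0 → ∀ l, b l = 0 := by
    intro b h1 h2 l
    have := hw.2 (b 0 • y 0 + b 1 • y 1 + b 2 • y 2) (by
      rw [h.form hf]
      have : b 0 * a 0 + b 1 * a 1 + b 2 * a 2 = 0 := by linear_combination h1
      rw [this, mul_zero]) (by rw [h.form hf, h2, mul_zero])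
    have h4 := h.form_right hf b l
    rw [this] at h4
    have h5 : f 0 (y l) = 0 := by simpa using hf.smul_left 0 0 (y l)
    rw [h5] at h4
    exact (mul_eq_zero.1 h4.symm).resolve_left h.ne
  have hnorm := hw.1
  rw [h.form hf] at hnorm
  by_cases h0 : a 0 = 0
  · by_cases h1 : a 1 = 0
    · exact ⟨2, a 2, by rw [h0, h1]; simp⟩
    · by_cases h2 : a 2 = 0
      · exact ⟨1, a 1, by rw [h0, h2]; simp⟩
      · exfalso
        have := key ![1, a 2, - a 1] (by simp [h0]; ring) (by
          simp only [Matrix.cons_val_zero, Matrix.cons_val_one, Matrix.cons_val]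
          have e1 := sq_eq_one hF h1
          have e2 := sq_eq_one hF h2
          linear_combination e1 + e2 + h3) 0
        simp at this
  · by_cases h1 : a 1 = 0
    · by_cases h2 : a 2 = 0
      · exact ⟨0, a 0, by rw [h1, h2]; simp⟩
      · exfalso
        have := key ![a 2, 1, - a 0] (by simp [h1]; ring) (by
          simp only [Matrix.cons_val_zero, Matrix.cons_val_one, Matrix.cons_val]
          have e1 := sq_eq_one hF h0
          have e2 := sq_eq_one hF h2
          linear_combination e1 + e2 + h3) 1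
        simp at this
    · by_cases h2 : a 2 = 0
      · exfalso
        have := key ![a 1, - a 0, 1] (by simp [h2]; ring) (by
          simp only [Matrix.cons_val_zero, Matrix.cons_val_one, Matrix.cons_val]
          have e1 := sq_eq_one hF h0
          have e2 := sq_eq_one hF h1
          linear_combination e1 + e2 + h3) 2
        simp at this
      · exfalso
        apply hnorm
        rw [sq_eq_one hF h0, sq_eq_one hF h1, sq_eq_one hF h2]
        linear_combination ε * h3

end three

end Cfsg.Agent.Lib.Helper17.FrameThree
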