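import Cfsg.Agent.Lib.Helper17.Tensor
import Cfsg.Agent.Lib.Helper97.HermGlue

set_option autoImplicit false

/-! Pure tensors, forms on tensor products and the transfer of the isometry groups. -/

namespace Cfsg.Agent.Lib.Helper17.TensorForm

open scoped Kronecker MatrixGroups
open Matrix Cfsg.Agent.Lib.Helper17.Tensor Cfsg.Agent.Lib.Helper95 Cfsg.Agent.Lib.Helper97

section pure

variable {F : Type*} [Field F] {n₁ n₂ : ℕ}

/-- The pure tensor `u ⊗ w` in coordinates. -/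
def tp (u : Fin n₁ → F) (w : Fin n₂ → F) : Fin n₁ × Fin n₂ → F := fun p => u p.1 * w p.2

lemma tp_apply (u : Fin n₁ → F) (w : Fin n₂ → F) (p : Fin n₁ × Fin n₂) :
    tp u w p = u p.1 * w p.2 := rfl

lemma tp_add_left (u u' : Fin n₁ → F) (w : Fin n₂ → F) : tp (u + u') w = tp u w + tp u' w := by
  ext p; simp [tp, add_mul]

lemma tp_add_right (u : Fin n₁ → F) (w w' : Fin n₂ → F) : tp u (w + w') = tp u w + tp u w' := by
  ext p; simp [tp, mul_add]

lemma tp_smul_left (c : F) (u : Fin n₁ → F) (w : Fin n₂ → F) : tp (c • u) w = c • tp u w := by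
  ext p; simp [tp, mul_assoc]

lemma tp_smul_right (c : F) (u : Fin n₁ → F) (w : Fin n₂ → F) : tp u (c • w) = c • tp u w := by
  ext p; simp [tp, mul_left_comm]

lemma tp_zero_left (w : Fin n₂ → F) : tp (0 : Fin n₁ → F) w = 0 := by
  ext p; simp [tp]

lemma tp_zero_right (u : Fin n₁ → F) : tp u (0 : Fin n₂ → F) = 0 := by
  ext p; simp [tp]

lemma tp_eq_zero {u : Fin n₁ → F} {w : Fin n₂ → F} (h : tp u w = 0) : u = 0 ∨ w = 0 := by
  by_contra hcon
  push Not at hcon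
  obtain ⟨i, hi⟩ : ∃ i, u i ≠ 0 := by
    by_contra h'
    push Not at h'
    exact hcon.1 (funext h')
  obtain ⟨j, hj⟩ : ∃ j, w j ≠ 0 := by
    by_contra h'
    push Not at h'
    exact hcon.2 (funext h')
  have := congrFun h (i, j)
  exact mul_ne_zero hi hj this

lemma kron_mulVec_tp (A : Matrix (Fin n₁) (Fin n₁) F) (B : Matrix (Fin n₂) (Fin n₂) F)
    (u : Fin n₁ → F) (w : Fin n₂ → F) : (A ⊗ₖ B) *ᵥ tp u w = tp (A *ᵥ u) (B *ᵥ w) := by
  ext ⟨i, j⟩
  simp only [Matrix.mulVec, dotProduct, tp, Fintype.sum_prod_type, Matrix.kroneckerMap_apply,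
    Finset.sum_mul_sum]
  refine Finset.sum_congr rfl fun a _ => Finset.sum_congr rfl fun b _ => ?_
  ring

lemma formOfGram_tp (σ : F → F) (hσ : ∀ a b, σ (a * b) = σ a * σ b)
    (G₁ : Matrix (Fin n₁) (Fin n₁) F) (G₂ : Matrix (Fin n₂) (Fin n₂) F)
    (u u' : Fin n₁ → F) (w w' : Fin n₂ → F) :
    Cfsg.Geo.formOfGram σ (G₁ ⊗ₖ G₂) (tp u w) (tp u' w') =
      Cfsg.Geo.formOfGram σ G₁ u u' * Cfsg.Geo.formOfGram σ G₂ w w' := by
  simp only [Cfsg.Geo.formOfGram, tp, Fintype.sum_prod_type, Matrix.kroneckerMap_apply, hσ,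
    Finset.sum_mul_sum]
  refine Finset.sum_congr rfl fun a _ => ?_
  refine Finset.sum_congr rfl fun b _ => ?_
  refine Finset.sum_congr rfl fun c _ => ?_
  refine Finset.sum_congr rfl fun d _ => ?_
  ring

end pure

section gram

variable {F : Type*} [Field F] {κ : Type} [Fintype κ] [DecidableEq κ]

lemma formOfGram_gram (σ : F → F) (f : (κ → F) → (κ → F) → F)
    (hadd : ∀ x y v, f (x + y) v = f x v + f y v) (hsmul : ∀ (c : F) x v, f (c • x) v = c * f x v)
    (hadd' : ∀ v x y, f v (x + y) = f v x + f v y)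
    (hsmul' : ∀ (c : F) v x, f v (c • x) = σ c * f v x) (x y : κ → F) :
    Cfsg.Geo.formOfGram σ (Cfsg.Geo.gramMatrix f) x y = f x y := by
  have h0 : ∀ v, f 0 v = 0 := fun v => by simpa using hsmul 0 0 v
  have h0' : ∀ v, f v 0 = 0 := fun v => by
    have := hadd' v 0 0
    rw [add_zero] at this
    linear_combination -this
  have hl : ∀ (s : Finset κ) (g : κ → (κ → F)) v, f (∑ a ∈ s, g a) v = ∑ a ∈ s, f (g a) v := by
    intro s g v
    induction s using Finset.induction_on with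
    | empty => simp [h0]
    | insert a s ha ih => rw [Finset.sum_insert ha, Finset.sum_insert ha, hadd, ih]
  have hr : ∀ (s : Finset κ) (g : κ → (κ → F)) v, f v (∑ a ∈ s, g a) = ∑ a ∈ s, f v (g a) := by
    intro s g v
    induction s using Finset.induction_on with
    | empty => simp [h0']
    | insert a s ha ih => rw [Finset.sum_insert ha, Finset.sum_insert ha, hadd', ih]
  have hx : x = ∑ a, x a • (Pi.single a 1 : κ → F) := by
    ext i
    simp [Finset.sum_apply, Pi.single_apply]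
  have hy : y = ∑ a, y a • (Pi.single a 1 : κ → F) := by
    ext i
    simp [Finset.sum_apply, Pi.single_apply]
  conv_rhs => rw [hx, hl]
  unfold Cfsg.Geo.formOfGram Cfsg.Geo.gramMatrix
  refine Finset.sum_congr rfl fun a _ => ?_
  rw [hsmul]
  conv_rhs => rw [hy, hr]
  rw [Finset.mul_sum]
  refine Finset.sum_congr rfl fun b _ => ?_
  rw [hsmul']
  ring

end gram

section transfer

variable {ι : Type} [Fintype ι] [DecidableEq ι] {F : Type*} [Field F] {n₁ n₂ : ℕ}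

/-- The coordinate isomorphism `x ↦ P (x ∘ e)`. -/
noncomputable def Lmap (e : ι ≃ Fin n₁ × Fin n₂) (P : GL ι F) :
    (Fin n₁ × Fin n₂ → F) ≃ₗ[F] (ι → F) :=
  (LinearEquiv.funCongrLeft F F e).trans (glEquiv P)

lemma Lmap_apply (e : ι ≃ Fin n₁ × Fin n₂) (P : GL ι F) (x : Fin n₁ × Fin n₂ → F) :
    Lmap e P x = (P : Matrix ι ι F) *ᵥ (x ∘ e) := by
  simp [Lmap, LinearEquiv.funCongrLeft_apply, LinearMap.funLeft]

lemma tIso_Lmap (e : ι ≃ Fin n₁ × Fin n₂) (P : GL ι F) (g : GL (Fin n₁ × Fin n₂) F)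
    (x : Fin n₁ × Fin n₂ → F) :
    glEquiv (tIso e P g) (Lmap e P x) = Lmap e P (glEquiv g x) := by
  rw [glEquiv_apply, glEquiv_apply, Lmap_apply, Lmap_apply]
  have h1 : ((tIso e P g : GL ι F) : Matrix ι ι F) =
      (P : Matrix ι ι F) * (g : Matrix _ _ F).submatrix e e * ((P⁻¹ : GL ι F) : Matrix ι ι F) := rfl
  rw [h1, Matrix.mulVec_mulVec, Matrix.mul_assoc, Matrix.mul_assoc, ← Units.val_mul,
    inv_mul_cancel, Units.val_one, Matrix.mul_one, ← Matrix.mulVec_mulVec,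
    Matrix.submatrix_mulVec_equiv]
  have h2 : (x ∘ e) ∘ e.symm = x := by
    ext p; simp
  rw [h2]

lemma det_tIso (e : ι ≃ Fin n₁ × Fin n₂) (P : GL ι F) (g : GL (Fin n₁ × Fin n₂) F) :
    ((tIso e P g : GL ι F) : Matrix ι ι F).det =
      (g : Matrix (Fin n₁ × Fin n₂) (Fin n₁ × Fin n₂) F).det := by
  have h1 : ((tIso e P g : GL ι F) : Matrix ι ι F) =
      (P : Matrix ι ι F) * (g : Matrix _ _ F).submatrix e e * ((P⁻¹ : GL ι F) : Matrix ι ι F) := rfl
  rw [h1, Matrix.det_units_conj, Matrix.det_submatrix_equiv_self]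

lemma tIso_mem_specialLinear (e : ι ≃ Fin n₁ × Fin n₂) (P : GL ι F) (g : GL (Fin n₁ × Fin n₂) F) :
    tIso e P g ∈ Cfsg.Geo.specialLinear ι F ↔ g ∈ Cfsg.Geo.specialLinear (Fin n₁ × Fin n₂) F := by
  change Matrix.GeneralLinearGroup.det _ = 1 ↔ Matrix.GeneralLinearGroup.det _ = 1
  rw [Units.ext_iff, Units.ext_iff]
  change ((tIso e P g : GL ι F) : Matrix ι ι F).det = 1 ↔
    (g : Matrix (Fin n₁ × Fin n₂) (Fin n₁ × Fin n₂) F).det = 1
  rw [det_tIso]

/-- The pulled back form. -/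
noncomputable def pull (e : ι ≃ Fin n₁ × Fin n₂) (P : GL ι F) (f : (ι → F) → (ι → F) → F)
    (x y : Fin n₁ × Fin n₂ → F) : F := f (Lmap e P x) (Lmap e P y)

lemma tIso_mem_UGrp (e : ι ≃ Fin n₁ × Fin n₂) (P : GL ι F) (f : (ι → F) → (ι → F) → F)
    (g : GL (Fin n₁ × Fin n₂) F) :
    glEquiv (tIso e P g) ∈ UGrp f ↔ glEquiv g ∈ UGrp (pull e P f) := by
  rw [mem_UGrp, mem_UGrp]
  constructor
  · intro h x y
    unfold pull
    rw [← tIso_Lmap, ← tIso_Lmap, h]
  · intro h x y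
    obtain ⟨x, rfl⟩ := (Lmap e P).surjective x
    obtain ⟨y, rfl⟩ := (Lmap e P).surjective y
    rw [tIso_Lmap, tIso_Lmap]
    exact h x y

lemma tIso_mem_iff (e : ι ≃ Fin n₁ × Fin n₂) (P : GL ι F) (f : (ι → F) → (ι → F) → F)
    (g : GL (Fin n₁ × Fin n₂) F) :
    glEquiv (tIso e P g) ∈ UGrp f ⊓ slGrp F (ι → F) ↔
      glEquiv g ∈ UGrp (pull e P f) ⊓ slGrp F (Fin n₁ × Fin n₂ → F) := by
  rw [Subgroup.mem_inf, Subgroup.mem_inf, tIso_mem_UGrp, ← mem_specialLinear_iff',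
    ← mem_specialLinear_iff', tIso_mem_specialLinear]

lemma UF_pull {σ : F ≃+* F} {f : (ι → F) → (ι → F) → F} (h : UF σ f) (e : ι ≃ Fin n₁ × Fin n₂)
    (P : GL ι F) : UF σ (pull e P f) where
  ne_refl := h.ne_refl
  involutive := h.involutive
  add_left x y v := by unfold pull; rw [map_add, h.add_left]
  smul_left c x v := by unfold pull; rw [map_smul, h.smul_left]
  herm v w := h.herm _ _
  nondeg v hv := by
    have hv' : Lmap e P v ≠ 0 := by
      intro h0
      exact hv ((Lmap e P).map_eq_zero_iff.1 h0)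
    obtain ⟨x, hx⟩ := h.nondeg _ hv'
    obtain ⟨x, rfl⟩ := (Lmap e P).surjective x
    exact ⟨x, hx⟩

end transfer

section stab

variable {F V : Type*} [Field F] [AddCommGroup V] [Module F V]

/-- The linear automorphisms stabilising a set of vectors. -/
def setStab (F : Type*) {V : Type*} [Field F] [AddCommGroup V] [Module F V] (S : Set V) :
    Subgroup (V ≃ₗ[F] V) where
  carrier := {g | ∀ x, g x ∈ S ↔ x ∈ S}
  mul_mem' {a b} ha hb := by
    intro x
    rw [LinearEquiv.mul_apply, ha, hb]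
  one_mem' := by intro x; simp
  inv_mem' {a} ha := by
    intro x
    have h := ha (a⁻¹ x)
    rw [← LinearEquiv.mul_apply, mul_inv_cancel] at h
    exact h.symm

lemma mem_setStab {S : Set V} {g : V ≃ₗ[F] V} : g ∈ setStab F S ↔ ∀ x, g x ∈ S ↔ x ∈ S := Iff.rfl

lemma mem_setStab_of {S : Set V} {g : V ≃ₗ[F] V} (h1 : ∀ x ∈ S, g x ∈ S)
    (h2 : ∀ x ∈ S, g⁻¹ x ∈ S) : g ∈ setStab F S := by
  intro x
  refine ⟨fun h => ?_, h1 x⟩
  have := h2 _ h
  rwa [← LinearEquiv.mul_apply, inv_mul_cancel] at this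

end stab

end Cfsg.Agent.Lib.Helper17.TensorForm
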