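import Cfsg.Agent.Lib.Helper95.SLGen
import Cfsg.Agent.Lib.Helper95.Glue4

set_option autoImplicit false

/-! The number of non-zero components of a vector with respect to a direct sum decomposition, as an
invariant of the stabiliser of the decomposition. -/

namespace Cfsg.Agent.Lib.Helper17.LinDec

open Cfsg.Agent.Lib.Helper95 Module

variable {F V : Type*} [Field F] [AddCommGroup V] [Module F V]

/-- The sum of the members other than `D i`. -/
def others {t : ℕ} (D : Fin t → Submodule F V) (i : Fin t) : Submodule F V :=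
  ⨆ (k : Fin t) (_ : k ≠ i), D k

open Classical in
/-- The indicator of "the component in `D i` is non-zero". -/
noncomputable def ci {t : ℕ} (D : Fin t → Submodule F V) (i : Fin t) (x : V) : F :=
  if x ∈ others D i then 0 else 1

/-- The number of non-zero components. -/
noncomputable def Qd {t : ℕ} (D : Fin t → Submodule F V) (x : V) : F := ∑ i, ci D i x

/-- The group of linear automorphisms preserving `Qd`. -/
def QGrp {t : ℕ} (D : Fin t → Submodule F V) : Subgroup (V ≃ₗ[F] V) where
  carrier := {g | ∀ x, Qd D (g x) = Qd D x}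
  mul_mem' {a b} ha hb := by
    intro x
    rw [LinearEquiv.mul_apply, ha, hb]
  one_mem' := by intro x; simp
  inv_mem' {a} ha := by
    intro x
    have h := ha (a⁻¹ x)
    rw [← LinearEquiv.mul_apply, mul_inv_cancel] at h
    exact h.symm

variable {t : ℕ} {D : Fin t → Submodule F V}

lemma others_map {g : V ≃ₗ[F] V} {τ : Equiv.Perm (Fin t)}
    (hτ : ∀ i, (D i).map (g : V →ₗ[F] V) = D (τ i)) (i : Fin t) :
    (others D i).map (g : V →ₗ[F] V) = others D (τ i) := by
  unfold others
  rw [Submodule.map_iSup]
  simp only [Submodule.map_iSup, hτ]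
  rw [← Equiv.iSup_comp (g := fun k => ⨆ (_ : k ≠ τ i), D k) τ]
  apply iSup_congr
  intro k
  apply iSup_congr_Prop
  · simp
  · simp

lemma mem_QGrp_of_perm {g : V ≃ₗ[F] V}
    (hσ : ∃ τ : Equiv.Perm (Fin t), ∀ i, (D i).map (g : V →ₗ[F] V) = D (τ i)) : g ∈ QGrp D := by
  classical
  obtain ⟨τ, hτ⟩ := hσ
  intro x
  unfold Qd
  rw [← Equiv.sum_comp τ]
  apply Finset.sum_congr rfl
  intro i _
  unfold ci
  have : g x ∈ others D (τ i) ↔ x ∈ others D i := by
    rw [← others_map hτ i]
    constructor
    · rintro ⟨y, hy, hyx⟩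
      have : y = x := g.injective hyx
      rwa [← this]
    · intro h
      exact ⟨x, h, rfl⟩
  exact if_congr this rfl rfl

section coords

variable {m : ℕ} (hint : DirectSum.IsInternal D) (v : ∀ i, Basis (Fin m) F (D i))

lemma mem_others_iff (i : Fin t) (x : V) :
    x ∈ others D i ↔ ∀ j, (hint.collectedBasis v).repr x ⟨i, j⟩ = 0 := by
  constructor
  · intro hx j
    let W : Submodule F V := LinearMap.ker ((hint.collectedBasis v).coord ⟨i, j⟩)
    have hle : others D i ≤ W := by
      unfold others
      refine iSup_le fun k => iSup_le fun hk => ?_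
      intro y hy
      rw [LinearMap.mem_ker, Basis.coord_apply]
      exact hint.collectedBasis_repr_of_mem_ne v hk hy
    have := hle hx
    rwa [LinearMap.mem_ker, Basis.coord_apply] at this
  · intro h
    rw [← (hint.collectedBasis v).sum_repr x]
    apply Submodule.sum_mem
    rintro ⟨k, j⟩ _
    by_cases hk : k = i
    · subst hk
      rw [h j, zero_smul]
      exact Submodule.zero_mem _
    · apply Submodule.smul_mem
      have h1 : D k ≤ others D i := by
        unfold others
        exact le_iSup₂_of_le k hk le_rfl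
      exact h1 (hint.collectedBasis_mem v ⟨k, j⟩)

lemma ci_eq (i : Fin t) (x : V) [Decidable (∀ j, (hint.collectedBasis v).repr x ⟨i, j⟩ = 0)] :
    ci D i x = if ∀ j, (hint.collectedBasis v).repr x ⟨i, j⟩ = 0 then 0 else 1 := by
  classical
  unfold ci
  exact if_congr (mem_others_iff hint v i x) rfl rfl

/-- The vector with coordinates `χ` in position `j₀` of each block. -/
noncomputable def cvec (χ : Fin t → F) (j₀ : Fin m) : V := ∑ k, χ k • hint.collectedBasis v ⟨k, j₀⟩

/-- The functional with coefficients `χ` in position `j₁` of each block. -/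
noncomputable def cfun (χ : Fin t → F) (j₁ : Fin m) : Dual F V :=
  ∑ k, χ k • (hint.collectedBasis v).coord ⟨k, j₁⟩

lemma repr_cvec (χ : Fin t → F) (j₀ : Fin m) (i : Fin t) (j : Fin m) :
    (hint.collectedBasis v).repr (cvec hint v χ j₀) ⟨i, j⟩ = if j = j₀ then χ i else 0 := by
  classical
  unfold cvec
  rw [map_sum, Finsupp.finsetSum_apply]
  simp only [map_smul, Basis.repr_self, Finsupp.smul_apply, Finsupp.single_apply, smul_eq_mul,
    Sigma.mk.injEq, heq_eq_eq, mul_ite, mul_one, mul_zero]
  by_cases hj : j = j₀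
  · subst hj
    simp
  · have : ∀ k, ¬ (k = i ∧ j₀ = j) := fun k hk => hj hk.2.symm
    simp [this, hj]

lemma cfun_apply (χ : Fin t → F) (j₁ : Fin m) (x : V) :
    cfun hint v χ j₁ x = ∑ k, χ k * (hint.collectedBasis v).repr x ⟨k, j₁⟩ := by
  unfold cfun
  rw [LinearMap.sum_apply]
  simp

lemma repr_add_smul (χ : Fin t → F) (j₀ : Fin m) (x : V) (a : F) (i : Fin t) (j : Fin m) :
    (hint.collectedBasis v).repr (x + a • cvec hint v χ j₀) ⟨i, j⟩ =
      (hint.collectedBasis v).repr x ⟨i, j⟩ + a * (if j = j₀ then χ i else 0) := by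
  rw [map_add, map_smul, Finsupp.add_apply, Finsupp.smul_apply, repr_cvec, smul_eq_mul]

/-- A vector with non-zero coordinates in two different blocks lies in no member. -/
lemma not_mem_of_two {y : V} {i i' : Fin t} (hii : i ≠ i') {j j' : Fin m}
    (h1 : (hint.collectedBasis v).repr y ⟨i, j⟩ ≠ 0)
    (h2 : (hint.collectedBasis v).repr y ⟨i', j'⟩ ≠ 0) (k : Fin t) : y ∉ D k := by
  intro hy
  by_cases hk : k = i
  · subst hk
    exact h2 (hint.collectedBasis_repr_of_mem_ne v hii hy)
  · exact h1 (hint.collectedBasis_repr_of_mem_ne v hk hy)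

/-- An automorphism sending a vector of a member outside of all members is not in the stabiliser. -/
lemma not_perm_of_not_mem {g : V ≃ₗ[F] V} {i : Fin t} {y : V} (hy : y ∈ D i)
    (hg : ∀ k, g y ∉ D k) :
    ¬ ∃ τ : Equiv.Perm (Fin t), ∀ i, (D i).map (g : V →ₗ[F] V) = D (τ i) := by
  rintro ⟨τ, hτ⟩
  apply hg (τ i)
  rw [← hτ i]
  exact ⟨y, hy, rfl⟩

include hint v in
/-- A transvection changing the number of non-zero components. -/
theorem exists_not_mem_QGrp {i₁ i₂ : Fin t} (h12 : i₁ ≠ i₂) (j : Fin m) :
    ∃ g ∈ slGrp F V, g ∉ QGrp D := by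
  classical
  set B := hint.collectedBasis v with hB
  have h0 : (B.coord ⟨i₁, j⟩) (B ⟨i₂, j⟩) = 0 := by
    rw [Basis.coord_apply, Basis.repr_self, Finsupp.single_apply]
    simp [h12.symm]
  refine ⟨LinearEquiv.transvection h0, LinearEquiv.transvection.det_eq_one _, fun hg => ?_⟩
  have h1 := hg (B ⟨i₁, j⟩)
  rw [LinearEquiv.transvection.apply, Basis.coord_apply, Basis.repr_self, Finsupp.single_eq_same,
    one_smul] at h1
  have e1 : Qd D (B ⟨i₁, j⟩) = 1 := by
    unfold Qd
    rw [Finset.sum_eq_single i₁]
    · rw [ci_eq hint v, if_neg]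
      intro h
      have := h j
      rw [← hB, Basis.repr_self, Finsupp.single_eq_same] at this
      exact one_ne_zero this
    · intro k _ hk
      rw [ci_eq hint v, if_pos]
      intro j'
      rw [← hB, Basis.repr_self, Finsupp.single_apply, if_neg]
      simp [hk.symm]
    · simp
  have e2 : Qd D (B ⟨i₁, j⟩ + B ⟨i₂, j⟩) = 1 + 1 := by
    unfold Qd
    rw [← Finset.add_sum_erase _ _ (Finset.mem_univ i₁),
      ← Finset.add_sum_erase _ _ (Finset.mem_erase.2 ⟨h12.symm, Finset.mem_univ i₂⟩),
      Finset.sum_eq_zero, add_zero]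
    · congr 1
      · rw [ci_eq hint v, if_neg]
        intro h
        have := h j
        rw [← hB, map_add, Basis.repr_self, Basis.repr_self, Finsupp.add_apply,
          Finsupp.single_eq_same, Finsupp.single_apply, if_neg (by simp [h12.symm]), add_zero] at this
        exact one_ne_zero this
      · rw [ci_eq hint v, if_neg]
        intro h
        have := h j
        rw [← hB, map_add, Basis.repr_self, Basis.repr_self, Finsupp.add_apply,
          Finsupp.single_eq_same, Finsupp.single_apply, if_neg (by simp [h12]), zero_add] at this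
        exact one_ne_zero this
    · intro k hk
      have hk2 : k ≠ i₂ := (Finset.mem_erase.1 hk).1
      have hk1 : k ≠ i₁ := (Finset.mem_erase.1 (Finset.mem_erase.1 hk).2).1
      rw [ci_eq hint v, if_pos]
      intro j'
      rw [← hB, map_add, Basis.repr_self, Basis.repr_self, Finsupp.add_apply, Finsupp.single_apply,
        Finsupp.single_apply, if_neg (by simp [hk1.symm]), if_neg (by simp [hk2.symm]), add_zero]
  rw [e1, e2] at h1
  have : (1 : F) = 0 := by linear_combination h1
  exact one_ne_zero this

end coords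

end Cfsg.Agent.Lib.Helper17.LinDec
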