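import Cfsg.Agent.Lib.Helper17.LinDec

set_option autoImplicit false

/-! Elements preserving the number of non-zero components (modulo the characteristic) over the
fields with at most four elements. -/

namespace Cfsg.Agent.Lib.Helper17.LinDec

open Cfsg.Agent.Lib.Helper95 Module

variable {F V : Type*} [Field F] [AddCommGroup V] [Module F V]
variable {t : ℕ} {D : Fin t → Submodule F V}

/-- The indicator of the first `N` indices. -/
def chi (F : Type*) [Field F] (t N : ℕ) : Fin t → F := fun i => if (i : ℕ) < N then 1 else 0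

lemma chi_mul_self (N : ℕ) (i : Fin t) : chi F t N i * chi F t N i = chi F t N i := by
  unfold chi
  split_ifs <;> simp

lemma sum_chi {N : ℕ} (hN : N ≤ t) : ∑ i, chi F t N i = N := by
  unfold chi
  rw [Finset.sum_boole, Fin.card_filter_val_lt, min_eq_right hN]

lemma chi_of_lt {N : ℕ} {i : Fin t} (h : (i : ℕ) < N) : chi F t N i = 1 := by
  unfold chi
  rw [if_pos h]

lemma chi_of_not_lt {N : ℕ} {i : Fin t} (h : ¬ (i : ℕ) < N) : chi F t N i = 0 := by
  unfold chi
  rw [if_neg h]

section one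

variable (hint : DirectSum.IsInternal D) (v : ∀ i, Basis (Fin 1) F (D i))

lemma Qd_eq_sum_pow {e : ℕ} (he : e ≠ 0) (hpow : ∀ a : F, a ≠ 0 → a ^ e = 1) (x : V) :
    Qd D x = ∑ i, ((hint.collectedBasis v).repr x ⟨i, 0⟩) ^ e := by
  classical
  unfold Qd
  apply Finset.sum_congr rfl
  intro i _
  rw [ci_eq hint v]
  by_cases h : (hint.collectedBasis v).repr x ⟨i, 0⟩ = 0
  · rw [if_pos (by intro j; rw [Subsingleton.elim j 0]; exact h), h, zero_pow he]
  · rw [if_neg (fun h' => h (h' 0)), hpow _ h]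

lemma cfun_cvec (χ : Fin t → F) (hχ : ∀ i, χ i * χ i = χ i) :
    cfun hint v χ 0 (cvec hint v χ 0) = ∑ i, χ i := by
  rw [cfun_apply]
  apply Finset.sum_congr rfl
  intro i _
  rw [repr_cvec, if_pos rfl, hχ]

/-- invariance over the field with two elements -/
lemma Qd_T_two (hpow : ∀ a : F, a ≠ 0 → a ^ 1 = 1) (χ : Fin t → F) (hN : ∑ i, χ i = 0) (x : V) :
    Qd D (x + cfun hint v χ 0 x • cvec hint v χ 0) = Qd D x := by
  rw [Qd_eq_sum_pow hint v one_ne_zero hpow, Qd_eq_sum_pow hint v one_ne_zero hpow]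
  simp only [repr_add_smul, if_true, pow_one]
  rw [Finset.sum_add_distrib, ← Finset.mul_sum, hN, mul_zero, add_zero]

/-- invariance over the field with three elements -/
lemma Qd_T_three (hpow : ∀ a : F, a ≠ 0 → a ^ 2 = 1) (h3 : (3 : F) = 0) (χ : Fin t → F)
    (hχ : ∀ i, χ i * χ i = χ i) (hN : ∑ i, χ i = 1) (x : V) :
    Qd D (x + cfun hint v χ 0 x • cvec hint v χ 0) = Qd D x := by
  rw [Qd_eq_sum_pow hint v two_ne_zero hpow, Qd_eq_sum_pow hint v two_ne_zero hpow]
  simp only [repr_add_smul, if_true]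
  obtain ⟨s, hs⟩ : ∃ s, s = cfun hint v χ 0 x := ⟨_, rfl⟩
  rw [← hs]
  have hs' := hs
  rw [cfun_apply] at hs'
  have key : ∀ i, ((hint.collectedBasis v).repr x ⟨i, 0⟩ + s * χ i) ^ 2 =
      ((hint.collectedBasis v).repr x ⟨i, 0⟩) ^ 2 +
        (2 * s) * (χ i * (hint.collectedBasis v).repr x ⟨i, 0⟩) + s ^ 2 * χ i := by
    intro i
    linear_combination s ^ 2 * hχ i
  simp only [key]
  rw [Finset.sum_add_distrib, Finset.sum_add_distrib, ← Finset.mul_sum, ← Finset.mul_sum, ← hs', hN]
  linear_combination s ^ 2 * h3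

/-- invariance over the field with four elements -/
lemma Qd_T_four [CharP F 2] (hpow : ∀ a : F, a ≠ 0 → a ^ 3 = 1) (χ : Fin t → F)
    (hχ : ∀ i, χ i * χ i = χ i) (hN : ∑ i, χ i = 0) (x : V) :
    Qd D (x + cfun hint v χ 0 x • cvec hint v χ 0) = Qd D x := by
  have h2 : (2 : F) = 0 := CharTwo.two_eq_zero
  rw [Qd_eq_sum_pow hint v three_ne_zero hpow, Qd_eq_sum_pow hint v three_ne_zero hpow]
  simp only [repr_add_smul, if_true]
  obtain ⟨s, hs⟩ : ∃ s, s = cfun hint v χ 0 x := ⟨_, rfl⟩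
  rw [← hs]
  have hs' := hs
  rw [cfun_apply] at hs'
  have hsq : s ^ 2 = ∑ i, χ i * ((hint.collectedBasis v).repr x ⟨i, 0⟩) ^ 2 := by
    rw [hs', sum_pow_char 2]
    apply Finset.sum_congr rfl
    intro i _
    linear_combination ((hint.collectedBasis v).repr x ⟨i, 0⟩) ^ 2 * hχ i
  have key : ∀ i, ((hint.collectedBasis v).repr x ⟨i, 0⟩ + s * χ i) ^ 3 =
      ((hint.collectedBasis v).repr x ⟨i, 0⟩) ^ 3 +
        (3 * s) * (χ i * ((hint.collectedBasis v).repr x ⟨i, 0⟩) ^ 2) +
        (3 * s ^ 2) * (χ i * (hint.collectedBasis v).repr x ⟨i, 0⟩) + s ^ 3 * χ i := by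
    intro i
    linear_combination (3 * s ^ 2 * (hint.collectedBasis v).repr x ⟨i, 0⟩ + s ^ 3 * χ i + s ^ 3) * hχ i
  simp only [key]
  rw [Finset.sum_add_distrib, Finset.sum_add_distrib, Finset.sum_add_distrib, ← Finset.mul_sum,
    ← Finset.mul_sum, ← Finset.mul_sum, ← hs', ← hsq, hN]
  linear_combination 3 * s ^ 3 * h2

include hint v in
/-- the image of the second basis vector -/
lemma T_not_mem (ht : 4 ≤ t) (k : Fin t) :
    (hint.collectedBasis v ⟨⟨1, by omega⟩, 0⟩ +
      cfun hint v (chi F t 4) 0 (hint.collectedBasis v ⟨⟨1, by omega⟩, 0⟩) • cvec hint v (chi F t 4) 0)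
        ∉ D k := by
  classical
  have hφ : cfun hint v (chi F t 4) 0 (hint.collectedBasis v ⟨⟨1, by omega⟩, 0⟩) = 1 := by
    rw [cfun_apply, Finset.sum_eq_single ⟨1, by omega⟩]
    · rw [Basis.repr_self, Finsupp.single_eq_same, mul_one, chi_of_lt (by simp)]
    · intro b _ hb
      rw [Basis.repr_self, Finsupp.single_apply, if_neg (by simp [hb.symm]), mul_zero]
    · simp
  rw [hφ]
  apply not_mem_of_two hint v (i := ⟨2, by omega⟩) (i' := ⟨3, by omega⟩) (j := 0) (j' := 0) (by simp)
  · rw [repr_add_smul, if_pos rfl, Basis.repr_self, Finsupp.single_apply, if_neg (by simp),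
      chi_of_lt (by simp)]
    simp
  · rw [repr_add_smul, if_pos rfl, Basis.repr_self, Finsupp.single_apply, if_neg (by simp),
      chi_of_lt (by simp)]
    simp

include hint v in
/-- fields with two or four elements: a transvection -/
theorem exists_h1_even (ht : 4 ≤ t) (h4 : (4 : F) = 0)
    (hinv : ∀ x, Qd D (x + cfun hint v (chi F t 4) 0 x • cvec hint v (chi F t 4) 0) = Qd D x) :
    ∃ g ∈ slGrp F V, g ∈ QGrp D ∧
      ¬ ∃ τ : Equiv.Perm (Fin t), ∀ i, (D i).map (g : V →ₗ[F] V) = D (τ i) := by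
  have h0 : cfun hint v (chi F t 4) 0 (cvec hint v (chi F t 4) 0) = 0 := by
    rw [cfun_cvec hint v _ (chi_mul_self 4), sum_chi ht]
    exact_mod_cast h4
  refine ⟨LinearEquiv.transvection h0, LinearEquiv.transvection.det_eq_one _, ?_, ?_⟩
  · intro x
    rw [LinearEquiv.transvection.apply]
    exact hinv x
  · apply not_perm_of_not_mem (hint.collectedBasis_mem v ⟨⟨1, by omega⟩, 0⟩)
    intro k
    rw [LinearEquiv.transvection.apply]
    exact T_not_mem hint v ht k

include hint v in
lemma exists_refl [FiniteDimensional F V] (h2 : (2 : F) ≠ 0) (χ : Fin t → F)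
    (hχ : ∀ i, χ i * χ i = χ i) (hN : ∑ i, χ i = 1) :
    ∃ r : V ≃ₗ[F] V, (∀ x, r x = x + cfun hint v χ 0 x • cvec hint v χ 0) ∧
      ((LinearEquiv.det r : Fˣ) : F) = 2 := by
  have hu : IsUnit (1 + cfun hint v χ 0 (cvec hint v χ 0)) := by
    rw [cfun_cvec hint v χ hχ, hN, isUnit_iff_ne_zero]
    intro h
    exact h2 (by linear_combination h)
  refine ⟨LinearEquiv.dilatransvection hu, fun x => LinearEquiv.dilatransvection.apply, ?_⟩
  rw [LinearEquiv.coe_det]
  have : ((LinearEquiv.dilatransvection hu : V ≃ₗ[F] V) : V →ₗ[F] V) =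
      LinearMap.transvection (cfun hint v χ 0) (cvec hint v χ 0) := by
    ext x
    rw [LinearEquiv.coe_coe, LinearEquiv.dilatransvection.apply, LinearMap.transvection.apply]
  rw [this, LinearMap.transvection.det, cfun_cvec hint v χ hχ, hN]
  norm_num

include hint v in
/-- the field with three elements: a product of two reflections -/
theorem exists_h1_three [FiniteDimensional F V] (ht : 4 ≤ t) (h3 : (3 : F) = 0)
    (hpow : ∀ a : F, a ≠ 0 → a ^ 2 = 1) :
    ∃ g ∈ slGrp F V, g ∈ QGrp D ∧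
      ¬ ∃ τ : Equiv.Perm (Fin t), ∀ i, (D i).map (g : V →ₗ[F] V) = D (τ i) := by
  classical
  have h2 : (2 : F) ≠ 0 := by
    intro h
    have : (1 : F) = 0 := by linear_combination h3 - h
    exact one_ne_zero this
  have hN4 : ∑ i, chi F t 4 i = 1 := by
    rw [sum_chi ht]
    push_cast
    linear_combination h3
  have hN1 : ∑ i, chi F t 1 i = 1 := by
    rw [sum_chi (by omega)]
    simp
  obtain ⟨r, hr, hrd⟩ := exists_refl hint v h2 (chi F t 4) (chi_mul_self 4) hN4
  obtain ⟨r', hr', hrd'⟩ := exists_refl hint v h2 (chi F t 1) (chi_mul_self 1) hN1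
  refine ⟨r * r', ?_, ?_, ?_⟩
  · change LinearEquiv.det (r * r') = 1
    apply Units.ext
    rw [map_mul, Units.val_mul, hrd, hrd']
    simp only [Units.val_one]
    linear_combination h3
  · intro x
    rw [LinearEquiv.mul_apply, hr, Qd_T_three hint v hpow h3 _ (chi_mul_self 4) hN4, hr',
      Qd_T_three hint v hpow h3 _ (chi_mul_self 1) hN1]
  · apply not_perm_of_not_mem (hint.collectedBasis_mem v ⟨⟨1, by omega⟩, 0⟩)
    intro k
    have e : r' (hint.collectedBasis v ⟨⟨1, by omega⟩, 0⟩) = hint.collectedBasis v ⟨⟨1, by omega⟩, 0⟩ := by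
      rw [hr']
      have : cfun hint v (chi F t 1) 0 (hint.collectedBasis v ⟨⟨1, by omega⟩, 0⟩) = 0 := by
        rw [cfun_apply]
        apply Finset.sum_eq_zero
        intro b _
        by_cases hb : b = ⟨1, by omega⟩
        · subst hb
          rw [chi_of_not_lt (by simp), zero_mul]
        · rw [Basis.repr_self, Finsupp.single_apply, if_neg (by simp [Ne.symm hb]), mul_zero]
      rw [this, zero_smul, add_zero]
    rw [LinearEquiv.mul_apply, e, hr]
    exact T_not_mem hint v ht k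

end one

section two

variable (hint : DirectSum.IsInternal D) (v : ∀ i, Basis (Fin 2) F (D i))

lemma Qd_eq_sum_two (h2 : ∀ c : F, c = 0 ∨ c = 1) (h11 : (1 : F) + 1 = 0) (x : V) :
    Qd D x = ∑ i, ((hint.collectedBasis v).repr x ⟨i, 0⟩ + (hint.collectedBasis v).repr x ⟨i, 1⟩ +
      (hint.collectedBasis v).repr x ⟨i, 0⟩ * (hint.collectedBasis v).repr x ⟨i, 1⟩) := by
  classical
  unfold Qd
  apply Finset.sum_congr rfl
  intro i _
  rw [ci_eq hint v, if_congr Fin.forall_fin_two rfl rfl]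
  rcases h2 ((hint.collectedBasis v).repr x ⟨i, 0⟩) with h | h <;>
    rcases h2 ((hint.collectedBasis v).repr x ⟨i, 1⟩) with h' | h' <;> simp [h, h', h11]

include hint v in
/-- planes over the field with two elements: a transvection -/
theorem exists_h1_planes (ht : 3 ≤ t) (h2 : ∀ c : F, c = 0 ∨ c = 1) (h11 : (1 : F) + 1 = 0) :
    ∃ g ∈ slGrp F V, g ∈ QGrp D ∧
      ¬ ∃ τ : Equiv.Perm (Fin t), ∀ i, (D i).map (g : V →ₗ[F] V) = D (τ i) := by
  classical
  have h0 : cfun hint v (chi F t 3) 1 (cvec hint v (chi F t 3) 0) = 0 := by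
    rw [cfun_apply]
    apply Finset.sum_eq_zero
    intro i _
    rw [repr_cvec, if_neg (by simp), mul_zero]
  refine ⟨LinearEquiv.transvection h0, LinearEquiv.transvection.det_eq_one _, ?_, ?_⟩
  · intro x
    rw [LinearEquiv.transvection.apply, Qd_eq_sum_two hint v h2 h11, Qd_eq_sum_two hint v h2 h11]
    simp only [repr_add_smul, if_true]
    obtain ⟨s, hs⟩ : ∃ s, s = cfun hint v (chi F t 3) 1 x := ⟨_, rfl⟩
    rw [← hs]
    have hs' := hs
    rw [cfun_apply] at hs'
    have key : ∀ i, ((hint.collectedBasis v).repr x ⟨i, 0⟩ + s * chi F t 3 i +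
        ((hint.collectedBasis v).repr x ⟨i, 1⟩ + s * if (1 : Fin 2) = 0 then chi F t 3 i else 0) +
        ((hint.collectedBasis v).repr x ⟨i, 0⟩ + s * chi F t 3 i) *
        ((hint.collectedBasis v).repr x ⟨i, 1⟩ + s * if (1 : Fin 2) = 0 then chi F t 3 i else 0)) =
      ((hint.collectedBasis v).repr x ⟨i, 0⟩ + (hint.collectedBasis v).repr x ⟨i, 1⟩ +
      (hint.collectedBasis v).repr x ⟨i, 0⟩ * (hint.collectedBasis v).repr x ⟨i, 1⟩) +
      s * chi F t 3 i + s * (chi F t 3 i * (hint.collectedBasis v).repr x ⟨i, 1⟩) := by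
      intro i
      rw [if_neg (by simp)]
      ring
    simp only [key]
    rw [Finset.sum_add_distrib, Finset.sum_add_distrib, ← Finset.mul_sum, ← Finset.mul_sum, ← hs',
      sum_chi ht]
    push_cast
    rcases h2 s with h | h
    · rw [h]; ring
    · rw [h]; linear_combination 2 * h11
  · apply not_perm_of_not_mem (hint.collectedBasis_mem v ⟨⟨0, by omega⟩, 1⟩)
    intro k
    rw [LinearEquiv.transvection.apply]
    have hφ : cfun hint v (chi F t 3) 1 (hint.collectedBasis v ⟨⟨0, by omega⟩, 1⟩) = 1 := by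
      rw [cfun_apply, Finset.sum_eq_single ⟨0, by omega⟩]
      · rw [Basis.repr_self, Finsupp.single_eq_same, mul_one, chi_of_lt (by simp)]
      · intro b _ hb
        rw [Basis.repr_self, Finsupp.single_apply, if_neg (by simp [hb.symm]), mul_zero]
      · simp
    rw [hφ]
    apply not_mem_of_two hint v (i := ⟨1, by omega⟩) (i' := ⟨2, by omega⟩) (j := 0) (j' := 0)
      (by simp)
    · rw [repr_add_smul, if_pos rfl, Basis.repr_self, Finsupp.single_apply, if_neg (by simp),
        chi_of_lt (by simp)]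
      simp
    · rw [repr_add_smul, if_pos rfl, Basis.repr_self, Finsupp.single_apply, if_neg (by simp),
        chi_of_lt (by simp)]
      simp

end two

end Cfsg.Agent.Lib.Helper17.LinDec
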