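import Cfsg.Agent.Lib.Helper95.OmPerp2

set_option autoImplicit false
set_option linter.unusedSimpArgs false

namespace Cfsg.Agent.Lib.Helper17.OmSiegFive

open QuadraticMap Module Cfsg.Agent.Lib.Helper49 Cfsg.Agent.Lib.Helper95

variable {F V : Type*} [Field F] [AddCommGroup V] [Module F V] {Q : QuadraticForm F V}

/-- a non-singular vector orthogonal to one vector and to two orthogonal non-singular vectors -/
lemma exists_perp_nonsing3 [FiniteDimensional F V] (hnd : (polarBilin Q).Nondegenerate)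
    (h2 : (2 : F) ≠ 0) (c : V) {e₁ e₂ : V} (he₁ : Q e₁ ≠ 0) (he₂ : Q e₂ ≠ 0)
    (h12 : polar Q e₁ e₂ = 0) (hk : 4 < finrank F V) :
    ∃ z, polar Q z c = 0 ∧ polar Q z e₁ = 0 ∧ polar Q z e₂ = 0 ∧ Q z ≠ 0 := by
  by_contra hcon
  push Not at hcon
  let B : LinearMap.BilinForm F V := polarBilin Q
  let a' : Fin 3 → V := ![e₁, e₂, c]
  let L : V →ₗ[F] (Fin 3 → F) := LinearMap.pi (fun i => B.flip (a' i))
  have hmem : ∀ z, z ∈ LinearMap.ker L ↔ ∀ i, polar Q z (a' i) = 0 := by
    intro z
    rw [LinearMap.mem_ker]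
    constructor
    · intro h i
      have := congrFun h i
      simpa [L, B] using this
    · intro h
      ext i
      simpa [L, B] using h i
  have hsing : ∀ z, z ∈ LinearMap.ker L → Q z = 0 := by
    intro z hz
    have h := (hmem z).1 hz
    exact hcon z (h 2) (h 0) (h 1)
  have h1 : LinearMap.ker L ≤ (Submodule.span F (Set.range a') ⊓ LinearMap.ker (polarBilin Q e₁))
      ⊓ LinearMap.ker (polarBilin Q e₂) := by
    intro w hw
    refine ⟨⟨?_, ?_⟩, ?_⟩
    · apply smem_span_of_perp (B := B) hnd a'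
      intro z hz
      have hz' : z ∈ LinearMap.ker L := (hmem z).2 (fun i => by simpa [B] using hz i)
      have e1 := hsing z hz'
      have e2 := hsing w hw
      have e3 := hsing (z + w) ((LinearMap.ker L).add_mem hz' hw)
      change polar Q z w = 0
      simp only [polar, e1, e2, e3]; ring
    · change w ∈ LinearMap.ker (polarBilin Q e₁)
      rw [LinearMap.mem_ker, polarBilin_apply_apply, polar_comm]
      exact (hmem w).1 hw 0
    · change w ∈ LinearMap.ker (polarBilin Q e₂)
      rw [LinearMap.mem_ker, polarBilin_apply_apply, polar_comm]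
      exact (hmem w).1 hw 1
  have h5 := finrank_inf_ker_add_one (Submodule.span F (Set.range a')) (polarBilin Q e₁)
    ⟨e₁, Submodule.subset_span ⟨0, rfl⟩, by
      rw [polarBilin_apply_apply, polar_self]
      simp only [nsmul_eq_mul]; push_cast
      exact mul_ne_zero h2 he₁⟩
  have h5' := finrank_inf_ker_add_one
    (Submodule.span F (Set.range a') ⊓ LinearMap.ker (polarBilin Q e₁)) (polarBilin Q e₂)
    ⟨e₂, ⟨Submodule.subset_span ⟨1, rfl⟩, by
      change e₂ ∈ LinearMap.ker (polarBilin Q e₁)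
      rw [LinearMap.mem_ker, polarBilin_apply_apply]; exact h12⟩, by
      rw [polarBilin_apply_apply, polar_self]
      simp only [nsmul_eq_mul]; push_cast
      exact mul_ne_zero h2 he₂⟩
  have h6 : finrank F (Submodule.span F (Set.range a')) ≤ 3 := by
    have := finrank_range_le_card (R := F) a'
    rw [Fintype.card_fin] at this
    exact this
  have h7 := Submodule.finrank_mono h1
  have h3 := LinearMap.finrank_range_add_finrank_ker L
  have h4 : finrank F (LinearMap.range L) ≤ 3 := by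
    simpa using Submodule.finrank_le (LinearMap.range L)
  omega

/-- prescribed norm, orthogonal to a non-singular vector and one more vector -/
lemma exists_perp_norm [Fintype F] [FiniteDimensional F V] (hnd : (polarBilin Q).Nondegenerate)
    (h2 : (2 : F) ≠ 0) (hk : 4 < finrank F V) {a : V} (ha : Q a ≠ 0) (c : V) (δ : F) :
    ∃ e, Q e = δ ∧ polar Q e a = 0 ∧ polar Q e c = 0 := by
  obtain ⟨e₁, h1c, h1a, h11⟩ := qexists_perp_nonsing2 Q hnd h2 ![c] ha (by omega)
  obtain ⟨e₂, h2c, h2a, h21, h22⟩ := exists_perp_nonsing3 hnd h2 c ha h11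
    (by rw [polar_comm]; exact h1a) hk
  obtain ⟨x, y, hxy⟩ := exists_sq_add_sq' _ _ δ h11 h22
  have h1c' : polar Q e₁ c = 0 := h1c 0
  refine ⟨x • e₁ + y • e₂, ?_, ?_, ?_⟩
  · rw [qmap_add, QuadraticMap.map_smul, QuadraticMap.map_smul, polar_smul_left, polar_smul_right,
      polar_comm Q e₁ e₂, h21]
    simp only [smul_eq_mul]
    linear_combination hxy
  · simp [polar_add_left, polar_smul_left, h1a, h2a]
  · simp [polar_add_left, polar_smul_left, h1c', h2c]

lemma polar_self' (a : V) : polar Q a a = 2 * Q a := by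
  rw [polar_self]; simp only [nsmul_eq_mul]; push_cast; ring

lemma exists_sg_map [Fintype F] [FiniteDimensional F V] (hQ : (polarBilin Q).Nondegenerate)
    (h2 : (2 : F) ≠ 0) (hd : 4 < finrank F V) {a w : V} (ha : Q a ≠ 0) (hw : Q w = 0)
    (haw : polar Q a w = 0) :
    ∃ u, ∃ h : SPair Q u w, (sg h).1 a = a + w := by
  obtain ⟨e, heq, hea, hew⟩ := exists_perp_norm hQ h2 hd ha w (-(4 * Q a)⁻¹)
  have h4 : (4 : F) ≠ 0 := by
    have : (4 : F) = 2 * 2 := by norm_num
    rw [this]; exact mul_ne_zero h2 h2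
  have hs : SPair Q ((2 * Q a)⁻¹ • a + e) w := by
    refine ⟨?_, hw, ?_⟩
    · rw [qmap_add, heq, polar_smul_left, polar_comm Q a e, hea, QuadraticMap.map_smul]
      simp only [smul_eq_mul]
      field_simp
      ring
    · rw [polar_add_left, polar_smul_left, haw, hew]; simp
  refine ⟨_, hs, ?_⟩
  rw [sg_apply, polar_add_left, polar_smul_left, polar_self', hea, polar_comm Q w a, haw]
  have : (2 * Q a)⁻¹ • (2 * Q a) + 0 = (1 : F) := by
    rw [smul_eq_mul, add_zero, inv_mul_cancel₀ (mul_ne_zero h2 ha)]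
  rw [this]
  simp

/-- a singular vector orthogonal to `a` with prescribed product with `b` -/
lemma exists_sing_perp [Fintype F] [FiniteDimensional F V] (hQ : (polarBilin Q).Nondegenerate)
    (h2 : (2 : F) ≠ 0) (hd : 4 < finrank F V) {a b : V} (ha : Q a ≠ 0) (hb : ∀ c : F, b ≠ c • a)
    (γ : F) : ∃ w, Q w = 0 ∧ polar Q a w = 0 ∧ polar Q b w = γ := by
  obtain ⟨μ, hμ⟩ : ∃ μ : F, μ = polar Q b a / (2 * Q a) := ⟨_, rfl⟩
  obtain ⟨b', hb'⟩ : ∃ b' : V, b' = b - μ • a := ⟨_, rfl⟩
  have h2a : 2 * Q a ≠ 0 := mul_ne_zero h2 ha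
  have hb'a : polar Q b' a = 0 := by
    rw [hb', polar_sub_left, polar_smul_left, polar_self', hμ, smul_eq_mul]
    field_simp
    ring
  have hbb' : b = b' + μ • a := by rw [hb']; abel
  by_cases hq : Q b' = 0
  · obtain ⟨z, hza, hzb⟩ := qsep1 hQ (x := a) (w := b') (by
      intro c hc
      apply hb (c + μ)
      rw [hbb', hc, add_smul])
    have hb'b' : polar Q b' b' = 0 := by rw [polar_self', hq, mul_zero]
    refine ⟨γ • (z - Q z • b'), ?_, ?_, ?_⟩
    · rw [QuadraticMap.map_smul, qmap_sub, QuadraticMap.map_smul, hq, polar_smul_right, hzb]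
      simp
    · rw [polar_smul_right, polar_sub_right, polar_smul_right, polar_comm Q a z, hza,
        polar_comm Q a b', hb'a]
      simp
    · rw [hbb', polar_smul_right, polar_sub_right, polar_smul_right, polar_add_left,
        polar_add_left, polar_smul_left, polar_smul_left, polar_comm Q b' z, hzb, hb'b',
        polar_comm Q a z, hza, polar_comm Q a b', hb'a]
      simp
  · obtain ⟨l, hl⟩ : ∃ l : F, l = γ / (2 * Q b') := ⟨_, rfl⟩
    obtain ⟨e, heq, hea, heb⟩ := exists_perp_norm hQ h2 hd ha b' (-(l ^ 2 * Q b'))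
    refine ⟨l • b' + e, ?_, ?_, ?_⟩
    · rw [qmap_add, QuadraticMap.map_smul, heq, polar_smul_left, polar_comm Q b' e, heb]
      simp only [smul_eq_mul]; ring
    · rw [polar_add_right, polar_smul_right, polar_comm Q a b', hb'a, polar_comm Q a e, hea]
      simp
    · rw [hbb', polar_add_right, polar_smul_right, polar_add_left, polar_add_left,
        polar_smul_left, polar_smul_left, polar_self', polar_comm Q a b', hb'a,
        polar_comm Q b' e, heb, polar_comm Q a e, hea, hl]
      simp only [smul_eq_mul]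
      field_simp
      ring

/-- a subgroup containing all long root elements is transitive on vectors of a given norm -/
lemma exists_map_of_sg [Fintype F] [FiniteDimensional F V] (hQ : (polarBilin Q).Nondegenerate)
    (h2 : (2 : F) ≠ 0) (hd : 4 < finrank F V) (N : Subgroup (OG Q))
    (hN : ∀ (u v : V) (h : SPair Q u v), sg h ∈ N)
    {a b : V} (ha : Q a ≠ 0) (hab : Q a = Q b) : ∃ κ ∈ N, κ.1 a = b := by
  have T1 : ∀ a b : V, Q a ≠ 0 → Q a = Q b → Q (b - a) = 0 → ∃ κ ∈ N, κ.1 a = b := by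
    intro a b ha hab hw
    have haw : polar Q a (b - a) = 0 := by
      have e1 : Q b = Q (a + (b - a)) := by rw [add_sub_cancel]
      rw [qmap_add, hw, ← hab] at e1
      linear_combination -e1
    obtain ⟨u, h, hu⟩ := exists_sg_map hQ h2 hd ha hw haw
    exact ⟨sg h, hN _ _ h, by rw [hu, add_sub_cancel]⟩
  have T2 : ∀ a b : V, Q a ≠ 0 → Q a = Q b → (∀ c : F, b ≠ c • a) → ∃ κ ∈ N, κ.1 a = b := by
    intro a b ha hab hb
    obtain ⟨w₁, hQw, haw, hbw⟩ := exists_sing_perp hQ h2 hd ha hb (Q (b - a))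
    have hQc : Q (a + w₁) = Q a := by rw [qmap_add, hQw, haw]; ring
    obtain ⟨κ₁, hκ₁, h1⟩ := T1 a (a + w₁) ha hQc.symm (by rw [add_sub_cancel_left]; exact hQw)
    obtain ⟨κ₂, hκ₂, h2⟩ := T1 (a + w₁) b (by rw [hQc]; exact ha) (by rw [hQc]; exact hab) (by
      have e1 : b - (a + w₁) = (b - a) - w₁ := by abel
      rw [e1, qmap_sub, hQw, polar_sub_left, hbw, haw]; ring)
    exact ⟨κ₂ * κ₁, N.mul_mem hκ₂ hκ₁, by
      rw [Subgroup.coe_mul, LinearEquiv.mul_apply, h1, h2]⟩
  by_cases hb : ∀ c : F, b ≠ c • a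
  · exact T2 a b ha hab hb
  · push Not at hb
    obtain ⟨l, rfl⟩ := hb
    obtain ⟨c, hcq, hca, -⟩ := exists_perp_norm hQ h2 hd ha a (Q a)
    have h2a : 2 * Q a ≠ 0 := mul_ne_zero h2 ha
    obtain ⟨κ₁, hκ₁, h1⟩ := T2 a c ha hcq.symm (by
      rintro t rfl
      rw [polar_smul_left, polar_self', smul_eq_mul] at hca
      have ht : t = 0 := (mul_eq_zero.1 hca).resolve_right h2a
      rw [ht, zero_smul, map_zero] at hcq
      exact ha hcq.symm)
    obtain ⟨κ₂, hκ₂, h2⟩ := T2 c (l • a) (by rw [hcq]; exact ha) (by rw [hcq]; exact hab) (by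
      intro t ht
      have e1 : polar Q (l • a) a = polar Q (t • c) a := by rw [ht]
      rw [polar_smul_left, polar_smul_left, hca, polar_self', smul_eq_mul, smul_zero] at e1
      have hl : l = 0 := (mul_eq_zero.1 e1).resolve_right h2a
      rw [hl, zero_smul, map_zero] at hab
      exact ha hab)
    exact ⟨κ₂ * κ₁, N.mul_mem hκ₂ hκ₁, by
      rw [Subgroup.coe_mul, LinearEquiv.mul_apply, h1, h2]⟩

/-- `Ω` is contained in every subgroup containing all long root elements (`dim ≥ 5`, odd `q`). -/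
theorem commutator_le_of_sg [Fintype F] [FiniteDimensional F V]
    (hQ : (polarBilin Q).Nondegenerate) (h2 : (2 : F) ≠ 0) (hd : 4 < finrank F V)
    (M : Subgroup (OG Q))
    (hM : ∀ (u v : V) (h : SPair Q u v), sg h ∈ M) : commutator (OG Q) ≤ M := by
  set N : Subgroup (OG Q) := Subgroup.normalClosure {g | ∃ (u v : V) (h : SPair Q u v), g = sg h}
    with hN
  have hNM : N ≤ M := by
    rw [hN, Subgroup.normalClosure, Subgroup.closure_le]
    intro x hx
    rw [Group.mem_conjugatesOfSet_iff] at hx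
    obtain ⟨y, ⟨u, v, h, rfl⟩, hc⟩ := hx
    obtain ⟨c, hc⟩ := isConj_iff.1 hc
    rw [← hc, sg_conj]
    exact hM _ _ _
  refine commutator_le_of_pairs Q hQ (Or.inr (by omega)) M ?_
  intro a b ha hab
  obtain ⟨κ, hκ, rfl⟩ := exists_map_of_sg hQ h2 hd N
    (fun u v h => Subgroup.subset_normalClosure ⟨u, v, h, rfl⟩) ha hab
  apply hNM
  have e1 : refl Q a * refl Q (κ.1 a) = (refl Q a * κ * (refl Q a)⁻¹) * κ⁻¹ := by
    rw [← refl_conj, refl_inv]; group
  rw [e1]
  have hnorm : N.Normal := Subgroup.normalClosure_normal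
  exact N.mul_mem (hnorm.conj_mem κ hκ _) (N.inv_mem hκ)

end Cfsg.Agent.Lib.Helper17.OmSiegFive
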