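import Cfsg.Agent.Lib.Helper17.RootTransfer

set_option autoImplicit false

namespace Cfsg.Agent.Lib.Helper17.OrthRoot

open Matrix Cfsg
open Cfsg.Agent.Lib.Helper85

variable {F : Type*} [Field F] {n : ℕ}

/-- the hyperbolic quadratic form -/
abbrev Q (v : Fin n ⊕ Fin n → F) : F := Cfsg.quadFormPlus n F v

/-- its polar form -/
def B (u v : Fin n ⊕ Fin n → F) : F :=
  ∑ i : Fin n, (u (.inl i) * v (.inr i) + u (.inr i) * v (.inl i))

theorem Q_add (u v : Fin n ⊕ Fin n → F) : Q (u + v) = Q u + Q v + B u v := by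
  simp only [Q, Cfsg.quadFormPlus, B, ← Finset.sum_add_distrib, Pi.add_apply]
  apply Finset.sum_congr rfl
  intro i _
  ring

theorem Q_smul (a : F) (v : Fin n ⊕ Fin n → F) : Q (a • v) = a ^ 2 * Q v := by
  simp only [Q, Cfsg.quadFormPlus, Finset.mul_sum, Pi.smul_apply, smul_eq_mul]
  apply Finset.sum_congr rfl
  intro i _
  ring

theorem Q_zero : Q (0 : Fin n ⊕ Fin n → F) = 0 := by
  simp [Q, Cfsg.quadFormPlus]

theorem B_comm (u v : Fin n ⊕ Fin n → F) : B u v = B v u := by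
  simp only [B]
  apply Finset.sum_congr rfl
  intro i _
  ring

theorem B_add_left (u u' v : Fin n ⊕ Fin n → F) : B (u + u') v = B u v + B u' v := by
  simp only [B, ← Finset.sum_add_distrib, Pi.add_apply]
  apply Finset.sum_congr rfl
  intro i _
  ring

theorem B_smul_left (a : F) (u v : Fin n ⊕ Fin n → F) : B (a • u) v = a * B u v := by
  simp only [B, Finset.mul_sum, Pi.smul_apply, smul_eq_mul]
  apply Finset.sum_congr rfl
  intro i _
  ring

theorem B_add_right (u v v' : Fin n ⊕ Fin n → F) : B u (v + v') = B u v + B u v' := by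
  rw [B_comm, B_add_left, B_comm v, B_comm v']

theorem B_smul_right (a : F) (u v : Fin n ⊕ Fin n → F) : B u (a • v) = a * B u v := by
  rw [B_comm, B_smul_left, B_comm v]

theorem B_neg_left (u v : Fin n ⊕ Fin n → F) : B (-u) v = -B u v := by
  have := B_smul_left (-1) u v
  simpa using this

theorem B_neg_right (u v : Fin n ⊕ Fin n → F) : B u (-v) = -B u v := by
  rw [B_comm, B_neg_left, B_comm v]

theorem B_sub_left (u u' v : Fin n ⊕ Fin n → F) : B (u - u') v = B u v - B u' v := by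
  rw [sub_eq_add_neg, B_add_left, B_neg_left, sub_eq_add_neg]

theorem B_sub_right (u v v' : Fin n ⊕ Fin n → F) : B u (v - v') = B u v - B u v' := by
  rw [sub_eq_add_neg, B_add_right, B_neg_right, sub_eq_add_neg]

theorem B_zero_left (v : Fin n ⊕ Fin n → F) : B 0 v = 0 := by
  simp [B]

theorem B_zero_right (v : Fin n ⊕ Fin n → F) : B v 0 = 0 := by
  simp [B]

theorem B_self (v : Fin n ⊕ Fin n → F) : B v v = 2 * Q v := by
  simp only [B, Q, Cfsg.quadFormPlus, Finset.mul_sum]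
  apply Finset.sum_congr rfl
  intro i _
  ring

theorem Q_neg (v : Fin n ⊕ Fin n → F) : Q (-v) = Q v := by
  have := Q_smul (-1) v
  simpa using this

theorem Q_sub (u v : Fin n ⊕ Fin n → F) : Q (u - v) = Q u + Q v - B u v := by
  rw [sub_eq_add_neg, Q_add, Q_neg, B_neg_right, sub_eq_add_neg]

theorem B_eq (u v : Fin n ⊕ Fin n → F) : Q (u + v) - Q u - Q v = B u v := by
  rw [Q_add]; ring

theorem B_nondeg {u : Fin n ⊕ Fin n → F} (h : ∀ v, B u v = 0) : u = 0 := by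
  classical
  funext j
  rcases j with i | i
  · have := h (Pi.single (Sum.inr i) 1)
    simp only [B, Pi.single_apply] at this
    simpa using this
  · have := h (Pi.single (Sum.inl i) 1)
    simp only [B, Pi.single_apply] at this
    simpa using this

theorem exists_B_ne {u : Fin n ⊕ Fin n → F} (hu : u ≠ 0) : ∃ v, B u v ≠ 0 := by
  by_contra h
  push Not at h
  exact hu (B_nondeg h)

theorem exists_B_one {u : Fin n ⊕ Fin n → F} (hu : u ≠ 0) : ∃ v, B u v = 1 := by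
  obtain ⟨v, hv⟩ := exists_B_ne hu
  exact ⟨(B u v)⁻¹ • v, by rw [B_smul_right, inv_mul_cancel₀ hv]⟩

/-- the matrix of an isometry -/
abbrev gm (σ : ↥(Cfsg.isometryGroup F (Cfsg.quadFormPlus n F))) :
    Matrix (Fin n ⊕ Fin n) (Fin n ⊕ Fin n) F :=
  ((σ : Matrix.GeneralLinearGroup (Fin n ⊕ Fin n) F) : Matrix (Fin n ⊕ Fin n) (Fin n ⊕ Fin n) F)

theorem gm_mul_mulVec (σ τ : ↥(Cfsg.isometryGroup F (Cfsg.quadFormPlus n F)))
    (v : Fin n ⊕ Fin n → F) : gm (σ * τ) *ᵥ v = gm σ *ᵥ (gm τ *ᵥ v) := by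
  rw [Matrix.mulVec_mulVec]
  rfl

theorem gm_one_mulVec (v : Fin n ⊕ Fin n → F) :
    gm (1 : ↥(Cfsg.isometryGroup F (Cfsg.quadFormPlus n F))) *ᵥ v = v := by
  change (1 : Matrix (Fin n ⊕ Fin n) (Fin n ⊕ Fin n) F) *ᵥ v = v
  rw [Matrix.one_mulVec]

theorem gm_inv_mulVec (σ : ↥(Cfsg.isometryGroup F (Cfsg.quadFormPlus n F)))
    (v : Fin n ⊕ Fin n → F) : gm σ⁻¹ *ᵥ (gm σ *ᵥ v) = v := by
  rw [← gm_mul_mulVec, inv_mul_cancel, gm_one_mulVec]

theorem gm_mulVec_inv (σ : ↥(Cfsg.isometryGroup F (Cfsg.quadFormPlus n F)))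
    (v : Fin n ⊕ Fin n → F) : gm σ *ᵥ (gm σ⁻¹ *ᵥ v) = v := by
  rw [← gm_mul_mulVec, mul_inv_cancel, gm_one_mulVec]

theorem g_ext {σ τ : ↥(Cfsg.isometryGroup F (Cfsg.quadFormPlus n F))}
    (h : ∀ v, gm σ *ᵥ v = gm τ *ᵥ v) : σ = τ := by
  apply Subtype.ext
  apply Units.ext
  rw [Matrix.ext_iff_mulVec]
  exact h

theorem Q_gm (σ : ↥(Cfsg.isometryGroup F (Cfsg.quadFormPlus n F))) (v : Fin n ⊕ Fin n → F) :
    Q (gm σ *ᵥ v) = Q v := σ.2 v v

theorem B_gm (σ : ↥(Cfsg.isometryGroup F (Cfsg.quadFormPlus n F))) (u v : Fin n ⊕ Fin n → F) :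
    B (gm σ *ᵥ u) (gm σ *ᵥ v) = B u v := by
  rw [← B_eq, ← B_eq, ← Matrix.mulVec_add, Q_gm, Q_gm, Q_gm]

theorem gm_ne_zero (σ : ↥(Cfsg.isometryGroup F (Cfsg.quadFormPlus n F))) {v : Fin n ⊕ Fin n → F}
    (hv : v ≠ 0) : gm σ *ᵥ v ≠ 0 := by
  intro h0
  apply hv
  have := gm_inv_mulVec σ v
  rw [h0, Matrix.mulVec_zero] at this
  exact this.symm

/-- an isometry from a pair of mutually inverse linear maps -/
noncomputable def mkG (L L' : (Fin n ⊕ Fin n → F) →ₗ[F] (Fin n ⊕ Fin n → F))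
    (h1 : ∀ v, L (L' v) = v) (h2 : ∀ v, L' (L v) = v) (hQ : ∀ v, Q (L v) = Q v) :
    ↥(Cfsg.isometryGroup F (Cfsg.quadFormPlus n F)) :=
  ⟨⟨LinearMap.toMatrix' L, LinearMap.toMatrix' L', by
      rw [Matrix.ext_iff_mulVec]
      intro v
      rw [← Matrix.mulVec_mulVec, LinearMap.toMatrix'_mulVec, LinearMap.toMatrix'_mulVec, h1,
        Matrix.one_mulVec], by
      rw [Matrix.ext_iff_mulVec]
      intro v
      rw [← Matrix.mulVec_mulVec, LinearMap.toMatrix'_mulVec, LinearMap.toMatrix'_mulVec, h2,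
        Matrix.one_mulVec]⟩, by
    intro u _
    change Q (LinearMap.toMatrix' L *ᵥ u) = Q u
    rw [LinearMap.toMatrix'_mulVec, hQ]⟩

theorem mkG_mulVec (L L' : (Fin n ⊕ Fin n → F) →ₗ[F] (Fin n ⊕ Fin n → F))
    (h1 : ∀ v, L (L' v) = v) (h2 : ∀ v, L' (L v) = v) (hQ : ∀ v, Q (L v) = Q v)
    (v : Fin n ⊕ Fin n → F) : gm (mkG L L' h1 h2 hQ) *ᵥ v = L v :=
  LinearMap.toMatrix'_mulVec L v

/-- a singular pair: a basis-candidate of a totally singular line -/
structure SP (p r : Fin n ⊕ Fin n → F) : Prop where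
  hp : Q p = 0
  hr : Q r = 0
  hpr : B p r = 0

theorem SP.hrp {p r : Fin n ⊕ Fin n → F} (h : SP p r) : B r p = 0 := by rw [B_comm, h.hpr]

theorem SP.hpp {p r : Fin n ⊕ Fin n → F} (h : SP p r) : B p p = 0 := by rw [B_self, h.hp, mul_zero]

theorem SP.hrr {p r : Fin n ⊕ Fin n → F} (h : SP p r) : B r r = 0 := by rw [B_self, h.hr, mul_zero]

theorem SP.symm {p r : Fin n ⊕ Fin n → F} (h : SP p r) : SP r p := ⟨h.hr, h.hp, h.hrp⟩

/-- the Siegel transformation as a linear map -/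
def sgLin (p r : Fin n ⊕ Fin n → F) (c : F) :
    (Fin n ⊕ Fin n → F) →ₗ[F] (Fin n ⊕ Fin n → F) where
  toFun v := v + (c * B v p) • r - (c * B v r) • p
  map_add' u v := by
    simp only [B_add_left]
    module
  map_smul' a v := by
    simp only [B_smul_left, RingHom.id_apply]
    module

theorem sgLin_apply (p r : Fin n ⊕ Fin n → F) (c : F) (v : Fin n ⊕ Fin n → F) :
    sgLin p r c v = v + (c * B v p) • r - (c * B v r) • p := rfl

theorem sgLin_sgLin {p r : Fin n ⊕ Fin n → F} (h : SP p r) (c d : F) (v : Fin n ⊕ Fin n → F) :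
    sgLin p r c (sgLin p r d v) = sgLin p r (c + d) v := by
  simp only [sgLin_apply, B_add_left, B_sub_left, B_smul_left, h.hpr, h.hrp, h.hpp, h.hrr]
  module

theorem sgLin_zero (p r : Fin n ⊕ Fin n → F) (v : Fin n ⊕ Fin n → F) : sgLin p r 0 v = v := by
  simp [sgLin_apply]

theorem Q_sgLin {p r : Fin n ⊕ Fin n → F} (h : SP p r) (c : F) (v : Fin n ⊕ Fin n → F) :
    Q (sgLin p r c v) = Q v := by
  simp only [sgLin_apply, Q_add, Q_sub, Q_smul, B_add_left, B_smul_left, B_smul_right, h.hp, h.hr,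
    h.hrp]
  ring

/-- the Siegel transformation as an isometry -/
noncomputable def sg {p r : Fin n ⊕ Fin n → F} (h : SP p r) (c : F) :
    ↥(Cfsg.isometryGroup F (Cfsg.quadFormPlus n F)) :=
  mkG (sgLin p r c) (sgLin p r (-c))
    (fun v => by rw [sgLin_sgLin h, add_neg_cancel, sgLin_zero])
    (fun v => by rw [sgLin_sgLin h, neg_add_cancel, sgLin_zero]) (Q_sgLin h c)

/-- `σ` is the Siegel transformation `v ↦ v + c (B(v,p) r - B(v,r) p)`. -/
def IsSg (p r : Fin n ⊕ Fin n → F) (c : F)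
    (σ : ↥(Cfsg.isometryGroup F (Cfsg.quadFormPlus n F))) : Prop :=
  ∀ v, gm σ *ᵥ v = v + (c * B v p) • r - (c * B v r) • p

theorem isSg_sg {p r : Fin n ⊕ Fin n → F} (h : SP p r) (c : F) : IsSg p r c (sg h c) :=
  fun v => mkG_mulVec _ _ _ _ _ v

theorem IsSg.one (p r : Fin n ⊕ Fin n → F) : IsSg p r 0 1 := by
  intro v
  rw [gm_one_mulVec]
  simp

theorem IsSg.ext {p r : Fin n ⊕ Fin n → F} {c : F}
    {σ τ : ↥(Cfsg.isometryGroup F (Cfsg.quadFormPlus n F))} (h : IsSg p r c σ)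
    (h' : IsSg p r c τ) : σ = τ :=
  g_ext fun v => by rw [h, h']

theorem IsSg.mul {p r : Fin n ⊕ Fin n → F} (hs : SP p r) {c d : F}
    {σ τ : ↥(Cfsg.isometryGroup F (Cfsg.quadFormPlus n F))} (h : IsSg p r c σ)
    (h' : IsSg p r d τ) : IsSg p r (c + d) (σ * τ) := by
  intro v
  rw [gm_mul_mulVec, h', h]
  exact sgLin_sgLin hs c d v

theorem IsSg.inv {p r : Fin n ⊕ Fin n → F} (hs : SP p r) {c : F}
    {σ : ↥(Cfsg.isometryGroup F (Cfsg.quadFormPlus n F))} (h : IsSg p r c σ) :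
    IsSg p r (-c) σ⁻¹ := by
  have h1 : σ⁻¹ = sg hs (-c) := by
    rw [inv_eq_iff_mul_eq_one]
    have := h.mul hs (isSg_sg hs (-c))
    rw [add_neg_cancel] at this
    exact this.ext (IsSg.one p r)
  rw [h1]
  exact isSg_sg hs (-c)

theorem IsSg.conj {p r : Fin n ⊕ Fin n → F} {c : F}
    {t : ↥(Cfsg.isometryGroup F (Cfsg.quadFormPlus n F))} (h : IsSg p r c t)
    (g : ↥(Cfsg.isometryGroup F (Cfsg.quadFormPlus n F))) :
    IsSg (gm g *ᵥ p) (gm g *ᵥ r) c (g * t * g⁻¹) := by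
  intro v
  rw [gm_mul_mulVec, gm_mul_mulVec, h, Matrix.mulVec_sub, Matrix.mulVec_add, Matrix.mulVec_smul,
    Matrix.mulVec_smul, gm_mulVec_inv]
  have e1 : B (gm g⁻¹ *ᵥ v) p = B v (gm g *ᵥ p) := by
    rw [← B_gm g, gm_mulVec_inv]
  have e2 : B (gm g⁻¹ *ᵥ v) r = B v (gm g *ᵥ r) := by
    rw [← B_gm g, gm_mulVec_inv]
  rw [e1, e2]

/-- change of basis of the line -/
theorem isSg_base {p r : Fin n ⊕ Fin n → F} {a b c d t : F}
    {σ : ↥(Cfsg.isometryGroup F (Cfsg.quadFormPlus n F))} :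
    IsSg (a • p + b • r) (c • p + d • r) t σ ↔ IsSg p r (t * (a * d - b * c)) σ := by
  have key : ∀ v, v + (t * B v (a • p + b • r)) • (c • p + d • r) -
      (t * B v (c • p + d • r)) • (a • p + b • r) =
      v + (t * (a * d - b * c) * B v p) • r - (t * (a * d - b * c) * B v r) • p := by
    intro v
    simp only [B_add_right, B_smul_right]
    module
  constructor
  · intro h v
    rw [h v, key]
  · intro h v
    rw [h v, key]

theorem SP.base {p r : Fin n ⊕ Fin n → F} (h : SP p r) (a b c d : F) :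
    SP (a • p + b • r) (c • p + d • r) := by
  refine ⟨?_, ?_, ?_⟩
  · simp only [Q_add, Q_smul, B_smul_left, B_smul_right, h.hp, h.hr, h.hpr]; ring
  · simp only [Q_add, Q_smul, B_smul_left, B_smul_right, h.hp, h.hr, h.hpr]; ring
  · simp only [B_add_left, B_add_right, B_smul_left, B_smul_right, h.hpp, h.hrr, h.hpr, h.hrp]
    ring

end Cfsg.Agent.Lib.Helper17.OrthRoot
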