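import Cfsg.Agent.Lib.Helper17.RootTransfer
import Cfsg.Agent.Lib.Helper85.RootGraph

set_option autoImplicit false

namespace Cfsg.Agent.Lib.Helper17.RootTransfer

open Cfsg
open Cfsg.Agent.Lib.Helper85
open Cfsg.Agent.Lib.Helper17.SympRoot

variable {G : Type*} [Group G]

theorem commutator_sub {A B H : Subgroup G} (hA : A ≤ H) (hB : B ≤ H) (hN : ⁅A, B⁆ ≤ H) :
    ⁅A.subgroupOf H, B.subgroupOf H⁆ = (⁅A, B⁆).subgroupOf H := by
  apply Subgroup.map_injective H.subtype_injective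
  rw [Subgroup.map_commutator, map_sub hA, map_sub hB, map_sub hN]

theorem commCase_sub {S : Set (Subgroup G)} {A B H : Subgroup G} (hle : ∀ A ∈ S, A ≤ H)
    (hA : A ∈ S) (hB : B ∈ S) (hc : RootCommutatorCase S A B) :
    RootCommutatorCase ((fun A : Subgroup G => A.subgroupOf H) '' S) (A.subgroupOf H)
      (B.subgroupOf H) := by
  have hN := commutator_sub (hle A hA) (hle B hB) (hle _ hc.1)
  rw [RootCommutatorCase, hN]
  refine ⟨⟨_, hc.1, rfl⟩, ?_, ?_, ?_⟩
  · intro c hc' x hx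
    apply Subtype.ext
    have hx' : (x : G) ∈ A ⊔ B := by
      have : H.subtype x ∈ (A.subgroupOf H ⊔ B.subgroupOf H).map H.subtype :=
        Subgroup.mem_map_of_mem _ hx
      rwa [Subgroup.map_sup, map_sub (hle A hA), map_sub (hle B hB)] at this
    exact hc.2.1 c (Subgroup.mem_subgroupOf.1 hc') x hx'
  · intro a ha ha1
    apply Subgroup.map_injective H.subtype_injective
    rw [map_sub (hle _ hc.1), ← hc.2.2.1 (a : G) (Subgroup.mem_subgroupOf.1 ha)
      (fun h => ha1 (Subtype.ext h)), MonoidHom.map_closure]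
    congr 1
    ext y
    constructor
    · rintro ⟨_, ⟨b, hb, rfl⟩, rfl⟩
      exact ⟨b, Subgroup.mem_subgroupOf.1 hb, rfl⟩
    · rintro ⟨b, hb, rfl⟩
      exact ⟨_, ⟨⟨b, hle B hB hb⟩, Subgroup.mem_subgroupOf.2 hb, rfl⟩, rfl⟩
  · intro b hb hb1
    apply Subgroup.map_injective H.subtype_injective
    rw [map_sub (hle _ hc.1), ← hc.2.2.2 (b : G) (Subgroup.mem_subgroupOf.1 hb)
      (fun h => hb1 (Subtype.ext h)), MonoidHom.map_closure]
    congr 1
    ext y
    constructor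
    · rintro ⟨_, ⟨a, ha, rfl⟩, rfl⟩
      exact ⟨a, Subgroup.mem_subgroupOf.1 ha, rfl⟩
    · rintro ⟨a, ha, rfl⟩
      exact ⟨_, ⟨⟨a, hle A hA ha⟩, Subgroup.mem_subgroupOf.2 ha, rfl⟩, rfl⟩

/-- Transfer of a family (with commutator case allowed) to the subgroup it generates. -/
theorem transfer2 {k : Type*} [Field k] {S : Set (Subgroup G)}
    (hcomm : ∀ A ∈ S, IsMulCommutative A) (hne : ∀ A ∈ S, A ≠ ⊥)
    (hconj : ∀ A ∈ S, ∀ g : G, conjBy A g ∈ S)
    (hpair : ∀ A ∈ S, ∀ B ∈ S, ⁅A, B⁆ = ⊥ ∨ (IsRankOnePair A B ∧ IsPSL2PairOver k A B) ∨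
      RootCommutatorCase S A B) :
    IsKRootSubgroupSet k ((fun A : Subgroup G => A.subgroupOf (⨆ B ∈ S, B)) '' S) := by
  obtain ⟨H, hH⟩ : ∃ H : Subgroup G, H = ⨆ B ∈ S, B := ⟨_, rfl⟩
  rw [← hH]
  have hle : ∀ A ∈ S, A ≤ H := fun A hA => hH ▸ le_gen hA
  have hpair' : ∀ A ∈ S, ∀ B ∈ S, ⁅A.subgroupOf H, B.subgroupOf H⁆ = ⊥ ∨
      (IsRankOnePair (A.subgroupOf H) (B.subgroupOf H) ∧
        IsPSL2PairOver k (A.subgroupOf H) (B.subgroupOf H)) ∨
      RootCommutatorCase ((fun A : Subgroup G => A.subgroupOf H) '' S) (A.subgroupOf H)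
        (B.subgroupOf H) := by
    intro A hA B hB
    rcases hpair A hA B hB with h | h | h
    · left
      apply Subgroup.map_injective H.subtype_injective
      rw [Subgroup.map_commutator, map_sub (hle A hA), map_sub (hle B hB), h, Subgroup.map_bot]
    · exact Or.inr (Or.inl ⟨rankOne_sub (hle A hA) (hle B hB) h.1,
        psl2_sub (hle A hA) (hle B hB) h.2⟩)
    · exact Or.inr (Or.inr (commCase_sub hle hA hB h))
  have hS : IsRootSubgroupSet ((fun A : Subgroup G => A.subgroupOf H) '' S) := by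
    refine ⟨?_, ?_, ?_, ?_, ?_⟩
    · rintro _ ⟨A, hA, rfl⟩
      refine ⟨⟨?_⟩⟩
      rintro ⟨⟨a, haH⟩, ha⟩ ⟨⟨b, hbH⟩, hb⟩
      apply Subtype.ext
      apply Subtype.ext
      exact comm_of_isMulCommutative (hcomm A hA) (Subgroup.mem_subgroupOf.1 ha)
        (Subgroup.mem_subgroupOf.1 hb)
    · rintro _ ⟨A, hA, rfl⟩ h
      apply hne A hA
      rw [← map_sub (hle A hA)]
      have h' : A.subgroupOf H = ⊥ := h
      rw [h', Subgroup.map_bot]
    · rw [iSup_image]
      apply Subgroup.map_injective H.subtype_injective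
      rw [Subgroup.map_iSup, ← MonoidHom.range_eq_map, Subgroup.range_subtype, hH]
      apply iSup_congr
      intro A
      rw [Subgroup.map_iSup]
      apply iSup_congr
      intro hA
      rw [← hH]
      exact map_sub (hle A hA)
    · rintro _ ⟨A, hA, rfl⟩ g
      refine ⟨conjBy A (g : G), hconj A hA _, ?_⟩
      apply Subgroup.map_injective H.subtype_injective
      change Subgroup.map H.subtype ((conjBy A (g : G)).subgroupOf H) =
        Subgroup.map H.subtype (conjBy (A.subgroupOf H) g)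
      rw [map_conjBy, map_sub (hle A hA), map_sub (hle _ (hconj A hA _))]
      rfl
    · rintro _ ⟨A, hA, rfl⟩ _ ⟨B, hB, rfl⟩
      rcases hpair' A hA B hB with h | h | h
      · exact Or.inl h
      · exact Or.inr (Or.inl h.1)
      · exact Or.inr (Or.inr h)
  refine ⟨hS, ?_⟩
  rintro _ ⟨A, hA, rfl⟩ _ ⟨B, hB, rfl⟩ hr
  rcases hpair' A hA B hB with h | h | h
  · exact absurd hr (not_rankOne_of_comm h)
  · exact h.2
  · exact absurd h (not_commutatorCase_of_rankOne hS ⟨A, hA, rfl⟩ ⟨B, hB, rfl⟩ hr)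

theorem reach_of_sub {S : Set (Subgroup G)} {H : Subgroup G} (hle : ∀ A ∈ S, A ≤ H)
    {X Y : Subgroup H}
    (h : Relation.ReflTransGen (FAdj ((fun A : Subgroup G => A.subgroupOf H) '' S)) X Y) :
    Relation.ReflTransGen (FAdj S) (X.map H.subtype) (Y.map H.subtype) := by
  refine Relation.ReflTransGen.lift (fun X : Subgroup H => X.map H.subtype) ?_ _ _ h
  rintro _ _ ⟨⟨A, hA, rfl⟩, ⟨B, hB, rfl⟩, hr⟩
  have hr' := RankOne.map H.subtype hr
    (fun h => hr.ne (Subgroup.map_injective H.subtype_injective h))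
  refine ⟨?_, ?_, hr'⟩
  · change (A.subgroupOf H).map H.subtype ∈ S
    rw [map_sub (hle A hA)]
    exact hA
  · change (B.subgroupOf H).map H.subtype ∈ S
    rw [map_sub (hle B hB)]
    exact hB

/-- Non-commuting members of the family lie in the same component. -/
theorem reach_of_noncomm {k : Type*} [Field k] {S : Set (Subgroup G)}
    (hcomm : ∀ A ∈ S, IsMulCommutative A) (hne : ∀ A ∈ S, A ≠ ⊥)
    (hconj : ∀ A ∈ S, ∀ g : G, conjBy A g ∈ S)
    (hpair : ∀ A ∈ S, ∀ B ∈ S, ⁅A, B⁆ = ⊥ ∨ (IsRankOnePair A B ∧ IsPSL2PairOver k A B) ∨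
      RootCommutatorCase S A B)
    (hF : ∀ A ∈ S, ∃ B ∈ S, IsRankOnePair A B) {A B : Subgroup G} (hA : A ∈ S) (hB : B ∈ S)
    (hAB : ⁅A, B⁆ ≠ ⊥) : Relation.ReflTransGen (FAdj S) A B := by
  have hK := transfer2 hcomm hne hconj hpair
  obtain ⟨H, hH⟩ : ∃ H : Subgroup G, H = ⨆ B ∈ S, B := ⟨_, rfl⟩
  rw [← hH] at hK
  have hle : ∀ A ∈ S, A ≤ H := fun A hA => hH ▸ le_gen hA
  by_contra hn
  apply hAB
  have h1 : ⁅A.subgroupOf H, B.subgroupOf H⁆ = ⊥ := by
    apply Root.commute_of_not_reach hK.1 ?_ ⟨A, hA, rfl⟩ ⟨B, hB, rfl⟩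
    · intro hr
      have := reach_of_sub hle hr
      rw [map_sub (hle A hA), map_sub (hle B hB)] at this
      exact hn this
    · rintro _ ⟨C, hC, rfl⟩
      obtain ⟨D, hD, hCD⟩ := hF C hC
      exact ⟨_, ⟨D, hD, rfl⟩, rankOne_sub (hle C hC) (hle D hD) hCD⟩
  have h2 := congrArg (Subgroup.map H.subtype) h1
  rwa [Subgroup.map_commutator, map_sub (hle A hA), map_sub (hle B hB), Subgroup.map_bot] at h2

end Cfsg.Agent.Lib.Helper17.RootTransfer
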