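import Cfsg.Agent.Lib.Helper17.OrthRootA
import Cfsg.Agent.Lib.Helper17.RootTransfer2

set_option autoImplicit false

namespace Cfsg.Agent.Lib.Helper17.OrthRoot

open Matrix Cfsg
open Cfsg.Agent.Lib.Helper85

variable {F : Type*} [Field F] {n : ℕ}

/-- `(p', r')` is dual to `(p, r)` -/
structure Dual (p r p' r' : Fin n ⊕ Fin n → F) : Prop where
  pp : B p p' = 1
  pr : B p r' = 0
  rp : B r p' = 0
  rr : B r r' = 1

theorem exists_dual {p r : Fin n ⊕ Fin n → F} (h : LinearIndependent F ![p, r]) :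
    ∃ p' r', Dual p r p' r' := by
  rw [LinearIndependent.pair_iff] at h
  have hp : p ≠ 0 := by
    rintro rfl
    have := (h 1 0 (by simp)).1
    exact one_ne_zero this
  obtain ⟨u, hu⟩ := exists_B_one hp
  have hr2 : r - B r u • p ≠ 0 := by
    intro h0
    have := (h (-B r u) 1 (by rw [← h0]; module)).2
    exact one_ne_zero this
  obtain ⟨w, hw⟩ := exists_B_one hr2
  rw [B_sub_left, B_smul_left] at hw
  have e1 : B p (w - B p w • u) = 0 := by
    rw [B_sub_right, B_smul_right, hu]; ring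
  have e2 : B r (w - B p w • u) = 1 := by
    rw [B_sub_right, B_smul_right]; linear_combination hw
  refine ⟨u - B r u • (w - B p w • u), w - B p w • u, ?_, e1, ?_, e2⟩
  · rw [B_sub_right, B_smul_right, e1, hu]; ring
  · rw [B_sub_right, B_smul_right, e2]; ring

theorem Dual.li {p r p' r' : Fin n ⊕ Fin n → F} (h : Dual p r p' r') :
    LinearIndependent F ![p, r] := by
  rw [LinearIndependent.pair_iff]
  intro s t hst
  have h1 := congrArg (fun x => B x p') hst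
  have h2 := congrArg (fun x => B x r') hst
  simp only [B_add_left, B_smul_left, h.pp, h.pr, h.rp, h.rr, B_zero_left] at h1 h2
  exact ⟨by linear_combination h1, by linear_combination h2⟩

theorem Dual.eq_zero {p r p' r' : Fin n ⊕ Fin n → F} (h : Dual p r p' r') {s t : F}
    (hst : s • p + t • r = 0) : s = 0 ∧ t = 0 :=
  LinearIndependent.pair_iff.1 h.li s t hst

theorem Dual.symm {p r p' r' : Fin n ⊕ Fin n → F} (h : Dual p r p' r') : Dual p' r' p r :=
  ⟨by rw [B_comm, h.pp], by rw [B_comm, h.rp], by rw [B_comm, h.pr], by rw [B_comm, h.rr]⟩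

theorem Dual.base {p r p' r' : Fin n ⊕ Fin n → F} (h : Dual p r p' r') {a b c d : F}
    (hD : a * d - b * c ≠ 0) :
    Dual (a • p + b • r) (c • p + d • r) ((a * d - b * c)⁻¹ • (d • p' - c • r'))
      ((a * d - b * c)⁻¹ • (a • r' - b • p')) := by
  refine ⟨?_, ?_, ?_, ?_⟩
  · simp only [B_add_left, B_smul_left, B_smul_right, B_sub_right, h.pp, h.pr, h.rp, h.rr]
    field_simp
    ring
  · simp only [B_add_left, B_smul_left, B_smul_right, B_sub_right, h.pp, h.pr, h.rp, h.rr]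
    field_simp
    ring
  · simp only [B_add_left, B_smul_left, B_smul_right, B_sub_right, h.pp, h.pr, h.rp, h.rr]
    field_simp
    ring
  · simp only [B_add_left, B_smul_left, B_smul_right, B_sub_right, h.pp, h.pr, h.rp, h.rr]
    field_simp
    ring

theorem Dual.gm {p r p' r' : Fin n ⊕ Fin n → F} (h : Dual p r p' r')
    (g : ↥(Cfsg.isometryGroup F (Cfsg.quadFormPlus n F))) :
    Dual (gm g *ᵥ p) (gm g *ᵥ r) (gm g *ᵥ p') (gm g *ᵥ r') :=
  ⟨by rw [B_gm, h.pp], by rw [B_gm, h.pr], by rw [B_gm, h.rp], by rw [B_gm, h.rr]⟩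

theorem SP.gm {p r : Fin n ⊕ Fin n → F} (h : SP p r)
    (g : ↥(Cfsg.isometryGroup F (Cfsg.quadFormPlus n F))) : SP (gm g *ᵥ p) (gm g *ᵥ r) :=
  ⟨by rw [Q_gm, h.hp], by rw [Q_gm, h.hr], by rw [B_gm, h.hpr]⟩

/-- a basis of a singular line -/
structure Ln (p r : Fin n ⊕ Fin n → F) : Prop where
  sp : SP p r
  dual : ∃ p' r', Dual p r p' r'

theorem Ln.base {p r : Fin n ⊕ Fin n → F} (h : Ln p r) {a b c d : F}
    (hD : a * d - b * c ≠ 0) : Ln (a • p + b • r) (c • p + d • r) := by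
  obtain ⟨p', r', hd⟩ := h.dual
  exact ⟨h.sp.base a b c d, _, _, hd.base hD⟩

theorem Ln.gm {p r : Fin n ⊕ Fin n → F} (h : Ln p r)
    (g : ↥(Cfsg.isometryGroup F (Cfsg.quadFormPlus n F))) : Ln (gm g *ᵥ p) (gm g *ᵥ r) := by
  obtain ⟨p', r', hd⟩ := h.dual
  exact ⟨h.sp.gm g, _, _, hd.gm g⟩

/-- the Siegel transvection group of the line `⟨p, r⟩`, as in the statement -/
def T (p r : Fin n ⊕ Fin n → F) : Subgroup ↥(Cfsg.isometryGroup F (Cfsg.quadFormPlus n F)) :=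
  Subgroup.closure {σ : ↥(Cfsg.isometryGroup F (Cfsg.quadFormPlus n F)) |
    ∀ v : Fin n ⊕ Fin n → F, Q (v + p) - Q v - Q p = 0 → Q (v + r) - Q v - Q r = 0 →
      gm σ *ᵥ v = v}

theorem IsSg.mem {p r : Fin n ⊕ Fin n → F} {c : F}
    {σ : ↥(Cfsg.isometryGroup F (Cfsg.quadFormPlus n F))} (h : IsSg p r c σ) : σ ∈ T p r := by
  apply Subgroup.subset_closure
  intro v h1 h2
  rw [B_eq] at h1 h2
  rw [h v, h1, h2]
  simp

theorem perp_perp {p r p' r' u : Fin n ⊕ Fin n → F} (h : Dual p r p' r')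
    (hu : ∀ x, B x p = 0 → B x r = 0 → B u x = 0) : u = B u p' • p + B u r' • r := by
  rw [← sub_eq_zero]
  apply B_nondeg
  intro v
  have h1 := hu (v - B v p • p' - B v r • r')
    (by simp only [B_sub_left, B_smul_left, B_comm p' p, B_comm r' p, h.pp, h.pr]; ring)
    (by simp only [B_sub_left, B_smul_left, B_comm p' r, B_comm r' r, h.rp, h.rr]; ring)
  simp only [B_sub_right, B_smul_right] at h1
  simp only [B_sub_left, B_add_left, B_smul_left, B_comm p v, B_comm r v]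
  linear_combination h1

theorem isSg_of_fix {p r p' r' : Fin n ⊕ Fin n → F} (hs : SP p r) (h : Dual p r p' r')
    {σ : ↥(Cfsg.isometryGroup F (Cfsg.quadFormPlus n F))}
    (hσ : ∀ v, B v p = 0 → B v r = 0 → gm σ *ᵥ v = v) : ∃ c, IsSg p r c σ := by
  obtain ⟨u, hu⟩ : ∃ u, u = gm σ *ᵥ p' - p' := ⟨_, rfl⟩
  obtain ⟨w, hw⟩ : ∃ w, w = gm σ *ᵥ r' - r' := ⟨_, rfl⟩
  have hσp : gm σ *ᵥ p' = p' + u := by rw [hu]; abel
  have hσr : gm σ *ᵥ r' = r' + w := by rw [hw]; abel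
  have h1 : ∀ v, gm σ *ᵥ v = v + B v p • u + B v r • w := by
    intro v
    have := hσ (v - B v p • p' - B v r • r')
      (by simp only [B_sub_left, B_smul_left, B_comm p' p, B_comm r' p, h.pp, h.pr]; ring)
      (by simp only [B_sub_left, B_smul_left, B_comm p' r, B_comm r' r, h.rp, h.rr]; ring)
    rw [Matrix.mulVec_sub, Matrix.mulVec_sub, Matrix.mulVec_smul, Matrix.mulVec_smul, hσp,
      hσr] at this
    linear_combination (norm := module) this
  have hu' : ∀ x, B x p = 0 → B x r = 0 → B u x = 0 := by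
    intro x hx1 hx2
    rw [hu, B_sub_left]
    conv_lhs => rw [← hσ x hx1 hx2]
    rw [B_gm, hσ x hx1 hx2, sub_self]
  have hw' : ∀ x, B x p = 0 → B x r = 0 → B w x = 0 := by
    intro x hx1 hx2
    rw [hw, B_sub_left]
    conv_lhs => rw [← hσ x hx1 hx2]
    rw [B_gm, hσ x hx1 hx2, sub_self]
  have eu := perp_perp h hu'
  have ew := perp_perp h hw'
  obtain ⟨a, ha⟩ : ∃ a, a = B u p' := ⟨_, rfl⟩
  obtain ⟨b, hb⟩ : ∃ b, b = B u r' := ⟨_, rfl⟩
  obtain ⟨c, hc⟩ : ∃ c, c = B w p' := ⟨_, rfl⟩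
  obtain ⟨d, hd⟩ : ∃ d, d = B w r' := ⟨_, rfl⟩
  rw [← ha, ← hb] at eu
  rw [← hc, ← hd] at ew
  have q1 := Q_gm σ p'
  have q2 := Q_gm σ r'
  have q3 := B_gm σ p' r'
  rw [hσp, eu] at q1
  rw [hσr, ew] at q2
  rw [hσp, hσr, eu, ew] at q3
  simp only [Q_add, Q_smul, B_add_left, B_add_right, B_smul_left, B_smul_right, hs.hp, hs.hr,
    hs.hpr, hs.hrp, hs.hpp, hs.hrr, B_comm p' p, B_comm p' r, B_comm r' p, B_comm r' r, h.pp,
    h.pr, h.rp, h.rr] at q1 q2 q3
  have a0 : a = 0 := by linear_combination q1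
  have d0 : d = 0 := by linear_combination q2
  have c0 : c = -b := by linear_combination q3
  refine ⟨b, fun v => ?_⟩
  rw [h1, eu, ew, a0, d0, c0]
  module

theorem mem_T {p r : Fin n ⊕ Fin n → F} (h : Ln p r)
    {σ : ↥(Cfsg.isometryGroup F (Cfsg.quadFormPlus n F))} : σ ∈ T p r ↔ ∃ c, IsSg p r c σ := by
  obtain ⟨p', r', hd⟩ := h.dual
  constructor
  · intro hg
    unfold T at hg
    induction hg using Subgroup.closure_induction with
    | mem x hx =>
      apply isSg_of_fix h.sp hd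
      intro v h1 h2
      exact hx v (by rw [B_eq, h1]) (by rw [B_eq, h2])
    | one => exact ⟨0, IsSg.one p r⟩
    | mul x y _ _ hx hy =>
      obtain ⟨s, hs⟩ := hx
      obtain ⟨t, ht⟩ := hy
      exact ⟨s + t, hs.mul h.sp ht⟩
    | inv x _ hx =>
      obtain ⟨s, hs⟩ := hx
      exact ⟨-s, hs.inv h.sp⟩
  · rintro ⟨c, hc⟩
    exact hc.mem

theorem T_base {p r : Fin n ⊕ Fin n → F} (h : Ln p r) {a b c d : F}
    (hD : a * d - b * c ≠ 0) : T (a • p + b • r) (c • p + d • r) = T p r := by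
  ext x
  rw [mem_T h, mem_T (h.base hD)]
  constructor
  · rintro ⟨t, ht⟩
    exact ⟨_, isSg_base.1 ht⟩
  · rintro ⟨t, ht⟩
    refine ⟨t / (a * d - b * c), isSg_base.2 ?_⟩
    rwa [div_mul_cancel₀ _ hD]

theorem Ln.swap {p r : Fin n ⊕ Fin n → F} (h : Ln p r) : Ln r p := by
  have := h.base (a := 0) (b := 1) (c := 1) (d := 0) (by norm_num)
  simpa using this

theorem T_swap {p r : Fin n ⊕ Fin n → F} (h : Ln p r) : T r p = T p r := by
  have := T_base h (a := 0) (b := 1) (c := 1) (d := 0) (by norm_num)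
  simpa using this

/-- replace `r` by `r + b p` -/
theorem Ln.shear {p r : Fin n ⊕ Fin n → F} (h : Ln p r) (c : F) : Ln p (r + c • p) := by
  have := h.base (a := 1) (b := 0) (c := c) (d := 1) (by norm_num)
  simpa [add_comm] using this

theorem T_shear {p r : Fin n ⊕ Fin n → F} (h : Ln p r) (c : F) : T p (r + c • p) = T p r := by
  have := T_base h (a := 1) (b := 0) (c := c) (d := 1) (by norm_num)
  simpa [add_comm] using this

theorem conjBy_T {p r : Fin n ⊕ Fin n → F} (h : Ln p r)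
    (g : ↥(Cfsg.isometryGroup F (Cfsg.quadFormPlus n F))) :
    conjBy (T p r) g = T (gm g *ᵥ p) (gm g *ᵥ r) := by
  ext x
  rw [mem_conjBy, mem_T h, mem_T (h.gm g)]
  constructor
  · rintro ⟨c, hc⟩
    refine ⟨c, ?_⟩
    have := hc.conj g
    have e : g * (g⁻¹ * x * g) * g⁻¹ = x := by group
    rwa [e] at this
  · rintro ⟨c, hc⟩
    refine ⟨c, ?_⟩
    have := hc.conj g⁻¹
    rwa [gm_inv_mulVec, gm_inv_mulVec, inv_inv] at this

theorem IsSg.param_ne {p r : Fin n ⊕ Fin n → F} {c : F}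
    {σ : ↥(Cfsg.isometryGroup F (Cfsg.quadFormPlus n F))} (h : IsSg p r c σ) (hσ : σ ≠ 1) :
    c ≠ 0 := by
  rintro rfl
  exact hσ (h.ext (IsSg.one p r))

theorem IsSg.ne_one {p r : Fin n ⊕ Fin n → F} (hl : Ln p r) {c : F} (hc : c ≠ 0)
    {σ : ↥(Cfsg.isometryGroup F (Cfsg.quadFormPlus n F))} (h : IsSg p r c σ) : σ ≠ 1 := by
  rintro rfl
  obtain ⟨p', r', hd⟩ := hl.dual
  have h1 := h p'
  rw [gm_one_mulVec, B_comm p' p, B_comm p' r, hd.pp, hd.rp] at h1
  have h2 : (0 : F) • p + c • r = 0 := by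
    linear_combination (norm := module) -h1
  exact hc (hd.eq_zero h2).2

theorem T_ne_bot {p r : Fin n ⊕ Fin n → F} (hl : Ln p r) : T p r ≠ ⊥ := by
  intro h
  have h1 : sg hl.sp 1 ∈ T p r := (isSg_sg hl.sp 1).mem
  rw [h, Subgroup.mem_bot] at h1
  exact (isSg_sg hl.sp 1).ne_one hl one_ne_zero h1

/-- the commutator formula -/
theorem IsSg.commutator {p r p' r' : Fin n ⊕ Fin n → F} (h : SP p r) (h' : SP p' r')
    (h1 : B p r' = 0) (h2 : B r p' = 0) (h3 : B r r' = 0) {c d : F}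
    {x y : ↥(Cfsg.isometryGroup F (Cfsg.quadFormPlus n F))} (hx : IsSg p r c x)
    (hy : IsSg p' r' d y) : IsSg r r' (c * d * B p p') (x * y * x⁻¹ * y⁻¹) := by
  intro v
  rw [gm_mul_mulVec, gm_mul_mulVec, gm_mul_mulVec, hy.inv h', hx.inv h, hy, hx]
  simp only [B_add_left, B_sub_left, B_smul_left, h.hpr, h.hrp, h.hpp, h.hrr, h'.hpr, h'.hrp,
    h'.hpp, h'.hrr, h1, h2, h3, B_comm r' p, B_comm p' r, B_comm r' r, B_comm p' p]
  module

theorem IsSg.comm {p r p' r' : Fin n ⊕ Fin n → F} (h : SP p r) (h' : SP p' r')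
    (h0 : B p p' = 0) (h1 : B p r' = 0) (h2 : B r p' = 0) (h3 : B r r' = 0) {c d : F}
    {x y : ↥(Cfsg.isometryGroup F (Cfsg.quadFormPlus n F))} (hx : IsSg p r c x)
    (hy : IsSg p' r' d y) : x * y = y * x := by
  have := hx.commutator h h' h1 h2 h3 hy
  rw [h0, mul_zero] at this
  have e := this.ext (IsSg.one r r')
  have : x * y = (x * y * x⁻¹ * y⁻¹) * (y * x) := by group
  rw [this, e, one_mul]

theorem isSg_same {r : Fin n ⊕ Fin n → F} {a t : F}
    {σ : ↥(Cfsg.isometryGroup F (Cfsg.quadFormPlus n F))} (h : IsSg r (a • r) t σ) : σ = 1 := by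
  apply g_ext
  intro v
  rw [h, gm_one_mulVec, B_smul_right]
  module

theorem commutator_eq_bot_of {A A' : Subgroup ↥(Cfsg.isometryGroup F (Cfsg.quadFormPlus n F))}
    (h : ∀ x ∈ A, ∀ y ∈ A', x * y = y * x) : ⁅A, A'⁆ = ⊥ := by
  rw [Subgroup.commutator_eq_bot_iff_le_centralizer]
  intro x hx
  rw [Subgroup.mem_centralizer_iff]
  intro y hy
  exact (h x hx y hy).symm

theorem commutator_T {p r p' r' : Fin n ⊕ Fin n → F} (h : Ln p r) (h' : Ln p' r')
    (h0 : B p p' = 0) (h1 : B p r' = 0) (h2 : B r p' = 0) (h3 : B r r' = 0) :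
    ⁅T p r, T p' r'⁆ = ⊥ := by
  apply commutator_eq_bot_of
  intro x hx y hy
  obtain ⟨c, hc⟩ := (mem_T h).1 hx
  obtain ⟨d, hd⟩ := (mem_T h').1 hy
  exact hc.comm h.sp h'.sp h0 h1 h2 h3 hd

theorem isMulCommutative_T {p r : Fin n ⊕ Fin n → F} (h : Ln p r) :
    IsMulCommutative (T p r) := by
  refine ⟨⟨?_⟩⟩
  rintro ⟨a, ha⟩ ⟨b, hb⟩
  obtain ⟨s, hs⟩ := (mem_T h).1 ha
  obtain ⟨t, ht⟩ := (mem_T h).1 hb
  apply Subtype.ext
  exact hs.comm h.sp h.sp h.sp.hpp h.sp.hpr h.sp.hrp h.sp.hrr ht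

/-- lines sharing the radical point commute -/
theorem commutator_T_same {p r p' : Fin n ⊕ Fin n → F} {a : F} (h : Ln p r) (h' : Ln p' (a • r))
    (h2 : B r p' = 0) : ⁅T p r, T p' (a • r)⁆ = ⊥ := by
  apply commutator_eq_bot_of
  intro x hx y hy
  obtain ⟨c, hc⟩ := (mem_T h).1 hx
  obtain ⟨d, hd⟩ := (mem_T h').1 hy
  have := hc.commutator h.sp h'.sp (by rw [B_smul_right, h.sp.hpr, mul_zero]) h2
    (by rw [B_smul_right, h.sp.hrr, mul_zero]) hd
  have e := isSg_same this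
  have : x * y = (x * y * x⁻¹ * y⁻¹) * (y * x) := by group
  rw [this, e, one_mul]

end Cfsg.Agent.Lib.Helper17.OrthRoot
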