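import Cfsg.Agent.Lib.Helper17.OrthRootB

set_option autoImplicit false
set_option linter.unusedSimpArgs false

namespace Cfsg.Agent.Lib.Helper17.OrthRoot

open Matrix Cfsg
open Cfsg.Agent.Lib.Helper85

variable {F : Type*} [Field F] {n : ℕ}

/-- two opposite singular lines with dual bases -/
structure Dat (F : Type*) [Field F] (n : ℕ) where
  p : Fin n ⊕ Fin n → F
  r : Fin n ⊕ Fin n → F
  p' : Fin n ⊕ Fin n → F
  r' : Fin n ⊕ Fin n → F
  sp : SP p r
  sp' : SP p' r'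
  du : Dual p r p' r'

namespace Dat

variable (D : Dat F n)

theorem ln : Ln D.p D.r := ⟨D.sp, _, _, D.du⟩

theorem ln' : Ln D.p' D.r' := ⟨D.sp', _, _, D.du.symm⟩

/-- The action of `M ∈ SL₂(F)` on the two planes `⟨r, p'⟩`, `⟨p, -r'⟩`. -/
def LM (M : SpecialLinearGroup (Fin 2) F) :
    (Fin n ⊕ Fin n → F) →ₗ[F] (Fin n ⊕ Fin n → F) where
  toFun v := v + (B v D.r' * (M 0 0 - 1) + B v D.p * M 0 1) • D.r +
    (B v D.r' * M 1 0 + B v D.p * (M 1 1 - 1)) • D.p' +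
    (B v D.p' * (M 0 0 - 1) - B v D.r * M 0 1) • D.p +
    (B v D.r * (M 1 1 - 1) - B v D.p' * M 1 0) • D.r'
  map_add' u v := by
    simp only [B_add_left]
    module
  map_smul' c v := by
    simp only [B_smul_left, RingHom.id_apply]
    module

theorem LM_apply (M : SpecialLinearGroup (Fin 2) F) (v : Fin n ⊕ Fin n → F) :
    D.LM M v = v + (B v D.r' * (M 0 0 - 1) + B v D.p * M 0 1) • D.r +
    (B v D.r' * M 1 0 + B v D.p * (M 1 1 - 1)) • D.p' +
    (B v D.p' * (M 0 0 - 1) - B v D.r * M 0 1) • D.p +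
    (B v D.r * (M 1 1 - 1) - B v D.p' * M 1 0) • D.r' := rfl

theorem LM_mul (M M' : SpecialLinearGroup (Fin 2) F) (v : Fin n ⊕ Fin n → F) :
    D.LM (M * M') v = D.LM M (D.LM M' v) := by
  simp only [LM_apply, B_add_left, B_smul_left, D.sp.hpr, D.sp.hrp, D.sp.hpp, D.sp.hrr,
    D.sp'.hpr, D.sp'.hrp, D.sp'.hpp, D.sp'.hrr, D.du.pp, D.du.pr, D.du.rp, D.du.rr,
    D.du.symm.pp, D.du.symm.pr, D.du.symm.rp, D.du.symm.rr, SL2.mul_entry]
  module

theorem LM_up (t : F) (v : Fin n ⊕ Fin n → F) :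
    D.LM (SL2.up t) v = v + (t * B v D.p) • D.r - (t * B v D.r) • D.p := by
  rw [LM_apply]
  simp only [SL2.up_00, SL2.up_01, SL2.up_10, SL2.up_11]
  module

theorem LM_lo (t : F) (v : Fin n ⊕ Fin n → F) :
    D.LM (SL2.lo t) v = v + (-t * B v D.p') • D.r' - (-t * B v D.r') • D.p' := by
  rw [LM_apply]
  simp only [SL2.lo_00, SL2.lo_01, SL2.lo_10, SL2.lo_11]
  module

theorem LM_one (v : Fin n ⊕ Fin n → F) : D.LM 1 v = v := by
  rw [← SL2.up_zero, LM_up]
  simp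

theorem Q_LM (M : SpecialLinearGroup (Fin 2) F) (v : Fin n ⊕ Fin n → F) :
    Q (D.LM M v) = Q v := by
  have hdet := SL2.det_eq M
  simp only [LM_apply, Q_add, Q_smul, B_add_left, B_smul_left, B_smul_right, D.sp.hp, D.sp.hr,
    D.sp'.hp, D.sp'.hr, D.sp.hpr, D.sp.hrp, D.sp.hpp, D.sp.hrr,
    D.sp'.hpr, D.sp'.hrp, D.sp'.hpp, D.sp'.hrr, D.du.pp, D.du.pr, D.du.rp, D.du.rr,
    D.du.symm.pp, D.du.symm.pr, D.du.symm.rp, D.du.symm.rr]
  linear_combination (B v D.p * B v D.p' + B v D.r * B v D.r') * hdet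

/-- the embedding of `SL₂(F)` in the isometry group. -/
noncomputable def phi :
    SpecialLinearGroup (Fin 2) F →* ↥(Cfsg.isometryGroup F (Cfsg.quadFormPlus n F)) :=
  MonoidHom.mk' (fun M => mkG (D.LM M) (D.LM M⁻¹)
    (fun v => by rw [← LM_mul, mul_inv_cancel, LM_one])
    (fun v => by rw [← LM_mul, inv_mul_cancel, LM_one]) (D.Q_LM M)) (by
    intro M M'
    apply g_ext
    intro v
    rw [gm_mul_mulVec, mkG_mulVec, mkG_mulVec, mkG_mulVec, LM_mul])

theorem phi_mulVec (M : SpecialLinearGroup (Fin 2) F) (v : Fin n ⊕ Fin n → F) :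
    gm (D.phi M) *ᵥ v = D.LM M v :=
  mkG_mulVec (D.LM M) (D.LM M⁻¹)
    (fun v => by rw [← LM_mul, mul_inv_cancel, LM_one])
    (fun v => by rw [← LM_mul, inv_mul_cancel, LM_one]) (D.Q_LM M) v

theorem phi_up (t : F) : IsSg D.p D.r t (D.phi (SL2.up t)) := by
  intro v
  rw [phi_mulVec, LM_up]

theorem phi_lo (t : F) : IsSg D.p' D.r' (-t) (D.phi (SL2.lo t)) := by
  intro v
  rw [phi_mulVec, LM_lo]

theorem map_upper : (upperUnipotentSL2 F).map D.phi = T D.p D.r := by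
  ext x
  rw [Subgroup.mem_map, mem_T D.ln]
  constructor
  · rintro ⟨y, hy, rfl⟩
    obtain ⟨t, rfl⟩ := SL2.mem_upper_iff.1 hy
    exact ⟨_, D.phi_up t⟩
  · rintro ⟨c, hc⟩
    exact ⟨SL2.up c, SL2.up_mem _, (D.phi_up c).ext hc⟩

theorem map_lower : (lowerUnipotentSL2 F).map D.phi = T D.p' D.r' := by
  ext x
  rw [Subgroup.mem_map, mem_T D.ln']
  constructor
  · rintro ⟨y, hy, rfl⟩
    obtain ⟨t, rfl⟩ := SL2.mem_lower_iff.1 hy
    exact ⟨_, D.phi_lo t⟩
  · rintro ⟨c, hc⟩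
    refine ⟨SL2.lo (-c), SL2.lo_mem _, ?_⟩
    have := D.phi_lo (-c)
    rw [neg_neg] at this
    exact this.ext hc

theorem phi_injective : Function.Injective D.phi := by
  rw [injective_iff_map_eq_one]
  intro M hM
  have h1 := D.phi_mulVec M D.r
  have h2 := D.phi_mulVec M D.p'
  rw [hM, gm_one_mulVec, LM_apply] at h1 h2
  simp only [D.sp.hpr, D.sp.hrp, D.sp.hpp, D.sp.hrr,
    D.sp'.hpr, D.sp'.hrp, D.sp'.hpp, D.sp'.hrr, D.du.pp, D.du.pr, D.du.rp, D.du.rr,
    D.du.symm.pp, D.du.symm.pr, D.du.symm.rp, D.du.symm.rr] at h1 h2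
  have a1 := congrArg (fun x => B x D.r') h1
  have a2 := congrArg (fun x => B x D.p) h1
  have a3 := congrArg (fun x => B x D.r') h2
  have a4 := congrArg (fun x => B x D.p) h2
  simp only [B_add_left, B_smul_left, D.sp.hpr, D.sp.hrp, D.sp.hpp, D.sp.hrr,
    D.sp'.hpr, D.sp'.hrp, D.sp'.hpp, D.sp'.hrr, D.du.pp, D.du.pr, D.du.rp, D.du.rr,
    D.du.symm.pp, D.du.symm.pr, D.du.symm.rp, D.du.symm.rr] at a1 a2 a3 a4
  have o00 : (1 : SpecialLinearGroup (Fin 2) F) 0 0 = 1 := by simp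
  have o01 : (1 : SpecialLinearGroup (Fin 2) F) 0 1 = 0 := by simp
  have o10 : (1 : SpecialLinearGroup (Fin 2) F) 1 0 = 0 := by simp
  have o11 : (1 : SpecialLinearGroup (Fin 2) F) 1 1 = 1 := by simp
  apply SL2.ext2
  · rw [o00]
    linear_combination -a1
  · rw [o01]
    linear_combination -a3
  · rw [o10]
    linear_combination -a2
  · rw [o11]
    linear_combination -a4

theorem rankOne : IsRankOnePair (T D.p D.r) (T D.p' D.r') := by
  have h := RankOne.map D.phi (RankOnePair_symm (SL2.isRankOnePair (k := F)))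
    (fun h => SL2.isRankOnePair.ne (Subgroup.map_injective D.phi_injective h).symm)
  rwa [map_upper, map_lower] at h

theorem psl2 : IsPSL2PairOver F (T D.p D.r) (T D.p' D.r') := by
  refine ⟨D.phi, ?_, ?_, D.map_upper, D.map_lower⟩
  · rw [MonoidHom.range_eq_map, ← SL2.sup_eq_top, Subgroup.map_sup, map_upper, map_lower, sup_comm]
  · rw [(MonoidHom.ker_eq_bot_iff _).2 D.phi_injective]
    exact bot_le

end Dat

theorem pair_dual {p r p' r' : Fin n ⊕ Fin n → F} (h : SP p r) (h' : SP p' r')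
    (hd : Dual p r p' r') :
    IsRankOnePair (T p r) (T p' r') ∧ IsPSL2PairOver F (T p r) (T p' r') :=
  ⟨(Dat.mk p r p' r' h h' hd).rankOne, (Dat.mk p r p' r' h h' hd).psl2⟩

/-- opposite lines -/
theorem pair_T {p r p' r' : Fin n ⊕ Fin n → F} (h : Ln p r) (h' : Ln p' r')
    (hdet : B p p' * B r r' - B p r' * B r p' ≠ 0) :
    IsRankOnePair (T p r) (T p' r') ∧ IsPSL2PairOver F (T p r) (T p' r') := by
  obtain ⟨Δ, hΔ⟩ : ∃ Δ, Δ = B p p' * B r r' - B p r' * B r p' := ⟨_, rfl⟩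
  rw [← hΔ] at hdet
  have hD : (B r r' / Δ) * (B p p' / Δ) - (-B r p' / Δ) * (-B p r' / Δ) ≠ 0 := by
    have : (B r r' / Δ) * (B p p' / Δ) - (-B r p' / Δ) * (-B p r' / Δ) = Δ⁻¹ := by
      field_simp
      rw [hΔ]; ring
    rw [this]
    exact inv_ne_zero hdet
  have e := T_base h' hD
  have l := h'.base hD
  rw [← e]
  apply pair_dual h.sp l.sp
  refine ⟨?_, ?_, ?_, ?_⟩
  · simp only [B_add_right, B_smul_right]
    field_simp
    rw [hΔ]; ring
  · simp only [B_add_right, B_smul_right]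
    field_simp
    ring
  · simp only [B_add_right, B_smul_right]
    field_simp
    ring
  · simp only [B_add_right, B_smul_right]
    field_simp
    rw [hΔ]; ring

end Cfsg.Agent.Lib.Helper17.OrthRoot
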