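import Cfsg.Agent.Lib.Helper17.OrthRootC

set_option autoImplicit false
set_option linter.unusedSimpArgs false

namespace Cfsg.Agent.Lib.Helper17.OrthRoot

open Matrix Cfsg
open Cfsg.Agent.Lib.Helper85

variable {F : Type*} [Field F] {n : ℕ}

/-- The set of Siegel transvection groups. -/
def rootSet' (F : Type*) [Field F] (n : ℕ) :
    Set (Subgroup ↥(Cfsg.isometryGroup F (Cfsg.quadFormPlus n F))) :=
  {A | ∃ p r : Fin n ⊕ Fin n → F, Ln p r ∧ A = T p r}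

theorem exists_right {p r p' r' : Fin n ⊕ Fin n → F} (h : Ln p r) (h' : Ln p' r') (hN : Ln r r')
    (g : B p p' ≠ 0) (h1 : B p r' = 0) (h2 : B r p' = 0) (h3 : B r r' = 0) {c : F}
    {x : ↥(Cfsg.isometryGroup F (Cfsg.quadFormPlus n F))} (hx : IsSg p r c x) (hc : c ≠ 0)
    {z : ↥(Cfsg.isometryGroup F (Cfsg.quadFormPlus n F))} (hz : z ∈ T r r') :
    ∃ y ∈ T p' r', x * y * x⁻¹ * y⁻¹ = z := by
  obtain ⟨s, hs⟩ := (mem_T hN).1 hz
  refine ⟨sg h'.sp (s / (c * B p p')), (isSg_sg _ _).mem, ?_⟩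
  have := hx.commutator h.sp h'.sp h1 h2 h3 (isSg_sg h'.sp (s / (c * B p p')))
  have e : c * (s / (c * B p p')) * B p p' = s := by field_simp
  rw [e] at this
  exact this.ext hs

theorem exists_left {p r p' r' : Fin n ⊕ Fin n → F} (h : Ln p r) (h' : Ln p' r') (hN : Ln r r')
    (g : B p p' ≠ 0) (h1 : B p r' = 0) (h2 : B r p' = 0) (h3 : B r r' = 0) {d : F}
    {y : ↥(Cfsg.isometryGroup F (Cfsg.quadFormPlus n F))} (hy : IsSg p' r' d y) (hd : d ≠ 0)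
    {z : ↥(Cfsg.isometryGroup F (Cfsg.quadFormPlus n F))} (hz : z ∈ T r r') :
    ∃ x ∈ T p r, x * y * x⁻¹ * y⁻¹ = z := by
  obtain ⟨s, hs⟩ := (mem_T hN).1 hz
  refine ⟨sg h.sp (s / (d * B p p')), (isSg_sg _ _).mem, ?_⟩
  have := (isSg_sg h.sp (s / (d * B p p'))).commutator h.sp h'.sp h1 h2 h3 hy
  have e : s / (d * B p p') * d * B p p' = s := by field_simp
  rw [e] at this
  exact this.ext hs

theorem commCase {p r p' r' : Fin n ⊕ Fin n → F} (h : Ln p r) (h' : Ln p' r') (hN : Ln r r')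
    (g : B p p' ≠ 0) (h1 : B p r' = 0) (h2 : B r p' = 0) (h3 : B r r' = 0) :
    RootCommutatorCase (rootSet' F n) (T p r) (T p' r') := by
  have hle : ∀ x ∈ T p r, ∀ y ∈ T p' r', x * y * x⁻¹ * y⁻¹ ∈ T r r' := by
    intro x hx y hy
    obtain ⟨c, hc⟩ := (mem_T h).1 hx
    obtain ⟨d, hd⟩ := (mem_T h').1 hy
    exact (hc.commutator h.sp h'.sp h1 h2 h3 hd).mem
  have hNeq : ⁅T p r, T p' r'⁆ = T r r' := by
    apply le_antisymm
    · rw [Subgroup.commutator_le]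
      exact hle
    · intro z hz
      obtain ⟨y, hy, rfl⟩ := exists_right h h' hN g h1 h2 h3 (isSg_sg h.sp 1) one_ne_zero hz
      exact Subgroup.commutator_mem_commutator (isSg_sg h.sp 1).mem hy
  rw [RootCommutatorCase, hNeq]
  refine ⟨⟨r, r', hN, rfl⟩, ?_, ?_, ?_⟩
  · intro c hc x hx
    have hcen : T p r ⊔ T p' r' ≤ Subgroup.centralizer (T r r' : Set _) := by
      refine sup_le ?_ ?_
      · intro x hx
        obtain ⟨s, hs⟩ := (mem_T h).1 hx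
        rw [Subgroup.mem_centralizer_iff]
        intro z hz
        obtain ⟨t, ht⟩ := (mem_T hN).1 hz
        exact ht.comm hN.sp h.sp h.sp.hrp h.sp.hrr (by rw [B_comm, h1]) (by rw [B_comm, h3]) hs
      · intro x hx
        obtain ⟨s, hs⟩ := (mem_T h').1 hx
        rw [Subgroup.mem_centralizer_iff]
        intro z hz
        obtain ⟨t, ht⟩ := (mem_T hN).1 hz
        exact ht.comm hN.sp h'.sp h2 h3 h'.sp.hrp h'.sp.hrr hs
    exact Subgroup.mem_centralizer_iff.1 (hcen hx) c hc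
  · intro a ha ha1
    obtain ⟨c, hc⟩ := (mem_T h).1 ha
    apply le_antisymm
    · rw [Subgroup.closure_le]
      rintro _ ⟨y, hy, rfl⟩
      exact hle a ha y hy
    · intro z hz
      obtain ⟨y, hy, rfl⟩ := exists_right h h' hN g h1 h2 h3 hc (hc.param_ne ha1) hz
      exact Subgroup.subset_closure ⟨y, hy, rfl⟩
  · intro b hb hb1
    obtain ⟨d, hd⟩ := (mem_T h').1 hb
    apply le_antisymm
    · rw [Subgroup.closure_le]
      rintro _ ⟨x, hx, rfl⟩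
      exact hle x hx b hb
    · intro z hz
      obtain ⟨x, hx, rfl⟩ := exists_left h h' hN g h1 h2 h3 hd (hd.param_ne hb1) hz
      exact Subgroup.subset_closure ⟨x, hx, rfl⟩

theorem nf_of_ne {p r p' r' : Fin n ⊕ Fin n → F} (h : Ln p r) (h' : Ln p' r')
    (h11 : B p p' ≠ 0) (hdet : B p p' * B r r' - B p r' * B r p' = 0) :
    ∃ p₁ r₁ p'₁ r'₁ : Fin n ⊕ Fin n → F, Ln p₁ r₁ ∧ Ln p'₁ r'₁ ∧ T p₁ r₁ = T p r ∧
      T p'₁ r'₁ = T p' r' ∧ B p₁ p'₁ ≠ 0 ∧ B p₁ r'₁ = 0 ∧ B r₁ p'₁ = 0 ∧ B r₁ r'₁ = 0 := by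
  refine ⟨p, r + (-(B r p' / B p p')) • p, p', r' + (-(B p r' / B p p')) • p', h.shear _,
    h'.shear _, T_shear h _, T_shear h' _, h11, ?_, ?_, ?_⟩
  · simp only [B_add_right, B_smul_right]
    field_simp
    ring
  · simp only [B_add_left, B_smul_left]
    field_simp
    ring
  · simp only [B_add_left, B_smul_left, B_add_right, B_smul_right]
    field_simp
    linear_combination hdet

theorem pair_cases {p r p' r' : Fin n ⊕ Fin n → F} (h : Ln p r) (h' : Ln p' r') :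
    (B p p' = 0 ∧ B p r' = 0 ∧ B r p' = 0 ∧ B r r' = 0) ∨
    (B p p' * B r r' - B p r' * B r p' ≠ 0) ∨
    (∃ p₁ r₁ p'₁ r'₁ : Fin n ⊕ Fin n → F, Ln p₁ r₁ ∧ Ln p'₁ r'₁ ∧ T p₁ r₁ = T p r ∧
      T p'₁ r'₁ = T p' r' ∧ B p₁ p'₁ ≠ 0 ∧ B p₁ r'₁ = 0 ∧ B r₁ p'₁ = 0 ∧ B r₁ r'₁ = 0) := by
  by_cases hdet : B p p' * B r r' - B p r' * B r p' = 0
  swap
  · exact Or.inr (Or.inl hdet)
  by_cases h11 : B p p' = 0
  swap
  · exact Or.inr (Or.inr (nf_of_ne h h' h11 hdet))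
  by_cases h12 : B p r' = 0
  swap
  · right; right
    have := nf_of_ne h h'.swap h12 (by linear_combination -hdet)
    rwa [T_swap h'] at this
  by_cases h21 : B r p' = 0
  swap
  · right; right
    have := nf_of_ne h.swap h' h21 (by linear_combination -hdet)
    rwa [T_swap h] at this
  by_cases h22 : B r r' = 0
  swap
  · right; right
    have := nf_of_ne h.swap h'.swap h22 (by linear_combination hdet)
    rwa [T_swap h, T_swap h'] at this
  exact Or.inl ⟨h11, h12, h21, h22⟩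

theorem Ln.right_ne {p r : Fin n ⊕ Fin n → F} (h : Ln p r) : r ≠ 0 := by
  rintro rfl
  obtain ⟨p', r', hd⟩ := h.dual
  have := hd.rr
  rw [B_zero_left] at this
  exact zero_ne_one this

theorem Ln.left_ne {p r : Fin n ⊕ Fin n → F} (h : Ln p r) : p ≠ 0 := h.swap.right_ne

theorem li_or {r r' : Fin n ⊕ Fin n → F} (hr : r ≠ 0) :
    LinearIndependent F ![r, r'] ∨ ∃ a : F, r' = a • r := by
  by_cases hli : LinearIndependent F ![r, r']
  · exact Or.inl hli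
  · right
    rw [LinearIndependent.pair_iff] at hli
    push Not at hli
    obtain ⟨s, t, hst, hne⟩ := hli
    have ht : t ≠ 0 := by
      rintro rfl
      rw [zero_smul, add_zero] at hst
      rcases smul_eq_zero.1 hst with h0 | h0
      · exact hne h0 rfl
      · exact hr h0
    refine ⟨-(s / t), ?_⟩
    have : t • r' = -(s • r) := by
      rw [eq_neg_iff_add_eq_zero, add_comm]; exact hst
    calc r' = t⁻¹ • (t • r') := by rw [smul_smul, inv_mul_cancel₀ ht, one_smul]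
      _ = -(s / t) • r := by rw [this, smul_neg, smul_smul, neg_smul]; congr 2; field_simp

theorem pair_nf {p r p' r' : Fin n ⊕ Fin n → F} (h : Ln p r) (h' : Ln p' r')
    (g : B p p' ≠ 0) (h1 : B p r' = 0) (h2 : B r p' = 0) (h3 : B r r' = 0) :
    ⁅T p r, T p' r'⁆ = ⊥ ∨ RootCommutatorCase (rootSet' F n) (T p r) (T p' r') := by
  rcases li_or (r' := r') h.right_ne with hli | ⟨a, rfl⟩
  · exact Or.inr (commCase h h' ⟨⟨h.sp.hr, h'.sp.hr, h3⟩, exists_dual hli⟩ g h1 h2 h3)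
  · exact Or.inl (commutator_T_same h h' h2)

theorem hpair : ∀ A ∈ rootSet' F n, ∀ A' ∈ rootSet' F n, ⁅A, A'⁆ = ⊥ ∨
    (IsRankOnePair A A' ∧ IsPSL2PairOver F A A') ∨ RootCommutatorCase (rootSet' F n) A A' := by
  rintro _ ⟨p, r, h, rfl⟩ _ ⟨p', r', h', rfl⟩
  rcases pair_cases h h' with ⟨h0, h1, h2, h3⟩ | hdet | ⟨p₁, r₁, p'₁, r'₁, l, l', e, e', g, h1, h2,
    h3⟩
  · exact Or.inl (commutator_T h h' h0 h1 h2 h3)
  · exact Or.inr (Or.inl (pair_T h h' hdet))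
  · rw [← e, ← e']
    rcases pair_nf l l' g h1 h2 h3 with hc | hc
    · exact Or.inl hc
    · exact Or.inr (Or.inr hc)

theorem hcomm : ∀ A ∈ rootSet' F n, IsMulCommutative A := by
  rintro _ ⟨p, r, h, rfl⟩
  exact isMulCommutative_T h

theorem hne : ∀ A ∈ rootSet' F n, A ≠ ⊥ := by
  rintro _ ⟨p, r, h, rfl⟩
  exact T_ne_bot h

theorem hconj : ∀ A ∈ rootSet' F n,
    ∀ g : ↥(Cfsg.isometryGroup F (Cfsg.quadFormPlus n F)), conjBy A g ∈ rootSet' F n := by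
  rintro _ ⟨p, r, h, rfl⟩ g
  exact ⟨_, _, h.gm g, conjBy_T h g⟩

/-- a singular dual pair from a dual pair -/
theorem Dual.mk_sing {p r z₀ y₀ : Fin n ⊕ Fin n → F} (hs : SP p r) (hd : Dual p r z₀ y₀) :
    SP (z₀ - Q z₀ • p) (y₀ - Q y₀ • r - B (z₀ - Q z₀ • p) y₀ • p) ∧
    Dual p r (z₀ - Q z₀ • p) (y₀ - Q y₀ • r - B (z₀ - Q z₀ • p) y₀ • p) := by
  have d := hd.symm
  refine ⟨⟨?_, ?_, ?_⟩, ⟨?_, ?_, ?_, ?_⟩⟩
  · simp only [Q_sub, Q_smul, B_smul_right, hs.hp, d.pp]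
    ring
  · simp only [Q_sub, Q_smul, B_smul_right, B_smul_left, B_sub_left, hs.hp, hs.hr, d.pp, d.pr,
      d.rp, d.rr, hs.hrp, hs.hpr, hd.pp, hd.pr, hd.rp, hd.rr]
    ring
  · simp only [B_smul_right, B_smul_left, B_sub_left, B_sub_right, hs.hp, hs.hr, d.pp, d.pr,
      d.rp, d.rr, hs.hrp, hs.hpr, hs.hpp, hs.hrr, hd.pp, hd.pr, hd.rp, hd.rr]
    ring
  · simp only [B_sub_right, B_smul_right, hd.pp, hs.hpp]
    ring
  · simp only [B_sub_right, B_smul_right, hd.pr, hs.hpp, hs.hpr]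
    ring
  · simp only [B_sub_right, B_smul_right, hd.rp, hs.hrp]
    ring
  · simp only [B_sub_right, B_smul_right, hd.rr, hs.hrp, hs.hrr]
    ring

theorem hF : ∀ A ∈ rootSet' F n, ∃ A' ∈ rootSet' F n, IsRankOnePair A A' := by
  rintro _ ⟨p, r, h, rfl⟩
  obtain ⟨z₀, y₀, hd⟩ := h.dual
  obtain ⟨s, d⟩ := hd.mk_sing h.sp
  exact ⟨_, ⟨_, _, ⟨s, _, _, d.symm⟩, rfl⟩, (pair_dual h.sp s d).1⟩

theorem reach_of_ne {A A' : Subgroup ↥(Cfsg.isometryGroup F (Cfsg.quadFormPlus n F))}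
    (hA : A ∈ rootSet' F n) (hA' : A' ∈ rootSet' F n) (h : ⁅A, A'⁆ ≠ ⊥) :
    Relation.ReflTransGen (FAdj (rootSet' F n)) A A' :=
  RootTransfer.reach_of_noncomm hcomm hne hconj hpair hF hA hA' h

end Cfsg.Agent.Lib.Helper17.OrthRoot
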