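import Cfsg.Agent.Lib.Helper17.OrthRootD

set_option autoImplicit false
set_option linter.unusedSimpArgs false

namespace Cfsg.Agent.Lib.Helper17.OrthRoot

open Matrix Cfsg
open Cfsg.Agent.Lib.Helper85

variable {F : Type*} [Field F] {n : ℕ}

/-- commuting lines meeting trivially are perpendicular -/
theorem gram_zero_of_comm {z y z' y' p r : Fin n ⊕ Fin n → F} (hs : SP z y)
    (hd : Dual z y z' y') (h2 : Ln p r)
    (hint : ∀ a b c d : F, a • z + b • y = c • p + d • r → c • p + d • r = 0)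
    (hc : ⁅T z y, T p r⁆ = ⊥) : B z p = 0 ∧ B z r = 0 ∧ B y p = 0 ∧ B y r = 0 := by
  obtain ⟨p', r', hd2⟩ := h2.dual
  have d := hd.symm
  have hσ := isSg_sg hs 1
  have hτ := isSg_sg h2.sp 1
  have hcm : sg hs 1 * sg h2.sp 1 = sg h2.sp 1 * sg hs 1 := by
    rw [Subgroup.commutator_eq_bot_iff_le_centralizer] at hc
    exact ((Subgroup.mem_centralizer_iff.1 (hc hσ.mem)) _ hτ.mem).symm
  have key : ∀ v, gm (sg hs 1) *ᵥ (gm (sg h2.sp 1) *ᵥ v) =
      gm (sg h2.sp 1) *ᵥ (gm (sg hs 1) *ᵥ v) := by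
    intro v
    rw [← gm_mul_mulVec, ← gm_mul_mulVec, hcm]
  have k1 := key z'
  have k2 := key y'
  rw [hσ z', hσ (gm (sg h2.sp 1) *ᵥ z'), d.pp, d.pr, Matrix.mulVec_sub, Matrix.mulVec_add,
    Matrix.mulVec_smul, Matrix.mulVec_smul, hτ y, hτ z] at k1
  rw [hσ y', hσ (gm (sg h2.sp 1) *ᵥ y'), d.rp, d.rr, Matrix.mulVec_sub, Matrix.mulVec_add,
    Matrix.mulVec_smul, Matrix.mulVec_smul, hτ y, hτ z] at k2
  have e1 := hint (-(B (gm (sg h2.sp 1) *ᵥ z') y)) (B (gm (sg h2.sp 1) *ᵥ z') z - 1) (-(B y r))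
    (B y p) (by linear_combination (norm := module) k1)
  have e2 := hint (B (gm (sg h2.sp 1) *ᵥ y') y - 1) (-(B (gm (sg h2.sp 1) *ᵥ y') z)) (-(B z r))
    (B z p) (by linear_combination (norm := module) -k2)
  obtain ⟨a1, a2⟩ := hd2.eq_zero e1
  obtain ⟨a3, a4⟩ := hd2.eq_zero e2
  exact ⟨a4, neg_eq_zero.1 a3, a2, neg_eq_zero.1 a1⟩

/-- case (i): perpendicular lines -/
theorem conn_perp {p₁ r₁ p₂ r₂ : Fin n ⊕ Fin n → F} (h₁ : Ln p₁ r₁) (h₂ : Ln p₂ r₂)
    (h0 : B p₁ p₂ = 0) (h1 : B p₁ r₂ = 0) (h2 : B r₁ p₂ = 0) (h3 : B r₁ r₂ = 0) :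
    ∃ z y : Fin n ⊕ Fin n → F, Ln z y ∧ IsRankOnePair (T p₁ r₁) (T z y) ∧
      ⁅T z y, T p₂ r₂⁆ ≠ ⊥ := by
  obtain ⟨z₀, y₀, hd, hne⟩ : ∃ z₀ y₀, Dual p₁ r₁ z₀ y₀ ∧ (B z₀ p₂ ≠ 0 ∨ B y₀ p₂ ≠ 0) := by
    obtain ⟨z₀, y₀, hd⟩ := h₁.dual
    by_cases c1 : B z₀ p₂ = 0
    swap
    · exact ⟨z₀, y₀, hd, Or.inl c1⟩
    by_cases c2 : B y₀ p₂ = 0
    swap
    · exact ⟨z₀, y₀, hd, Or.inr c2⟩
    obtain ⟨u₀, hu₀⟩ := exists_B_ne h₂.left_ne
    refine ⟨z₀ + (u₀ - B u₀ p₁ • z₀ - B u₀ r₁ • y₀), y₀, ⟨?_, hd.pr, ?_, hd.rr⟩, Or.inl ?_⟩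
    · simp only [B_add_right, B_sub_right, B_smul_right, hd.pp, hd.pr, B_comm u₀ p₁]
      ring
    · simp only [B_add_right, B_sub_right, B_smul_right, hd.rp, hd.rr, B_comm u₀ r₁]
      ring
    · simp only [B_add_left, B_sub_left, B_smul_left, c1, c2]
      rw [B_comm u₀ p₂]
      simpa using hu₀
  obtain ⟨s, d⟩ := hd.mk_sing h₁.sp
  refine ⟨_, _, ⟨s, _, _, d.symm⟩, (pair_dual h₁.sp s d).1, ?_⟩
  intro hc
  have hg := gram_zero_of_comm s d.symm h₂ ?_ hc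
  · obtain ⟨g1, -, g3, -⟩ := hg
    simp only [B_sub_left, B_smul_left, h0, h2] at g1 g3
    rcases hne with hne | hne
    · apply hne
      linear_combination g1
    · apply hne
      linear_combination g3
  · intro a b c e heq
    have q1 := congrArg (fun x => B p₁ x) heq
    have q2 := congrArg (fun x => B r₁ x) heq
    simp only [B_add_right, B_smul_right, d.pp, d.pr, d.rp, d.rr, h0, h1, h2, h3] at q1 q2
    have a0 : a = 0 := by linear_combination q1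
    have b0 : b = 0 := by linear_combination q2
    rw [← heq, a0, b0]
    simp

/-- `B · a` as a linear functional -/
def Bl (a : Fin n ⊕ Fin n → F) : (Fin n ⊕ Fin n → F) →ₗ[F] F where
  toFun v := B v a
  map_add' u v := B_add_left u v a
  map_smul' c v := B_smul_left c v a

theorem exists_perp4 (hn : 3 ≤ n) (a b c d : Fin n ⊕ Fin n → F) :
    ∃ w : Fin n ⊕ Fin n → F, w ≠ 0 ∧ B w a = 0 ∧ B w b = 0 ∧ B w c = 0 ∧ B w d = 0 := by
  have hk : LinearMap.ker (LinearMap.pi ![Bl a, Bl b, Bl c, Bl d]) ≠ ⊥ := by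
    apply LinearMap.ker_ne_bot_of_finrank_lt
    rw [Module.finrank_fin_fun, Module.finrank_fintype_fun_eq_card, Fintype.card_sum,
      Fintype.card_fin]
    omega
  obtain ⟨w, hw, hw0⟩ := (Submodule.ne_bot_iff _).1 hk
  rw [LinearMap.mem_ker] at hw
  refine ⟨w, hw0, ?_, ?_, ?_, ?_⟩
  · exact congrFun hw 0
  · exact congrFun hw 1
  · exact congrFun hw 2
  · exact congrFun hw 3

/-- case (ii): lines sharing a point, not perpendicular -/
theorem conn_share (hn : 3 ≤ n) {p p' x : Fin n ⊕ Fin n → F} (h₁ : Ln p x) (h₂ : Ln p' x)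
    (g : B p p' ≠ 0) :
    ∃ z y : Fin n ⊕ Fin n → F, Ln z y ∧ IsRankOnePair (T p x) (T z y) ∧
      ⁅T z y, T p' x⁆ ≠ ⊥ := by
  obtain ⟨pd, xd, hdd⟩ := h₁.dual
  obtain ⟨xs, hxs⟩ : ∃ xs, xs = xd - (B p' xd / B p p') • p := ⟨_, rfl⟩
  have x1 : B x xs = 1 := by
    rw [hxs, B_sub_right, B_smul_right, hdd.rr, h₁.sp.hrp]; ring
  have x2 : B p xs = 0 := by
    rw [hxs, B_sub_right, B_smul_right, hdd.pr, h₁.sp.hpp]; ring
  have x3 : B p' xs = 0 := by
    rw [hxs, B_sub_right, B_smul_right, B_comm p' p]; field_simp; ring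
  obtain ⟨w, hw0, w1, w2, w3, w4⟩ := exists_perp4 hn p p' x xs
  obtain ⟨z₀, hz₀⟩ : ∃ z₀, z₀ = (B p p')⁻¹ • p' + w - Q w • p := ⟨_, rfl⟩
  have hQ : Q z₀ = 0 := by
    rw [hz₀]
    simp only [Q_sub, Q_add, Q_smul, B_add_left, B_smul_left, B_smul_right, h₁.sp.hp, h₂.sp.hp,
      w1, B_comm p' w, w2, B_comm p' p]
    field_simp
    ring
  have hd : Dual p x z₀ xs := by
    refine ⟨?_, x2, ?_, x1⟩
    · rw [hz₀]
      simp only [B_sub_right, B_add_right, B_smul_right, B_comm p w, w1, h₁.sp.hpp]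
      field_simp
      ring
    · rw [hz₀]
      simp only [B_sub_right, B_add_right, B_smul_right, B_comm x w, w3, h₁.sp.hrp, h₂.sp.hrp]
      ring
  obtain ⟨s, d⟩ := hd.mk_sing h₁.sp
  rw [hQ, zero_smul, sub_zero] at s d
  refine ⟨_, _, ⟨s, _, _, d.symm⟩, (pair_dual h₁.sp s d).1, ?_⟩
  intro hc
  have hg := gram_zero_of_comm s d.symm h₂ ?_ hc
  · obtain ⟨-, -, -, g4⟩ := hg
    rw [B_comm, d.rr] at g4
    exact one_ne_zero g4
  · intro a b c e heq
    have q1 := congrArg (fun v => B x v) heq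
    simp only [B_add_right, B_smul_right, d.rp, d.rr, h₂.sp.hrp, h₂.sp.hrr] at q1
    have b0 : b = 0 := by linear_combination q1
    rw [b0, zero_smul, add_zero] at heq
    have q2 := congrArg (fun v => B p v) heq
    have q3 := congrArg (fun v => B v xs) heq
    have q4 := congrArg (fun v => B v p') heq
    simp only [B_add_right, B_smul_right, d.pp, h₁.sp.hpr] at q2
    rw [hz₀] at q3 q4
    simp only [B_add_left, B_sub_left, B_smul_left, x1, x2, x3, w4, w2, h₂.sp.hpp, h₂.sp.hrp]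
      at q3 q4
    have e0 : e = 0 := by linear_combination -q3
    have aq : a * Q w = 0 := by
      have : a * Q w * B p p' = 0 := by linear_combination -q4
      rcases mul_eq_zero.1 this with h | h
      · exact h
      · exact absurd h g
    have aw : a • w = 0 := by
      rw [hz₀, e0] at heq
      have hc' : c = a * (B p p')⁻¹ := by
        have q2' : a = c * B p p' := by linear_combination q2
        rw [q2']; field_simp
      rw [hc'] at heq
      have : a • w = (a * Q w) • p := by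
        linear_combination (norm := module) heq
      rw [this, aq, zero_smul]
    have a0 : a = 0 := by
      rcases smul_eq_zero.1 aw with h | h
      · exact h
      · exact absurd h hw0
    rw [← heq, a0, zero_smul]

theorem connected' (hn : 3 ≤ n) : IsConnectedFamily (FAdj (rootSet' F n)) (rootSet' F n) := by
  rintro _ ⟨p, r, h, rfl⟩ _ ⟨p', r', h', rfl⟩
  rcases pair_cases h h' with ⟨h0, h1, h2, h3⟩ | hdet | ⟨p₁, r₁, p'₁, r'₁, l, l', e, e', g, h1, h2,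
    h3⟩
  · obtain ⟨z, y, lz, hr, hnc⟩ := conn_perp h h' h0 h1 h2 h3
    exact Relation.ReflTransGen.head ⟨⟨p, r, h, rfl⟩, ⟨z, y, lz, rfl⟩, hr⟩
      (reach_of_ne ⟨z, y, lz, rfl⟩ ⟨p', r', h', rfl⟩ hnc)
  · exact Relation.ReflTransGen.single ⟨⟨p, r, h, rfl⟩, ⟨p', r', h', rfl⟩, (pair_T h h' hdet).1⟩
  · rw [← e, ← e']
    rcases li_or (r' := r'₁) l.right_ne with hli | ⟨a, rfl⟩
    · have hcc := commCase l l' ⟨⟨l.sp.hr, l'.sp.hr, h3⟩, exists_dual hli⟩ g h1 h2 h3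
      exact reach_of_ne ⟨_, _, l, rfl⟩ ⟨_, _, l', rfl⟩ (hne _ hcc.1)
    · have ha : a ≠ 0 := by
        rintro rfl
        apply l'.right_ne
        rw [zero_smul]
      have hD : (1 : F) * a⁻¹ - 0 * 0 ≠ 0 := by
        simpa using ha
      have l2 := l'.base hD
      have e2 := T_base l' hD
      have s1 : (1 : F) • p'₁ + (0 : F) • a • r₁ = p'₁ := by simp
      have s2 : (0 : F) • p'₁ + a⁻¹ • a • r₁ = r₁ := by
        rw [smul_smul, inv_mul_cancel₀ ha]; simp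
      rw [s1, s2] at l2 e2
      rw [← e2]
      obtain ⟨z, y, lz, hr, hnc⟩ := conn_share hn l l2 g
      exact Relation.ReflTransGen.head ⟨⟨_, _, l, rfl⟩, ⟨z, y, lz, rfl⟩, hr⟩
        (reach_of_ne ⟨z, y, lz, rfl⟩ ⟨_, _, l2, rfl⟩ hnc)

/-- The set of Siegel transvection groups, as in the statement. -/
def rootSet (F : Type*) [Field F] (n : ℕ) :
    Set (Subgroup ↥(Cfsg.isometryGroup F (Cfsg.quadFormPlus n F))) :=
  {A | ∃ p r : Fin n ⊕ Fin n → F, LinearIndependent F ![p, r] ∧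
    Cfsg.quadFormPlus n F p = 0 ∧ Cfsg.quadFormPlus n F r = 0 ∧
    Cfsg.quadFormPlus n F (p + r) = 0 ∧
    A = Subgroup.closure {σ : ↥(Cfsg.isometryGroup F (Cfsg.quadFormPlus n F)) |
      ∀ v : Fin n ⊕ Fin n → F,
        Cfsg.quadFormPlus n F (v + p) - Cfsg.quadFormPlus n F v - Cfsg.quadFormPlus n F p = 0 →
        Cfsg.quadFormPlus n F (v + r) - Cfsg.quadFormPlus n F v - Cfsg.quadFormPlus n F r = 0 →
          ((σ : Matrix.GeneralLinearGroup (Fin n ⊕ Fin n) F) :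
            Matrix (Fin n ⊕ Fin n) (Fin n ⊕ Fin n) F) *ᵥ v = v}}

theorem rootSet_eq : rootSet F n = rootSet' F n := by
  ext A
  constructor
  · rintro ⟨p, r, hli, hp, hr, hpr, rfl⟩
    refine ⟨p, r, ⟨⟨hp, hr, ?_⟩, exists_dual hli⟩, rfl⟩
    have := Q_add p r
    change Cfsg.quadFormPlus n F (p + r) = Cfsg.quadFormPlus n F p + Cfsg.quadFormPlus n F r +
      B p r at this
    rw [hpr, hp, hr] at this
    linear_combination -this
  · rintro ⟨p, r, h, rfl⟩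
    obtain ⟨p', r', hd⟩ := h.dual
    refine ⟨p, r, hd.li, h.sp.hp, h.sp.hr, ?_, rfl⟩
    have := Q_add p r
    rw [h.sp.hp, h.sp.hr, h.sp.hpr] at this
    simpa using this

theorem main (F : Type*) [Field F] (m : ℕ) :
    IsKRootSubgroupSet F ((fun A : Subgroup ↥(Cfsg.isometryGroup F (Cfsg.quadFormPlus (m + 3) F)) =>
      A.subgroupOf (⨆ B ∈ rootSet F (m + 3), B)) '' rootSet F (m + 3)) ∧
    IsConnectedFamily (FAdj (rootSet F (m + 3))) (rootSet F (m + 3)) := by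
  rw [rootSet_eq]
  exact ⟨RootTransfer.transfer2 hcomm hne hconj hpair, connected' (by omega)⟩

end Cfsg.Agent.Lib.Helper17.OrthRoot
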