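import Cfsg.Agent.Lib.Helper17.SLRoot

set_option autoImplicit false

namespace Cfsg.Agent.Lib.Helper17.SLInvol

open Matrix Cfsg
open Cfsg.Agent.Lib.Helper85
open Cfsg.Agent.Lib.Helper17.SLRoot

section sl2

variable {F : Type*} [Field F] [CharP F 2]

theorem trace_zero_of_commute {z g : SpecialLinearGroup (Fin 2) F} (hz2 : z * z = 1) (hz1 : z ≠ 1)
    (hc : z * g = g * z) : g 0 0 + g 1 1 = 0 := by
  have two : (2 : F) = 0 := CharTwo.two_eq_zero
  have o00 : (1 : SpecialLinearGroup (Fin 2) F) 0 0 = 1 := by simp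
  have o01 : (1 : SpecialLinearGroup (Fin 2) F) 0 1 = 0 := by simp
  have o10 : (1 : SpecialLinearGroup (Fin 2) F) 1 0 = 0 := by simp
  have o11 : (1 : SpecialLinearGroup (Fin 2) F) 1 1 = 1 := by simp
  have e00 := congrArg (fun m : SpecialLinearGroup (Fin 2) F => m 0 0) hz2
  have e01 := congrArg (fun m : SpecialLinearGroup (Fin 2) F => m 0 1) hz2
  have e10 := congrArg (fun m : SpecialLinearGroup (Fin 2) F => m 1 0) hz2
  have e11 := congrArg (fun m : SpecialLinearGroup (Fin 2) F => m 1 1) hz2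
  have c01 := congrArg (fun m : SpecialLinearGroup (Fin 2) F => m 0 1) hc
  have c10 := congrArg (fun m : SpecialLinearGroup (Fin 2) F => m 1 0) hc
  simp only [SL2.mul_entry, o00, o01, o10, o11] at e00 e01 e10 e11 c01 c10
  by_cases hb : z 0 1 = 0
  · by_cases hcc : z 1 0 = 0
    · exfalso
      apply hz1
      rw [hb, hcc] at e00 e11
      have ha : (z 0 0 - 1) ^ 2 = 0 := by linear_combination e00 + (1 - z 0 0) * two
      have hd : (z 1 1 - 1) ^ 2 = 0 := by linear_combination e11 + (1 - z 1 1) * two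
      apply SL2.ext2
      · rw [o00]; exact sub_eq_zero.1 (pow_eq_zero_iff (two_ne_zero) |>.1 ha)
      · rw [o01]; exact hb
      · rw [o10]; exact hcc
      · rw [o11]; exact sub_eq_zero.1 (pow_eq_zero_iff (two_ne_zero) |>.1 hd)
    · have h1 : z 1 0 * (z 0 0 + z 1 1) = 0 := by linear_combination e10
      have h2 : z 0 0 + z 1 1 = 0 := (mul_eq_zero.1 h1).resolve_left hcc
      have h3 : z 1 0 * (g 0 0 + g 1 1) = 0 := by
        linear_combination c10 - g 1 0 * h2 + (g 1 0 * z 0 0 + g 1 1 * z 1 0) * two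
      exact (mul_eq_zero.1 h3).resolve_left hcc
  · have h1 : z 0 1 * (z 0 0 + z 1 1) = 0 := by linear_combination e01
    have h2 : z 0 0 + z 1 1 = 0 := (mul_eq_zero.1 h1).resolve_left hb
    have h3 : z 0 1 * (g 0 0 + g 1 1) = 0 := by
      linear_combination c01 + g 0 1 * h2 + (g 0 0 * z 0 1 - g 0 1 * z 0 0) * two
    exact (mul_eq_zero.1 h3).resolve_left hb

theorem odd_orderOf [Finite F] {g : SpecialLinearGroup (Fin 2) F} (h : g 0 0 + g 1 1 ≠ 0) :
    Odd (orderOf g) := by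
  by_contra hodd
  rw [Nat.not_odd_iff_even] at hodd
  obtain ⟨r, hr⟩ := hodd
  have hpos : 0 < orderOf g := orderOf_pos g
  apply h
  apply trace_zero_of_commute (z := g ^ r)
  · rw [← pow_add, ← hr, pow_orderOf_eq_one]
  · exact pow_ne_one_of_lt_orderOf (by omega) (by omega)
  · exact ((Commute.refl g).pow_left r).eq

theorem cube_eq_one : (SL2.up (1 : F) * SL2.lo 1) ^ 3 = 1 := by
  have two : (2 : F) = 0 := CharTwo.two_eq_zero
  have o00 : (1 : SpecialLinearGroup (Fin 2) F) 0 0 = 1 := by simp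
  have o01 : (1 : SpecialLinearGroup (Fin 2) F) 0 1 = 0 := by simp
  have o10 : (1 : SpecialLinearGroup (Fin 2) F) 1 0 = 0 := by simp
  have o11 : (1 : SpecialLinearGroup (Fin 2) F) 1 1 = 1 := by simp
  rw [pow_succ, pow_two]
  apply SL2.ext2
  · simp only [SL2.mul_entry, SL2.up_00, SL2.up_01, SL2.up_10, SL2.up_11, SL2.lo_00, SL2.lo_01,
      SL2.lo_10, SL2.lo_11, o00]
    linear_combination 6 * two
  · simp only [SL2.mul_entry, SL2.up_00, SL2.up_01, SL2.up_10, SL2.up_11, SL2.lo_00, SL2.lo_01,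
      SL2.lo_10, SL2.lo_11, o01]
    linear_combination 4 * two
  · simp only [SL2.mul_entry, SL2.up_00, SL2.up_01, SL2.up_10, SL2.up_11, SL2.lo_00, SL2.lo_01,
      SL2.lo_10, SL2.lo_11, o10]
    linear_combination 4 * two
  · simp only [SL2.mul_entry, SL2.up_00, SL2.up_01, SL2.up_10, SL2.up_11, SL2.lo_00, SL2.lo_01,
      SL2.lo_10, SL2.lo_11, o11]
    linear_combination 2 * two

end sl2


section sln

variable {F : Type*} [Field F] {N : ℕ}

/-- the non-trivial transvections -/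
def D' (F : Type*) [Field F] (N : ℕ) : Set (SpecialLinearGroup (Fin N) F) :=
  {t | ∃ p φ : Fin N → F, p ≠ 0 ∧ φ ≠ 0 ∧ φ ⬝ᵥ p = 0 ∧ IsTv p φ 1 t}

theorem mem_D'_of {p φ : Fin N → F} (hp : p ≠ 0) (hφ : φ ≠ 0) (h0 : φ ⬝ᵥ p = 0) {c : F}
    (hc : c ≠ 0) {t : SpecialLinearGroup (Fin N) F} (ht : IsTv p φ c t) : t ∈ D' F N := by
  refine ⟨c • p, (1 : F) • φ, smul_ne_zero hc hp, by rwa [one_smul], ?_, ?_⟩
  · rw [one_smul, dotProduct_smul, h0, smul_zero]
  · rw [isTv_smul]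
    simpa using ht

theorem conj_mem_D' {t : SpecialLinearGroup (Fin N) F} (ht : t ∈ D' F N)
    (g : SpecialLinearGroup (Fin N) F) : g * t * g⁻¹ ∈ D' F N := by
  obtain ⟨p, φ, hp, hφ, h0, ht⟩ := ht
  have hg2 : ∀ v, (φ ᵥ* mat g⁻¹) ⬝ᵥ (mat g *ᵥ v) = φ ⬝ᵥ v := by
    intro v
    rw [← Matrix.dotProduct_mulVec, mat_inv_mulVec]
  refine ⟨mat g *ᵥ p, φ ᵥ* mat g⁻¹, mat_mulVec_ne_zero g hp, ?_, ?_, ht.conj rfl hg2⟩
  · intro h
    obtain ⟨r, hr⟩ := exists_dot_ne hφ
    apply hr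
    rw [← hg2, h, zero_dotProduct]
  · rw [hg2, h0]

theorem closure_D' (hN : 2 ≤ N) : Subgroup.closure (D' F N) = ⊤ := by
  have : Nontrivial (Fin N) := Fin.nontrivial_iff_two_le.2 hN
  apply Cfsg.Agent.Lib.Helper45.eq_top_of_transvections
  intro i j hij c
  have h : IsTv (Pi.single i 1) (Pi.single j 1) c (SpecialLinearGroup.transvection hij c) :=
    fun v => transv_mulVec i j c v
  by_cases hc : c = 0
  · subst hc
    rw [h.ext (IsTv.one _ _)]
    exact one_mem _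
  · exact Subgroup.subset_closure (mem_D'_of (single_ne_zero' i) (single_ne_zero' j)
      (single_dot_single hij.symm) hc h)

/-- all non-trivial transvections are conjugate when `3 ≤ N` -/
theorem conj_D' {i j l : Fin N} (hij : i ≠ j) (hil : i ≠ l) (hjl : j ≠ l)
    {t : SpecialLinearGroup (Fin N) F} (ht : t ∈ D' F N) :
    ∃ g, IsTv (Pi.single i 1) (Pi.single j 1) 1 (g⁻¹ * t * g) := by
  obtain ⟨p, φ, hp, hφ, h0, ht⟩ := ht
  obtain ⟨g, hg⟩ := exists_conj hij hp hφ h0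
  have h1 : t ∈ conjBy (T (Pi.single i 1) (Pi.single j 1)) g := hg ▸ ht.mem
  rw [mem_conjBy, mem_T (single_dot_single hij.symm)] at h1
  obtain ⟨c, hc⟩ := h1
  have hc0 : c ≠ 0 := by
    apply hc.param_ne
    intro h
    apply ht.ne_one hp hφ one_ne_zero
    calc t = g * (g⁻¹ * t * g) * g⁻¹ := by group
      _ = 1 := by rw [h]; group
  -- a diagonal element scaling `e_i`
  let E : Dat F N :=
    { e := Pi.single i 1, d := Pi.single l 1, ε := Pi.single i 1, η := Pi.single l 1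
      hεe := single_dot_self i
      hεd := single_dot_single hil
      hηe := single_dot_single hil.symm
      hηd := single_dot_self l }
  let M : SpecialLinearGroup (Fin 2) F := ⟨!![c, 0; 0, c⁻¹], by
    rw [det_fin_two_of, mul_inv_cancel₀ hc0]; simp⟩
  have m00 : M 0 0 = c := rfl
  have m01 : M 0 1 = 0 := rfl
  have m10 : M 1 0 = 0 := rfl
  have m11 : M 1 1 = c⁻¹ := rfl
  have hM : ∀ v, mat (E.phi M) *ᵥ v = v + ((c - 1) * (Pi.single i 1 ⬝ᵥ v)) • Pi.single i 1 +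
      ((c⁻¹ - 1) * (Pi.single l 1 ⬝ᵥ v)) • Pi.single l 1 := by
    intro v
    rw [Dat.phi_mulVec, Dat.LM_apply, m00, m01, m10, m11]
    simp only [zero_mul, add_zero, zero_add]
    rfl
  refine ⟨g * E.phi M, ?_⟩
  have h2 := hc.conj (g := (E.phi M)⁻¹) (p' := c⁻¹ • Pi.single i 1) (φ' := Pi.single j 1) ?_ ?_
  · have e : (g * E.phi M)⁻¹ * t * (g * E.phi M) =
        (E.phi M)⁻¹ * (g⁻¹ * t * g) * ((E.phi M)⁻¹)⁻¹ := by group
    rw [e]
    have h3 : IsTv (c⁻¹ • Pi.single i 1) ((1 : F) • Pi.single j 1) c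
        ((E.phi M)⁻¹ * (g⁻¹ * t * g) * ((E.phi M)⁻¹)⁻¹) := by rwa [one_smul]
    rw [isTv_smul] at h3
    have e2 : c * c⁻¹ * 1 = 1 := by rw [mul_inv_cancel₀ hc0, mul_one]
    rwa [e2] at h3
  · have h4 : mat (E.phi M) *ᵥ (c⁻¹ • Pi.single i 1) = Pi.single i 1 := by
      rw [hM, dotProduct_smul, dotProduct_smul, single_dot_self, single_dot_single hil.symm]
      simp only [smul_eq_mul, mul_one, mul_zero, zero_smul, add_zero]
      rw [← add_smul]
      have : c⁻¹ + (c - 1) * c⁻¹ = 1 := by field_simp; ring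
      rw [this, one_smul]
    conv_lhs => rw [← h4]
    rw [mat_inv_mulVec]
  · intro v
    have h5 : ∀ w, Pi.single j 1 ⬝ᵥ (mat (E.phi M) *ᵥ w) = (Pi.single j 1 : Fin N → F) ⬝ᵥ w := by
      intro w
      rw [hM, dotProduct_add, dotProduct_add, dotProduct_smul, dotProduct_smul,
        single_dot_single hij.symm, single_dot_single hjl]
      simp
    rw [← h5, mat_mulVec_inv]

section char2

variable [CharP F 2]

theorem sq_eq_one {t : SpecialLinearGroup (Fin N) F} (ht : t ∈ D' F N) : t * t = 1 := by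
  obtain ⟨p, φ, hp, hφ, h0, ht⟩ := ht
  have := ht.mul h0 ht
  rw [CharTwo.add_self_eq_zero] at this
  exact this.ext (IsTv.one _ _)

omit [CharP F 2] in
theorem ne_one {t : SpecialLinearGroup (Fin N) F} (ht : t ∈ D' F N) : t ≠ 1 := by
  obtain ⟨p, φ, hp, hφ, h0, ht⟩ := ht
  exact ht.ne_one hp hφ one_ne_zero

theorem inv_eq {t : SpecialLinearGroup (Fin N) F} (ht : t ∈ D' F N) : t⁻¹ = t :=
  inv_eq_of_mul_eq_one_left (sq_eq_one ht)

theorem orderOf_eq_two {t : SpecialLinearGroup (Fin N) F} (ht : t ∈ D' F N) : orderOf t = 2 :=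
  orderOf_eq_prime (by rw [pow_two]; exact sq_eq_one ht) (ne_one ht)

theorem four_case {p φ p' φ' : Fin N → F} (hp : p ≠ 0) (hφ : φ ≠ 0) (hp' : p' ≠ 0) (hφ' : φ' ≠ 0)
    (h0 : φ ⬝ᵥ p = 0) (h0' : φ' ⬝ᵥ p' = 0) (h1 : φ ⬝ᵥ p' = 0) (h2 : φ' ⬝ᵥ p ≠ 0)
    {a b : SpecialLinearGroup (Fin N) F} (ha : IsTv p φ 1 a) (hb : IsTv p' φ' 1 b) :
    orderOf (a * b) = 4 ∧ (a * b) ^ 2 ∈ D' F N := by
  have haD : a ∈ D' F N := ⟨p, φ, hp, hφ, h0, ha⟩
  have hbD : b ∈ D' F N := ⟨p', φ', hp', hφ', h0', hb⟩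
  have e : (a * b) ^ 2 = a * b * a⁻¹ * b⁻¹ := by
    rw [inv_eq haD, inv_eq hbD, pow_two, mul_assoc, mul_assoc, mul_assoc]
  have hc := ha.commutator h0 h0' h1 hb
  have hD : (a * b) ^ 2 ∈ D' F N := by
    rw [e]
    refine mem_D'_of hp' hφ h1 ?_ hc
    simpa using h2
  refine ⟨?_, hD⟩
  have := orderOf_eq_prime_pow (x := a * b) (p := 2) (n := 1) (by
    rw [pow_one]; exact ne_one hD) (by
    have : (a * b) ^ 2 ^ (1 + 1) = (a * b) ^ 2 * (a * b) ^ 2 := by
      rw [← pow_add]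
      norm_num
    rw [this]
    exact sq_eq_one hD)
  simpa using this

/-- the three possibilities for a pair of transvections -/
theorem pair_cases {a b : SpecialLinearGroup (Fin N) F} (ha : a ∈ D' F N) (hb : b ∈ D' F N) :
    a * b = b * a ∨ (orderOf (a * b) = 4 ∧ (a * b) ^ 2 ∈ D' F N) ∨
      ∃ (ψ : SpecialLinearGroup (Fin 2) F →* SpecialLinearGroup (Fin N) F) (α β : F),
        Function.Injective ψ ∧ α ≠ 0 ∧ β ≠ 0 ∧ a * b = ψ (SL2.up α * SL2.lo β) := by
  have haD := ha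
  have hbD := hb
  obtain ⟨p, φ, hp, hφ, h0, ha⟩ := ha
  obtain ⟨p', φ', hp', hφ', h0', hb⟩ := hb
  by_cases h1 : φ ⬝ᵥ p' = 0
  · by_cases h2 : φ' ⬝ᵥ p = 0
    · exact Or.inl (ha.comm h1 h2 hb)
    · exact Or.inr (Or.inl (four_case hp hφ hp' hφ' h0 h0' h1 h2 ha hb))
  · by_cases h2 : φ' ⬝ᵥ p = 0
    · right; left
      obtain ⟨h3, h4⟩ := four_case hp' hφ' hp hφ h0' h0 h2 h1 hb ha
      have e : a * b = (b * a)⁻¹ := by rw [_root_.mul_inv_rev, inv_eq haD, inv_eq hbD]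
      rw [e, orderOf_inv, inv_pow, inv_eq h4]
      exact ⟨h3, h4⟩
    · right; right
      let E : Dat F N :=
        { e := p, d := p', ε := (φ' ⬝ᵥ p)⁻¹ • φ', η := (φ ⬝ᵥ p')⁻¹ • φ
          hεe := by rw [smul_dotProduct, smul_eq_mul, inv_mul_cancel₀ h2]
          hεd := by rw [smul_dotProduct, h0', smul_zero]
          hηe := by rw [smul_dotProduct, h0, smul_zero]
          hηd := by rw [smul_dotProduct, smul_eq_mul, inv_mul_cancel₀ h1] }
      refine ⟨E.phi, φ ⬝ᵥ p', φ' ⬝ᵥ p, E.phi_injective, h1, h2, ?_⟩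
      have e1 : a = E.phi (SL2.up (φ ⬝ᵥ p')) := by
        have h3 : IsTv ((1 : F) • p) ((φ ⬝ᵥ p')⁻¹ • φ) (φ ⬝ᵥ p') a := by
          rw [isTv_smul, mul_one, mul_inv_cancel₀ h1]
          exact ha
        rw [one_smul] at h3
        exact h3.ext (E.phi_up _)
      have e2 : b = E.phi (SL2.lo (φ' ⬝ᵥ p)) := by
        have h3 : IsTv ((1 : F) • p') ((φ' ⬝ᵥ p)⁻¹ • φ') (φ' ⬝ᵥ p) b := by
          rw [isTv_smul, mul_one, mul_inv_cancel₀ h2]
          exact hb
        rw [one_smul] at h3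
        exact h3.ext (E.phi_lo _)
      rw [map_mul, ← e1, ← e2]

theorem trace_up_lo (α β : F) (hα : α ≠ 0) (hβ : β ≠ 0) :
    (SL2.up α * SL2.lo β) 0 0 + (SL2.up α * SL2.lo β) 1 1 ≠ 0 := by
  simp only [SL2.mul_entry, SL2.up_00, SL2.up_01, SL2.up_10, SL2.up_11, SL2.lo_00, SL2.lo_01,
      SL2.lo_10, SL2.lo_11]
  have two : (2 : F) = 0 := CharTwo.two_eq_zero
  have : 1 * 1 + α * β + (0 * 0 + 1 * 1) = α * β := by linear_combination two
  rw [this]
  exact mul_ne_zero hα hβ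

theorem isRootInvolutionSet' [Finite F] (hN : 2 ≤ N) : IsRootInvolutionSet (D' F N) where
  orderOf_eq := fun d hd => orderOf_eq_two hd
  generates := closure_D' hN
  conj_mem := fun d hd g => conj_mem_D' hd g
  pair := by
    intro a ha b hb
    rcases pair_cases ha hb with h | h | ⟨ψ, α, β, hψ, hα, hβ, h⟩
    · exact Or.inl h
    · exact Or.inr (Or.inr h)
    · right; left
      rw [h, orderOf_injective ψ hψ]
      exact odd_orderOf (trace_up_lo α β hα hβ)

theorem isThreeFour' [Fintype F] (hF : Fintype.card F = 2) (hN : 2 ≤ N) :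
    IsThreeFourPlusTranspositionSet (D' F N) := by
  refine ⟨isRootInvolutionSet' hN, ?_⟩
  intro a ha b hb hodd
  rcases pair_cases ha hb with h | h | ⟨ψ, α, β, hψ, hα, hβ, h⟩
  · left
    have h2 : (a * b) ^ 2 = 1 := by
      rw [pow_two]
      calc a * b * (a * b) = a * (b * a) * b := by group
        _ = a * (a * b) * b := by rw [h]
        _ = (a * a) * (b * b) := by group
        _ = 1 := by rw [sq_eq_one ha, sq_eq_one hb, one_mul]
    have h3 := orderOf_dvd_of_pow_eq_one h2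
    rcases (Nat.dvd_prime Nat.prime_two).1 h3 with h4 | h4
    · exact h4
    · rw [h4] at hodd
      exact absurd hodd (by decide)
  · rw [h.1] at hodd
    exact absurd hodd (by decide)
  · have one_of : ∀ x : F, x ≠ 0 → x = 1 := by
      intro x hx
      have := FiniteField.pow_card_sub_one_eq_one x hx
      rw [hF] at this
      simpa using this
    rw [one_of α hα, one_of β hβ] at h
    have h3 : (a * b) ^ 3 = 1 := by
      rw [h, ← map_pow, cube_eq_one, map_one]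
    exact (Nat.dvd_prime Nat.prime_three).1 (orderOf_dvd_of_pow_eq_one h3)

end char2

end sln


section final

variable {F : Type*} [Field F]

/-- the conjugates of the non-trivial elementary transvections -/
def D (F : Type*) [Field F] (n : ℕ) : Set (SpecialLinearGroup (Fin (n + 3)) F) :=
  {t | ∃ c : F, c ≠ 0 ∧ ∃ g : SpecialLinearGroup (Fin (n + 3)) F,
    ((g⁻¹ * t * g : SpecialLinearGroup (Fin (n + 3)) F) :
      Matrix (Fin (n + 3)) (Fin (n + 3)) F) = Matrix.transvection 0 1 c}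

theorem ne01 (n : ℕ) : (0 : Fin (n + 3)) ≠ 1 := by
  intro h
  have := congrArg Fin.val h
  simp at this

theorem ne02 (n : ℕ) : (0 : Fin (n + 3)) ≠ 2 := by
  intro h
  have := congrArg Fin.val h
  simp at this
  rw [Nat.mod_eq_of_lt (by omega)] at this
  omega

theorem ne12 (n : ℕ) : (1 : Fin (n + 3)) ≠ 2 := by
  intro h
  have := congrArg Fin.val h
  simp at this
  rw [Nat.mod_eq_of_lt (by omega)] at this
  omega

theorem D_eq (n : ℕ) : D F n = D' F (n + 3) := by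
  ext t
  constructor
  · rintro ⟨c, hc, g, hg⟩
    have h1 : IsTv (Pi.single 0 1) (Pi.single 1 1) c (g⁻¹ * t * g) := by
      intro v
      change ((g⁻¹ * t * g : SpecialLinearGroup (Fin (n + 3)) F) :
        Matrix (Fin (n + 3)) (Fin (n + 3)) F) *ᵥ v = _
      rw [hg, transv_mulVec]
    have h2 := conj_mem_D' (mem_D'_of (single_ne_zero' 0) (single_ne_zero' 1)
      (single_dot_single (ne01 n).symm) hc h1) g
    have e : g * (g⁻¹ * t * g) * g⁻¹ = t := by group
    rwa [e] at h2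
  · intro ht
    obtain ⟨g, hg⟩ := conj_D' (ne01 n) (ne02 n) (ne12 n) ht
    refine ⟨1, one_ne_zero, g, ?_⟩
    rw [Matrix.ext_iff_mulVec]
    intro v
    rw [transv_mulVec]
    exact hg v

theorem main (F : Type*) [Field F] [Fintype F] [CharP F 2] (n : ℕ) :
    IsRootInvolutionClass (D F n) ∧ (Fintype.card F = 2 → IsThreeFourPlusTranspositionSet (D F n)) := by
  rw [D_eq]
  refine ⟨⟨isRootInvolutionSet' (by omega), ?_, ?_⟩, fun hF => isThreeFour' hF (by omega)⟩
  · exact ⟨tv (Pi.single 0 1) (Pi.single 1 1) (single_dot_single (ne01 n).symm) 1,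
      Pi.single 0 1, Pi.single 1 1, single_ne_zero' 0, single_ne_zero' 1,
      single_dot_single (ne01 n).symm, isTv_tv _ _ _ _⟩
  · intro a ha b hb
    obtain ⟨g₁, h₁⟩ := conj_D' (ne01 n) (ne02 n) (ne12 n) ha
    obtain ⟨g₂, h₂⟩ := conj_D' (ne01 n) (ne02 n) (ne12 n) hb
    have e := h₂.ext h₁
    refine ⟨g₂ * g₁⁻¹, ?_⟩
    calc b = g₂ * (g₂⁻¹ * b * g₂) * g₂⁻¹ := by group
      _ = g₂ * (g₁⁻¹ * a * g₁) * g₂⁻¹ := by rw [e]
      _ = g₂ * g₁⁻¹ * a * (g₂ * g₁⁻¹)⁻¹ := by group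

end final

end Cfsg.Agent.Lib.Helper17.SLInvol
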