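import Cfsg.Agent.Lib.Helper17.SUNondegB

set_option autoImplicit false

namespace Cfsg.Agent.Lib.Helper17.SUNondeg

open Module Cfsg.Agent.Lib.Helper95 Cfsg.Agent.Lib.Helper97

section fin

variable {F V : Type*} [Field F] [Finite F] [AddCommGroup V] [Module F V] [FiniteDimensional F V]
variable {σ : F ≃+* F} {f : V → V → F} (h : UF σ f)
variable {M : Subgroup (V ≃ₗ[F] V)}

/-- The vectors `w` of `W` such that every isotropic `w + x`, `0 ≠ x ∈ X`, is good. -/
def gSub (h : UF σ f) {W X : Submodule F V} (hWX : ∀ w ∈ W, ∀ x ∈ X, f w x = 0) (hX : NDOn f X)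
    (hdim : 6 ≤ finrank F X) (hXM : ∀ z ∈ X, f z z = 0 → GoodV σ f M z) : Submodule F V where
  carrier := {w | w ∈ W ∧ ∀ x ∈ X, x ≠ 0 → f x x = - f w w → GoodV σ f M (w + x)}
  zero_mem' := by
    refine ⟨W.zero_mem, fun x hx _ hxx => ?_⟩
    rw [zero_add]
    apply hXM x hx
    rw [hxx, h.zero_left, neg_zero]
  smul_mem' := by
    rintro c w ⟨hw, hg⟩
    refine ⟨W.smul_mem c hw, fun x hx hx0 hxx => ?_⟩
    by_cases hc : c = 0
    · subst hc
      rw [zero_smul, zero_add]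
      apply hXM x hx
      rw [hxx, zero_smul, h.zero_left, neg_zero]
    · have hσc : σ c ≠ 0 := by simpa using hc
      have := (hg (c⁻¹ • x) (X.smul_mem _ hx) (smul_ne_zero (inv_ne_zero hc) hx0) (by
        rw [h.smul_left, h.smul_right, hxx, h.smul_left, h.smul_right, map_inv₀]
        field_simp)).smul h c
      rwa [smul_add, smul_smul, mul_inv_cancel₀ hc, one_smul] at this
  add_mem' := by
    rintro w₁ w₂ ⟨hw₁, hg₁⟩ ⟨hw₂, hg₂⟩
    refine ⟨W.add_mem hw₁ hw₂, fun x hx hx0 hxx => ?_⟩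
    obtain ⟨a, ha0, ha⟩ := exists_skew σ h.ne_refl h.involutive
    obtain ⟨x₁, x₂, n1, n2, n12, z1, z2, z12⟩ := exists_gram (uf_res h hX) (by omega)
      (-f w₁ w₁) (-f w₂ w₂) (a⁻¹ - f w₁ w₂) (by rw [map_neg, h.self_fixed])
      (by rw [map_neg, h.self_fixed])
    simp only [res_apply] at n1 n2 n12
    have n21 : f (x₂ : V) x₁ = σ (a⁻¹ - f w₁ w₂) := by rw [h.herm, n12]
    have g1 := hg₁ x₁ x₁.2 (fun h0 => z1 (Subtype.ext h0)) n1
    have g2 := hg₂ x₂ x₂.2 (fun h0 => z2 (Subtype.ext h0)) n2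
    have p1 : f w₁ (x₂ : V) = 0 := hWX w₁ hw₁ x₂ x₂.2
    have p2 : f (x₁ : V) w₂ = 0 := eq_zero_comm' h (hWX w₂ hw₂ x₁ x₁.2)
    have p3 : f w₂ (x₂ : V) = 0 := hWX w₂ hw₂ x₂ x₂.2
    have p4 : f (x₂ : V) w₂ = 0 := eq_zero_comm' h p3
    have hzz : f (w₂ + (x₂ : V)) (w₂ + x₂) = 0 := by
      rw [h.add_left, h.add_right, h.add_right, p3, p4, n2]; ring
    have huz : f (w₁ + (x₁ : V)) (w₂ + x₂) = a⁻¹ := by
      rw [h.add_left, h.add_right, h.add_right, p1, p2, n12]; ring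
    have g3 := g1.tv h g2 hzz ha
    rw [huz, mul_inv_cancel₀ ha0, one_smul] at g3
    have e : w₁ + (x₁ : V) + (w₂ + x₂) = (w₁ + w₂) + ((x₁ : V) + x₂) := by abel
    rw [e] at g3
    refine good_spread h hX hdim hXM (fun y hy => ?_) (X.add_mem x₁.2 x₂.2) hx
      (fun h0 => z12 (Subtype.ext h0)) hx0 ?_ g3
    · rw [h.add_left, hWX w₁ hw₁ y hy, hWX w₂ hw₂ y hy, add_zero]
    · rw [hxx]
      simp only [h.add_left, h.add_right, n1, n2, n12, n21, map_sub, map_inv₀, ha,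
        ← h.herm w₂ w₁]
      rw [inv_neg]
      ring

lemma mem_gSub {W X : Submodule F V} {hWX : ∀ w ∈ W, ∀ x ∈ X, f w x = 0} {hX : NDOn f X}
    {hdim : 6 ≤ finrank F X} {hXM : ∀ z ∈ X, f z z = 0 → GoodV σ f M z} {w : V} :
    w ∈ gSub h hWX hX hdim hXM ↔
      w ∈ W ∧ ∀ x ∈ X, x ≠ 0 → f x x = - f w w → GoodV σ f M (w + x) := Iff.rfl

include h in
theorem su_le_of_nondeg (hn : 7 ≤ finrank F V) {W : Submodule F V} (hW : NDOn f W)
    (hdim : finrank F W < finrank F (perp h W)) (hX6 : 6 ≤ finrank F (perp h W))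
    (hHM : (UGrp f ⊓ slGrp F V) ⊓ stabGrp W ≤ M) {g : V ≃ₗ[F] V} (hgM : g ∈ M)
    (hgU : g ∈ UGrp f) (hgS : g ∉ stabGrp W) : UGrp f ⊓ slGrp F V ≤ M := by
  obtain ⟨X, hXdef⟩ : ∃ X, X = perp h W := ⟨_, rfl⟩
  rw [← hXdef] at hdim hX6
  have hX : NDOn f X := hXdef ▸ ndOn_perp h hW
  have hXW : ∀ x ∈ X, ∀ w ∈ W, f x w = 0 := by
    intro x hx w hw
    rw [hXdef] at hx
    exact hx w hw
  have hWX : ∀ w ∈ W, ∀ x ∈ X, f w x = 0 := fun w hw x hx => eq_zero_comm' h (hXW x hx w hw)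
  have hdec : ∀ v, ∃ w ∈ W, ∃ x ∈ X, v = w + x := by
    intro v
    rw [hXdef]
    exact exists_decomp h hW v
  -- step 1
  have s1 : ∀ v, f v v = 0 → (v ∈ W ∨ v ∈ X) → GoodV σ f M v := by
    intro v hv hvW a ha t ht
    have hl : a + σ a + a * σ a * f v v = 0 := by rw [ha, hv]; ring
    apply hHM
    refine ⟨⟨mem_UGrp_of_formula h hl ht, ?_⟩, mem_stabGrp_of_forall (fun x hx => ?_)⟩
    · change LinearEquiv.det t = 1
      apply Units.ext
      rw [det_of_formula h ht, hv]; simp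
    · rw [ht]
      rcases hvW with hvW | hvX
      · exact W.add_mem hx (W.smul_mem _ hvW)
      · rw [hWX x hx v hvX]; simpa using hx
  have hXM : ∀ z ∈ X, f z z = 0 → GoodV σ f M z := fun z hz hzz => s1 z hzz (Or.inr hz)
  obtain ⟨G, hG⟩ : ∃ G, G = gSub h hWX hX hX6 hXM := ⟨_, rfl⟩
  have hGW : G ≤ W := by
    intro w hw
    rw [hG] at hw
    exact hw.1
  -- a non-zero element of `G`
  have w1 : ∃ w₀ ∈ G, w₀ ≠ 0 := by
    have hφ : ∃ x ∈ X, ∃ w' ∈ W, f (g x) w' ≠ 0 := by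
      by_contra hcon
      push Not at hcon
      apply hgS
      have : g⁻¹ ∈ stabGrp W := by
        apply mem_stabGrp_of_forall
        intro w' hw'
        apply mem_of_perp_perp h hW
        intro x hx
        rw [← hXdef] at hx
        rw [← hgU, ← LinearEquiv.mul_apply, mul_inv_cancel]
        exact hcon x hx w' hw'
      simpa using inv_mem this
    have hψ : ∃ x ∈ X, ∃ x' ∈ X, f (g x) x' ≠ 0 := by
      by_contra hcon
      push Not at hcon
      have hle : X.map (g : V →ₗ[F] V) ≤ W := by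
        rintro _ ⟨x, hx, rfl⟩
        apply mem_of_perp_perp h hW
        intro x' hx'
        rw [← hXdef] at hx'
        exact eq_zero_comm' h (hcon x hx x' hx')
      have := Submodule.finrank_mono hle
      rw [LinearEquiv.finrank_map_eq g] at this
      omega
    obtain ⟨x₁, hx₁, w', hw', hne1⟩ := hφ
    obtain ⟨x₂, hx₂, x', hx', hne2⟩ := hψ
    obtain ⟨y, -, hyy, hy1, hy2⟩ := (uf_res h hX).exists_iso_ne_ne ⊤
      (by rw [finrank_top]; omega)
      (((h.hat w').comp (g : V →ₗ[F] V)).domRestrict X)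
      (((h.hat x').comp (g : V →ₗ[F] V)).domRestrict X) ⟨x₁, hx₁⟩ ⟨x₂, hx₂⟩ trivial
      (by simpa using hne1) trivial (by simpa using hne2)
    simp only [res_apply, LinearMap.domRestrict_apply, LinearMap.comp_apply, UF.hat_apply,
      LinearEquiv.coe_coe] at hyy hy1 hy2
    have hgood : GoodV σ f M (g y) := (hXM y y.2 hyy).map hgM hgU
    obtain ⟨w₀, hw₀, x₀, hx₀, hgy⟩ := hdec (g y)
    have hw₀0 : w₀ ≠ 0 := by
      rintro rfl
      rw [hgy, zero_add, hXW x₀ hx₀ w' hw'] at hy1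
      exact hy1 rfl
    have hx₀0 : x₀ ≠ 0 := by
      rintro rfl
      rw [hgy, add_zero, hWX w₀ hw₀ x' hx'] at hy2
      exact hy2 rfl
    have hiso : f (w₀ + x₀) (w₀ + x₀) = 0 := by rw [← hgy, hgU, hyy]
    rw [h.add_left, h.add_right, h.add_right, hWX w₀ hw₀ x₀ hx₀, hXW x₀ hx₀ w₀ hw₀] at hiso
    refine ⟨w₀, ?_, hw₀0⟩
    rw [hG, mem_gSub]
    refine ⟨hw₀, fun x hx hx0 hxx => ?_⟩
    refine good_spread h hX hX6 hXM (hWX w₀ hw₀) hx₀ hx hx₀0 hx0 ?_ (hgy ▸ hgood)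
    rw [hxx]
    linear_combination hiso
  obtain ⟨w₀, hw₀G, hw₀0⟩ := w1
  -- `G = W`
  have key : ∀ w ∈ G, ∀ u ∈ W, f u u = 0 → f w u ≠ 0 → u ∈ G := by
    intro w hw u hu huu hwu
    obtain ⟨a, ha0, ha⟩ := exists_skew σ h.ne_refl h.involutive
    have hw' : w + (a * f w u) • u ∈ G := by
      rw [hG, mem_gSub] at hw ⊢
      refine ⟨W.add_mem hw.1 (W.smul_mem _ hu), fun x hx hx0 hxx => ?_⟩
      have hnorm : f (w + (a * f w u) • u) (w + (a * f w u) • u) = f w w :=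
        sim_isometry h (by rw [ha, huu]; ring) w w
      rw [hnorm] at hxx
      have := (hw.2 x hx hx0 hxx).tv h (s1 u huu (Or.inl hu)) huu ha
      rw [h.add_left, hXW x hx u hu, add_zero] at this
      have e : w + x + (a * f w u) • u = w + (a * f w u) • u + x := by abel
      rwa [e] at this
    have h2 : (a * f w u) • u ∈ G := by
      have := G.sub_mem hw' hw
      rwa [add_sub_cancel_left] at this
    exact (G.smul_mem_iff (mul_ne_zero ha0 hwu)).1 h2
  have hGeq : W ≤ G := by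
    by_cases hW1 : finrank F W ≤ 1
    · have hG0 : G ≠ ⊥ := fun h0 => hw₀0 (by simpa [h0] using hw₀G)
      have h1 : 0 < finrank F G := by
        rw [Module.finrank_pos_iff_exists_ne_zero]
        exact ⟨⟨w₀, hw₀G⟩, fun h0 => hw₀0 (congrArg Subtype.val h0)⟩
      exact (Submodule.eq_of_le_of_finrank_le hGW (by omega)).ge
    · have htop := (uf_res h hW).top_of_iso (by omega) (G.comap W.subtype) (by
        intro u huu
        simp only [res_apply] at huu
        rw [Submodule.mem_comap, Submodule.subtype_apply]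
        by_cases hu0 : u = 0
        · rw [hu0]; exact G.zero_mem
        obtain ⟨y₁, hy₁, hy₁w⟩ := hW w₀ (hGW hw₀G) hw₀0
        obtain ⟨y₂, hy₂, hy₂u⟩ := hW u u.2 (fun h0 => hu0 (Subtype.ext h0))
        obtain ⟨u', -, hu'u', h1, h2⟩ := (uf_res h hW).exists_iso_ne_ne ⊤
          (by rw [finrank_top]; omega) ((uf_res h hW).hat ⟨w₀, hGW hw₀G⟩) ((uf_res h hW).hat u)
          ⟨y₁, hy₁⟩ ⟨y₂, hy₂⟩ trivial (by simpa using hy₁w) trivial (by simpa using hy₂u)
        simp only [UF.hat_apply, res_apply] at hu'u' h1 h2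
        have hu'G : (u' : V) ∈ G := key w₀ hw₀G u' u'.2 hu'u' (ne_zero_comm' h h1)
        exact key u' hu'G u u.2 huu h2)
      intro w hw
      have : (⟨w, hw⟩ : W) ∈ G.comap W.subtype := by rw [htop]; trivial
      exact this
  -- conclusion
  apply UGrp_inf_slGrp_le h hn
  apply UT_of_goodV h
  intro v hv
  obtain ⟨w, hw, x, hx, rfl⟩ := hdec v
  by_cases hx0 : x = 0
  · subst hx0
    rw [add_zero] at hv ⊢
    exact s1 w hv (Or.inl hw)
  · have hwG := hGeq hw
    rw [hG, mem_gSub] at hwG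
    apply hwG.2 x hx hx0
    rw [h.add_left, h.add_right, h.add_right, hWX w hw x hx, hXW x hx w hw] at hv
    linear_combination hv

include h in
theorem exists_su_not_stab_nondeg {W : Submodule F V} (hW : NDOn f W) (hW0 : W ≠ ⊥)
    (hX2 : 2 ≤ finrank F (perp h W)) : ∃ g ∈ UGrp f ⊓ slGrp F V, g ∉ stabGrp W := by
  obtain ⟨w, hw, hw0⟩ := Submodule.exists_mem_ne_zero_of_ne_bot hW0
  obtain ⟨y, hy, hyw⟩ := hW w hw hw0
  obtain ⟨x, hx0, hxx⟩ := exists_norm_vec (uf_res h (ndOn_perp h hW)) hX2 (-f w w)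
    (by rw [map_neg, h.self_fixed])
  simp only [res_apply] at hxx
  have hxW : ∀ w' ∈ W, f (x : V) w' = 0 := x.2
  have hvv : f (w + (x : V)) (w + x) = 0 := by
    rw [h.add_left, h.add_right, h.add_right, hxW w hw, eq_zero_comm' h (hxW w hw), hxx]; ring
  obtain ⟨a, ha0, ha⟩ := exists_skew σ h.ne_refl h.involutive
  have hl : a + σ a + a * σ a * f (w + (x : V)) (w + x) = 0 := by rw [ha, hvv]; ring
  obtain ⟨t, ht⟩ := exists_sim h hl
  refine ⟨t, ⟨mem_UGrp_of_formula h hl ht, ?_⟩, fun hc => ?_⟩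
  · change LinearEquiv.det t = 1
    apply Units.ext
    rw [det_of_formula h ht, hvv]; simp
  · have h1 := (hc y).1 hy
    rw [ht, h.add_right, eq_zero_comm' h (hxW y hy), add_zero] at h1
    have h2 : (a * f y w) • (w + (x : V)) ∈ W := by
      have := W.sub_mem h1 hy
      rwa [add_sub_cancel_left] at this
    have h3 : w + (x : V) ∈ W := (W.smul_mem_iff (mul_ne_zero ha0 hyw)).1 h2
    have h4 : (x : V) ∈ W := (W.add_mem_iff_right hw).1 h3
    apply hx0
    apply Subtype.ext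
    exact (Submodule.disjoint_def.1 (disjoint_perp h hW)) x h4 x.2

end fin

end Cfsg.Agent.Lib.Helper17.SUNondeg
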