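import Cfsg.Agent.Lib.Helper17.SympFrame
import Cfsg.Agent.Lib.Helper17.FrameCount

set_option autoImplicit false

namespace Cfsg.Agent.Lib.Helper17

open Matrix

section
variable {F : Type*} [Field F] [Fintype F]

theorem card_isoExt_symp (m k : ℕ) (x : IsoFrame (Cfsg.sympForm m F) k) :
    Nat.card (IsoExt (Cfsg.sympForm m F) x.1) = Fintype.card F ^ (2 * m - k) - Fintype.card F ^ k := by
  have hiso := isotropic_span x.2.2
  have h1 := card_perp_diff m (Submodule.span F (Set.range x.1)) hiso
  rw [finrank_span_eq_card x.2.1, Fintype.card_fin] at h1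
  rw [← h1]
  apply Nat.card_congr
  apply Equiv.subtypeEquivRight
  intro u
  constructor
  · rintro ⟨h1, h2, -⟩
    refine ⟨?_, h1⟩
    intro w hw
    induction hw using Submodule.span_induction with
    | mem w hw =>
      obtain ⟨i, rfl⟩ := hw
      exact (h2 i).1
    | zero => exact sympForm_zero_left m u
    | add a b _ _ ha hb => rw [sympForm_add_left, ha, hb, add_zero]
    | smul c a _ ha => rw [sympForm_smul_left, ha, mul_zero]
  · rintro ⟨h1, h2⟩
    refine ⟨h2, fun i => ?_, sympForm_self m u⟩
    have h3 := h1 (x.1 i) (Submodule.subset_span ⟨i, rfl⟩)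
    exact ⟨h3, by rw [sympForm_swap, h3, neg_zero]⟩

theorem card_isoFrame_symp (m k : ℕ) :
    Nat.card (IsoFrame (Cfsg.sympForm m F) k) =
      ∏ i ∈ Finset.range k, (Fintype.card F ^ (2 * m - i) - Fintype.card F ^ i) := by
  induction k with
  | zero => simp [card_isoFrame_zero]
  | succ k ih =>
    rw [card_isoFrame_succ _ k _ (card_isoExt_symp m k), ih, Finset.prod_range_succ]

/-- The number of totally isotropic `k`-subspaces of the symplectic space, times `|GL_k(q)|`. -/
theorem card_isotropic_subspaces_symp_mul (m k : ℕ) :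
    Nat.card {W : Submodule F (Fin m ⊕ Fin m → F) // Module.finrank F W = k ∧
      ∀ u ∈ W, ∀ v ∈ W, Cfsg.sympForm m F u v = 0} *
        ∏ i : Fin k, (Fintype.card F ^ k - Fintype.card F ^ (i : ℕ)) =
      ∏ i ∈ Finset.range k, (Fintype.card F ^ (2 * m - i) - Fintype.card F ^ i) := by
  rw [← card_isoFrame_symp]
  exact (card_isoFrame_eq_mul (Cfsg.sympForm m F) k (fun x hx => isotropic_span (m := m) (x := x) hx)).symm

end

end Cfsg.Agent.Lib.Helper17
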