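import Cfsg.Prelude.Def_GeometricClasses

set_option autoImplicit false

/-! Basic tools for the stabilisers of tensor decompositions. -/

namespace Cfsg.Agent.Lib.Helper17.Tensor

open scoped Kronecker MatrixGroups
open Matrix

section transfer

variable {ι : Type} [Fintype ι] [DecidableEq ι] {F : Type*} [Field F] {n₁ n₂ : ℕ}

/-- The isomorphism used in the definition of `tensorProductSubgroup`. -/
def tIso (e : ι ≃ Fin n₁ × Fin n₂) (P : GL ι F) : GL (Fin n₁ × Fin n₂) F ≃* GL ι F :=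
  (Cfsg.Geo.glReindex e.symm).trans (MulAut.conj P)

lemma tensorProductSubgroup_eq (e : ι ≃ Fin n₁ × Fin n₂) (P : GL ι F) :
    Cfsg.Geo.tensorProductSubgroup n₁ n₂ e P =
      (Cfsg.Geo.kroneckerSubgroup n₁ n₂ F).map (tIso e P).toMonoidHom := by
  unfold Cfsg.Geo.tensorProductSubgroup
  rw [Subgroup.map_map]
  rfl

lemma between_transfer {G₁ G₂ : Type*} [Group G₁] [Group G₂] (Φ : G₁ ≃* G₂) (A₁ K₁ : Subgroup G₁)
    (B₂ : Subgroup G₂) (h1 : ∀ g ∈ A₁, Φ g ∈ B₂ → g ∈ K₁) (h2 : ∃ g ∈ K₁, Φ g ∈ B₂ ∧ g ∉ A₁)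
    (h3 : ∃ g, Φ g ∈ B₂ ∧ g ∉ K₁) :
    ∃ K : Subgroup G₂, A₁.map Φ.toMonoidHom ⊓ B₂ < K ∧ K < B₂ := by
  refine ⟨K₁.map Φ.toMonoidHom ⊓ B₂, ?_, ?_⟩
  · refine lt_of_le_of_ne ?_ ?_
    · rintro _ ⟨⟨g, hg, rfl⟩, hB⟩
      exact ⟨⟨g, h1 g hg hB, rfl⟩, hB⟩
    · intro heq
      obtain ⟨g, hgK, hgB, hgA⟩ := h2
      have : Φ g ∈ K₁.map Φ.toMonoidHom ⊓ B₂ := ⟨⟨g, hgK, rfl⟩, hgB⟩
      rw [← heq] at this
      obtain ⟨⟨g', hg', hgg⟩, -⟩ := this
      have : g' = g := Φ.injective hgg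
      exact hgA (this ▸ hg')
  · refine lt_of_le_of_ne inf_le_right ?_
    intro heq
    obtain ⟨g, hgB, hgK⟩ := h3
    rw [← heq] at hgB
    obtain ⟨⟨g', hg', hgg⟩, -⟩ := hgB
    have : g' = g := Φ.injective hgg
    exact hgK (this ▸ hg')

end transfer

/-- The elements conjugating `w` to `w` or its inverse. -/
def extCent {G : Type*} [Group G] (w : G) : Subgroup G where
  carrier := {g | g * w * g⁻¹ = w ∨ g * w * g⁻¹ = w⁻¹}
  one_mem' := by left; simp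
  mul_mem' := by
    intro a b ha hb
    have e : a * b * w * (a * b)⁻¹ = a * (b * w * b⁻¹) * a⁻¹ := by group
    have e' : a * w⁻¹ * a⁻¹ = (a * w * a⁻¹)⁻¹ := by group
    rcases ha with ha | ha <;> rcases hb with hb | hb
    · left; rw [e, hb, ha]
    · right; rw [e, hb, e', ha]
    · right; rw [e, hb, ha]
    · left; rw [e, hb, e', ha, inv_inv]
  inv_mem' := by
    intro a ha
    rcases ha with ha | ha
    · left
      calc a⁻¹ * w * a⁻¹⁻¹ = a⁻¹ * (a * w * a⁻¹) * a := by rw [ha, inv_inv]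
        _ = w := by group
    · right
      have : w = (a * w * a⁻¹)⁻¹ := by rw [ha, inv_inv]
      calc a⁻¹ * w * a⁻¹⁻¹ = a⁻¹ * (a * w * a⁻¹)⁻¹ * a := by rw [← this, inv_inv]
        _ = w⁻¹ := by group

lemma mem_extCent {G : Type*} [Group G] {w g : G} :
    g ∈ extCent w ↔ g * w * g⁻¹ = w ∨ g * w * g⁻¹ = w⁻¹ := Iff.rfl

section homs

variable {F : Type*} [Field F] {n₁ n₂ : ℕ}

/-- The Kronecker product as a monoid homomorphism. -/
def kMat : Matrix (Fin n₁) (Fin n₁) F × Matrix (Fin n₂) (Fin n₂) F →*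
    Matrix (Fin n₁ × Fin n₂) (Fin n₁ × Fin n₂) F where
  toFun p := p.1 ⊗ₖ p.2
  map_one' := by simp
  map_mul' p p' := by simp [Matrix.mul_kronecker_mul]

/-- The Kronecker product of invertible matrices. -/
def kHom : GL (Fin n₁) F × GL (Fin n₂) F →* GL (Fin n₁ × Fin n₂) F :=
  (Units.map kMat).comp MulEquiv.prodUnits.symm.toMonoidHom

@[simp] lemma coe_kHom (a : GL (Fin n₁) F) (b : GL (Fin n₂) F) :
    ((kHom (a, b) : GL (Fin n₁ × Fin n₂) F) : Matrix (Fin n₁ × Fin n₂) (Fin n₁ × Fin n₂) F) =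
      (a : Matrix (Fin n₁) (Fin n₁) F) ⊗ₖ (b : Matrix (Fin n₂) (Fin n₂) F) := rfl

lemma mem_kronecker_iff (g : GL (Fin n₁ × Fin n₂) F) :
    g ∈ Cfsg.Geo.kroneckerSubgroup n₁ n₂ F ↔ ∃ a b, g = kHom (a, b) := by
  constructor
  · rintro ⟨a, b, h⟩
    exact ⟨a, b, Units.ext h⟩
  · rintro ⟨a, b, rfl⟩
    exact ⟨a, b, rfl⟩

/-- `β ⊗ E + γ ⊗ (1 - E)` for an idempotent `E`. -/
def dMat (E : Matrix (Fin n₂) (Fin n₂) F) (hE : E * E = E) :
    Matrix (Fin n₁) (Fin n₁) F × Matrix (Fin n₁) (Fin n₁) F →*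
    Matrix (Fin n₁ × Fin n₂) (Fin n₁ × Fin n₂) F where
  toFun p := p.1 ⊗ₖ E + p.2 ⊗ₖ (1 - E)
  map_one' := by
    simp only [Prod.fst_one, Prod.snd_one]
    rw [← Matrix.kronecker_add, add_sub_cancel, Matrix.one_kronecker_one]
  map_mul' p p' := by
    have h1 : E * (1 - E) = 0 := by rw [mul_sub, mul_one, hE, sub_self]
    have h2 : (1 - E) * E = 0 := by rw [sub_mul, one_mul, hE, sub_self]
    have h3 : (1 - E) * (1 - E) = 1 - E := by rw [mul_sub, mul_one, h2, sub_zero]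
    simp only [Prod.fst_mul, Prod.snd_mul, add_mul, mul_add, ← Matrix.mul_kronecker_mul, hE, h1, h2,
      h3, Matrix.kronecker_zero, add_zero, zero_add]

/-- The block-diagonal embedding of `GL × GL`. -/
def dHom (E : Matrix (Fin n₂) (Fin n₂) F) (hE : E * E = E) :
    GL (Fin n₁) F × GL (Fin n₁) F →* GL (Fin n₁ × Fin n₂) F :=
  (Units.map (dMat E hE)).comp MulEquiv.prodUnits.symm.toMonoidHom

@[simp] lemma coe_dHom (E : Matrix (Fin n₂) (Fin n₂) F) (hE : E * E = E) (a b : GL (Fin n₁) F) :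
    ((dHom E hE (a, b) : GL (Fin n₁ × Fin n₂) F) : Matrix (Fin n₁ × Fin n₂) (Fin n₁ × Fin n₂) F) =
      (a : Matrix (Fin n₁) (Fin n₁) F) ⊗ₖ E + (b : Matrix (Fin n₁) (Fin n₁) F) ⊗ₖ (1 - E) := rfl

lemma dHom_diag (E : Matrix (Fin n₂) (Fin n₂) F) (hE : E * E = E) (a : GL (Fin n₁) F) :
    dHom E hE (a, a) = kHom (a, 1) := by
  apply Units.ext
  rw [coe_dHom, coe_kHom, ← Matrix.kronecker_add, add_sub_cancel]
  rfl

/-- The diagonal idempotent. -/
def eMat (F : Type*) [Field F] {n₂ : ℕ} (j₀ : Fin n₂) : Matrix (Fin n₂) (Fin n₂) F :=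
  Matrix.diagonal (Pi.single j₀ 1)

lemma eMat_mul_self (j₀ : Fin n₂) : eMat F j₀ * eMat F j₀ = eMat F j₀ := by
  unfold eMat
  rw [Matrix.diagonal_mul_diagonal]
  congr 1
  ext j
  by_cases h : j = j₀
  · subst h; simp
  · simp [h]

lemma dHom_apply_same (j₀ : Fin n₂) (a b : GL (Fin n₁) F) (i i' : Fin n₁) :
    ((dHom (eMat F j₀) (eMat_mul_self j₀) (a, b) : GL (Fin n₁ × Fin n₂) F) :
      Matrix (Fin n₁ × Fin n₂) (Fin n₁ × Fin n₂) F) (i, j₀) (i', j₀) = a.1 i i' := by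
  rw [coe_dHom]
  simp [eMat, Matrix.kroneckerMap_apply]

lemma dHom_apply_other {j₀ j₁ : Fin n₂} (h : j₁ ≠ j₀) (a b : GL (Fin n₁) F) (i i' : Fin n₁) :
    ((dHom (eMat F j₀) (eMat_mul_self j₀) (a, b) : GL (Fin n₁ × Fin n₂) F) :
      Matrix (Fin n₁ × Fin n₂) (Fin n₁ × Fin n₂) F) (i, j₁) (i', j₁) = b.1 i i' := by
  rw [coe_dHom]
  simp [eMat, Matrix.kroneckerMap_apply, h]

lemma dHom_injective {j₀ j₁ : Fin n₂} (h : j₁ ≠ j₀) :
    Function.Injective (dHom (n₁ := n₁) (eMat F j₀) (eMat_mul_self j₀)) := by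
  rintro ⟨a, b⟩ ⟨a', b'⟩ hab
  have h1 : a = a' := by
    apply Units.ext
    ext i i'
    have := dHom_apply_same j₀ a b i i'
    rw [hab, dHom_apply_same] at this
    exact this.symm
  have h2 : b = b' := by
    apply Units.ext
    ext i i'
    have := dHom_apply_other h a b i i'
    rw [hab, dHom_apply_other h] at this
    exact this.symm
  rw [h1, h2]

end homs

end Cfsg.Agent.Lib.Helper17.Tensor
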