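import Cfsg.Agent.Lib.Helper17.TensorForm
import Cfsg.Agent.Lib.Helper17.FrameThree

set_option autoImplicit false

/-! The tensor product of a symplectic space with an orthogonal space of dimension three over the
field with three elements. -/

namespace Cfsg.Agent.Lib.Helper17.TensorSymp

open scoped Kronecker MatrixGroups
open Matrix Module Cfsg.Geo Cfsg.Agent.Lib.Helper17.Tensor Cfsg.Agent.Lib.Helper17.TensorForm
  Cfsg.Agent.Lib.Helper17.FrameThree Cfsg.Agent.Lib.Helper95 Cfsg.Agent.Lib.Helper97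

section transfer

variable {ι : Type} [Fintype ι] [DecidableEq ι] {F : Type*} [Field F] {n₁ n₂ : ℕ}

/-- The pulled back bilinear form. -/
noncomputable def pullB (e : ι ≃ Fin n₁ × Fin n₂) (P : GL ι F) (B : LinearMap.BilinForm F (ι → F)) :
    LinearMap.BilinForm F (Fin n₁ × Fin n₂ → F) :=
  B.comp (Lmap e P : (Fin n₁ × Fin n₂ → F) →ₗ[F] (ι → F)) (Lmap e P : (Fin n₁ × Fin n₂ → F) →ₗ[F] (ι → F))

lemma pullB_apply (e : ι ≃ Fin n₁ × Fin n₂) (P : GL ι F) (B : LinearMap.BilinForm F (ι → F))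
    (x y : Fin n₁ × Fin n₂ → F) : pullB e P B x y = B (Lmap e P x) (Lmap e P y) := rfl

lemma tIso_mem_isoGrp (e : ι ≃ Fin n₁ × Fin n₂) (P : GL ι F) (B : LinearMap.BilinForm F (ι → F))
    (g : GL (Fin n₁ × Fin n₂) F) :
    glEquiv (tIso e P g) ∈ isoGrp B ↔ glEquiv g ∈ isoGrp (pullB e P B) := by
  rw [mem_isoGrp, mem_isoGrp]
  constructor
  · intro h x y
    rw [pullB_apply, pullB_apply, ← tIso_Lmap, ← tIso_Lmap, h]
  · intro h x y
    obtain ⟨x, rfl⟩ := (Lmap e P).surjective x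
    obtain ⟨y, rfl⟩ := (Lmap e P).surjective y
    rw [tIso_Lmap, tIso_Lmap]
    exact h x y

end transfer

variable {F : Type*} [Field F] {n₁ : ℕ}

/-- The pure tensors whose second factor belongs to the frame. -/
def pureSet (n₁ : ℕ) (f₂ : (Fin 3 → F) → (Fin 3 → F) → F) : Set (Fin n₁ × Fin 3 → F) :=
  {z | ∃ u w, Fr f₂ w ∧ z = tp u w}

lemma tp_prop {n₂ : ℕ} {u u' : Fin n₁ → F} {w w' : Fin n₂ → F} (h : tp u w = tp u' w') (hw : w' ≠ 0) :
    ∃ l : F, u' = l • u := by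
  obtain ⟨j, hj⟩ : ∃ j, w' j ≠ 0 := by
    by_contra h'
    push Not at h'
    exact hw (funext h')
  refine ⟨w j / w' j, ?_⟩
  ext i
  have := congrFun h (i, j)
  simp only [tp_apply] at this
  rw [Pi.smul_apply, smul_eq_mul]
  field_simp
  linear_combination -this

variable {f₁ : (Fin n₁ → F) → (Fin n₁ → F) → F} {f₂ : (Fin 3 → F) → (Fin 3 → F) → F}
  {B : LinearMap.BilinForm F (Fin n₁ × Fin 3 → F)}
  (h₁ : IsSymplecticForm f₁) (h₂ : IsSymmetricForm f₂) (hB : B.IsAlt) {c : F} (hc : c ≠ 0)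
  (hT : ∀ u w u' w', B (tp u w) (tp u' w') = c * (f₁ u u' * f₂ w w'))

include h₁ h₂ hc hT in
lemma kron_map_pureSet (hn₁ : 0 < n₁) {g : GL (Fin n₁ × Fin 3) F}
    (hg : g ∈ Cfsg.Geo.kroneckerSubgroup n₁ 3 F) (hgU : glEquiv g ∈ isoGrp B)
    (z : Fin n₁ × Fin 3 → F) (hz : z ∈ pureSet n₁ f₂) : glEquiv g z ∈ pureSet n₁ f₂ := by
  obtain ⟨a, b, hab⟩ := hg
  obtain ⟨u, w, hw, rfl⟩ := hz
  have hmap : ∀ u w, glEquiv g (tp u w) = tp ((a : Matrix _ _ F) *ᵥ u) ((b : Matrix _ _ F) *ᵥ w) := by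
    intro u w
    rw [glEquiv_apply, hab, kron_mulVec_tp]
  refine ⟨_, _, ?_, hmap u w⟩
  have hne : (Pi.single ⟨0, hn₁⟩ 1 : Fin n₁ → F) ≠ 0 := by
    intro h0
    have := congrFun h0 ⟨0, hn₁⟩
    simp at this
  obtain ⟨u₁, hu₁⟩ := (h₁.nondegenerate _ hne).1
  set u₂ : Fin n₁ → F := Pi.single ⟨0, hn₁⟩ 1
  have h1 : ∀ w w', f₁ ((a : Matrix _ _ F) *ᵥ u₁) ((a : Matrix _ _ F) *ᵥ u₂) *
      f₂ ((b : Matrix _ _ F) *ᵥ w) ((b : Matrix _ _ F) *ᵥ w') = f₁ u₁ u₂ * f₂ w w' := by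
    intro w w'
    have := hgU (tp u₁ w) (tp u₂ w')
    rw [hmap, hmap, hT, hT] at this
    exact mul_left_cancel₀ hc this
  have hsurj : ∀ v : Fin 3 → F, ∃ v', v = (b : Matrix (Fin 3) (Fin 3) F) *ᵥ v' := by
    intro v
    refine ⟨((b⁻¹ : GL (Fin 3) F) : Matrix (Fin 3) (Fin 3) F) *ᵥ v, ?_⟩
    rw [Matrix.mulVec_mulVec, ← Units.val_mul, mul_inv_cancel, Units.val_one, Matrix.one_mulVec]
  constructor
  · intro h0
    have := h1 w w
    rw [h0, mul_zero] at this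
    exact mul_ne_zero hu₁ hw.1 this.symm
  · intro v hv hvv
    obtain ⟨v', rfl⟩ := hsurj v
    have e1 := h1 v' w
    have e2 := h1 v' v'
    rw [hv, mul_zero] at e1
    rw [hvv, mul_zero] at e2
    have := hw.2 v' ((mul_eq_zero.1 e1.symm).resolve_left hu₁) ((mul_eq_zero.1 e2.symm).resolve_left hu₁)
    rw [this, Matrix.mulVec_zero]

include h₁ h₂ hc hT in
lemma kron_mem_setStab (hn₁ : 0 < n₁) {g : GL (Fin n₁ × Fin 3) F}
    (hg : g ∈ Cfsg.Geo.kroneckerSubgroup n₁ 3 F) (hgU : glEquiv g ∈ isoGrp B) :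
    glEquiv g ∈ setStab F (pureSet n₁ f₂) := by
  apply mem_setStab_of
  · exact kron_map_pureSet h₁ h₂ hc hT hn₁ hg hgU
  · rw [← map_inv]
    apply kron_map_pureSet h₁ h₂ hc hT hn₁ (inv_mem hg)
    rw [map_inv]
    exact inv_mem hgU

section frame

variable (hF : ∀ a : F, a = 0 ∨ a = 1 ∨ a = -1) (h3 : (3 : F) = 0) {ε : F}
  {y : Fin 3 → (Fin 3 → F)} (hy : Frame f₂ ε y)

include h₂ hF h3 hy in
lemma mem_pureSet_iff (z : Fin n₁ × Fin 3 → F) : z ∈ pureSet n₁ f₂ ↔ ∃ u k, z = tp u (y k) := by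
  constructor
  · rintro ⟨u, w, hw, rfl⟩
    obtain ⟨k, d, rfl⟩ := hy.eq_of_fr hF h3 h₂.bilinear hw
    exact ⟨d • u, k, by rw [tp_smul_left, tp_smul_right]⟩
  · rintro ⟨u, k, rfl⟩
    exact ⟨u, y k, hy.fr hF h3 h₂.bilinear k, rfl⟩

include h₁ h₂ hB hc hT hF h3 hy in
theorem exists_mem_not_kron {u₀ : Fin n₁ → F} (hu₀ : u₀ ≠ 0) :
    ∃ g : GL (Fin n₁ × Fin 3) F, glEquiv g ∈ setStab F (pureSet n₁ f₂) ∧
      glEquiv g ∈ isoGrp B ∧ g ∉ Cfsg.Geo.kroneckerSubgroup n₁ 3 F := by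
  have hs0 : ∀ d u, stv B hB (tp u₀ (y 0)) d (tp u (y 0)) =
      tp (u + (d * (c * (f₁ u u₀ * ε))) • u₀) (y 0) := by
    intro d u
    rw [stv_apply, hT, hy.orth, if_pos rfl, tp_add_left, tp_smul_left]
  have hsk : ∀ d u k, k ≠ 0 → stv B hB (tp u₀ (y 0)) d (tp u (y k)) = tp u (y k) := by
    intro d u k hk
    rw [stv_apply, hT, hy.orth, if_neg hk]
    simp
  have hmap : ∀ d, ∀ z ∈ pureSet n₁ f₂, stv B hB (tp u₀ (y 0)) d z ∈ pureSet n₁ f₂ := by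
    intro d z hz
    rw [mem_pureSet_iff h₂ hF h3 hy] at hz ⊢
    obtain ⟨u, k, rfl⟩ := hz
    by_cases hk : k = 0
    · subst hk
      exact ⟨_, 0, hs0 d u⟩
    · exact ⟨u, k, hsk d u k hk⟩
  refine ⟨glEquiv.symm (stv B hB (tp u₀ (y 0)) 1), ?_, ?_, ?_⟩
  · rw [MulEquiv.apply_symm_apply]
    exact mem_setStab_of (hmap 1) (by rw [stv_inv]; exact hmap (-1))
  · rw [MulEquiv.apply_symm_apply]
    exact stv_mem_isoGrp hB _ _
  · rintro ⟨a, b, hab⟩
    have hm : ∀ u w, stv B hB (tp u₀ (y 0)) 1 (tp u w) =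
        tp ((a : Matrix _ _ F) *ᵥ u) ((b : Matrix _ _ F) *ᵥ w) := by
      intro u w
      rw [← kron_mulVec_tp, ← hab, glEquiv_symm_mulVec]
    obtain ⟨u, hu⟩ := (h₁.nondegenerate u₀ hu₀).1
    obtain ⟨l, hl⟩ := tp_prop ((hm u (y 1)).symm.trans (hsk 1 u 1 (by decide)))
      (hy.ne_zero h₂.bilinear 1)
    obtain ⟨m, hm'⟩ := tp_prop ((hm u (y 0)).symm.trans (hs0 1 u)) (hy.ne_zero h₂.bilinear 0)
    set v := (a : Matrix (Fin n₁) (Fin n₁) F) *ᵥ u with hv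
    have h4 : f₁ v u₀ ≠ 0 := by
      intro h0
      rw [hl, h₁.bilinear.smul_left, h0, mul_zero] at hu
      exact hu rfl
    have h5 : (1 * (c * (f₁ u u₀ * ε))) • u₀ = (m - l) • v := by
      rw [sub_smul, ← hm', ← hl]
      abel
    have h6 := congrArg (fun t => f₁ t u₀) h5
    simp only [h₁.bilinear.smul_left, h₁.alternating, mul_zero] at h6
    have h7 : m - l = 0 := (mul_eq_zero.1 h6.symm).resolve_right h4
    rw [h7, zero_smul] at h5
    exact (smul_ne_zero (mul_ne_zero one_ne_zero (mul_ne_zero hc (mul_ne_zero hu hy.ne))) hu₀) h5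

include h₁ h₂ hB hc hT hF h3 hy in
theorem exists_not_mem {u₀ : Fin n₁ → F} (hu₀ : u₀ ≠ 0) :
    ∃ g : GL (Fin n₁ × Fin 3) F, glEquiv g ∈ isoGrp B ∧
      glEquiv g ∉ setStab F (pureSet n₁ f₂) := by
  refine ⟨glEquiv.symm (stv B hB (tp u₀ (y 0 + y 1)) 1), ?_, ?_⟩
  · rw [MulEquiv.apply_symm_apply]
    exact stv_mem_isoGrp hB _ _
  rw [MulEquiv.apply_symm_apply]
  intro hmem
  obtain ⟨u, hu⟩ := (h₁.nondegenerate u₀ hu₀).1
  have h1 : stv B hB (tp u₀ (y 0 + y 1)) 1 (tp u (y 0)) ∈ pureSet n₁ f₂ :=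
    (hmem _).2 ((mem_pureSet_iff h₂ hF h3 hy _).2 ⟨u, 0, rfl⟩)
  set γ := c * (f₁ u u₀ * ε) with hγ
  have hγ0 : γ ≠ 0 := mul_ne_zero hc (mul_ne_zero hu hy.ne)
  have h2 : stv B hB (tp u₀ (y 0 + y 1)) 1 (tp u (y 0)) = tp (u + γ • u₀) (y 0) + tp (γ • u₀) (y 1) := by
    rw [stv_apply, hT, h₂.bilinear.add_right, hy.orth, hy.orth, if_pos rfl, if_neg (by decide),
      add_zero, one_mul, tp_add_left, tp_add_right, tp_smul_left, tp_smul_left, smul_add, add_assoc]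
  rw [mem_pureSet_iff h₂ hF h3 hy, h2] at h1
  obtain ⟨u', k, h4⟩ := h1
  have hpair : ∀ v j, B (tp (u + γ • u₀) (y 0) + tp (γ • u₀) (y 1)) (tp v (y j)) =
      B (tp u' (y k)) (tp v (y j)) := by
    intro v j; rw [h4]
  by_cases hk : k = 0
  · subst hk
    obtain ⟨v, hv⟩ := (h₁.nondegenerate (γ • u₀) (smul_ne_zero hγ0 hu₀)).2
    have := hpair v 1
    rw [map_add, LinearMap.add_apply, hT, hT, hT, hy.orth, hy.orth, if_neg (by decide),
      if_pos rfl] at this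
    apply mul_ne_zero hc (mul_ne_zero hv hy.ne)
    linear_combination this
  · have hne : u + γ • u₀ ≠ 0 := by
      intro h0
      have := congrArg (fun t => f₁ t u₀) h0
      simp only [h₁.bilinear.add_left, h₁.bilinear.smul_left, h₁.alternating, mul_zero,
        add_zero] at this
      have h5 : f₁ 0 u₀ = 0 := by simpa using h₁.bilinear.smul_left 0 0 u₀
      rw [h5] at this
      exact hu this
    obtain ⟨v, hv⟩ := (h₁.nondegenerate _ hne).2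
    have := hpair v 0
    rw [map_add, LinearMap.add_apply, hT, hT, hT, hy.orth, hy.orth, hy.orth, if_pos rfl,
      if_neg (by decide), if_neg hk] at this
    apply mul_ne_zero hc (mul_ne_zero hv hy.ne)
    linear_combination this

end frame

end Cfsg.Agent.Lib.Helper17.TensorSymp
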