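import Cfsg.Agent.Lib.Helper17.TensorOmega
import Cfsg.Agent.Lib.Helper17.TensorSymp
import Cfsg.Agent.S5638

set_option autoImplicit false

/-! The tensor product of a symplectic plane over the field with two elements with another
symplectic space, inside the orthogonal group. -/

namespace Cfsg.Agent.Lib.Helper17.TensorO2

open scoped Kronecker MatrixGroups
open Matrix Module QuadraticMap Cfsg.Geo Cfsg.Agent.Lib.Helper17.Tensor
  Cfsg.Agent.Lib.Helper17.TensorForm Cfsg.Agent.Lib.Helper17.TensorOmega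
  Cfsg.Agent.Lib.Helper95 Cfsg.Agent.S5638
open Cfsg.Agent.Lib.Helper49 hiding glEquiv glEquiv_apply

variable {F : Type*} [Field F] {n₂ : ℕ}

/-- The vector `e₀ ⊗ a + e₁ ⊗ b`. -/
def pr (a b : Fin n₂ → F) : Fin 2 × Fin n₂ → F := tp ![1, 0] a + tp ![0, 1] b

lemma pr_zero (a b : Fin n₂ → F) (j : Fin n₂) : pr a b (0, j) = a j := by
  simp [pr, tp]

lemma pr_one (a b : Fin n₂ → F) (j : Fin n₂) : pr a b (1, j) = b j := by
  simp [pr, tp]

lemma pr_add (a b a' b' : Fin n₂ → F) : pr a b + pr a' b' = pr (a + a') (b + b') := by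
  simp only [pr, tp_add_right]; abel

lemma pr_smul (c : F) (a b : Fin n₂ → F) : c • pr a b = pr (c • a) (c • b) := by
  simp only [pr, tp_smul_right, smul_add]

lemma pr_inj {a b a' b' : Fin n₂ → F} (h : pr a b = pr a' b') : a = a' ∧ b = b' := by
  constructor
  · ext j
    have := congrFun h (0, j)
    rwa [pr_zero, pr_zero] at this
  · ext j
    have := congrFun h (1, j)
    rwa [pr_one, pr_one] at this

lemma exists_pr (z : Fin 2 × Fin n₂ → F) : ∃ a b, z = pr a b := by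
  refine ⟨fun j => z (0, j), fun j => z (1, j), ?_⟩
  ext ⟨i, j⟩
  fin_cases i
  · exact (pr_zero (fun j => z (0, j)) (fun j => z (1, j)) j).symm
  · exact (pr_one (fun j => z (0, j)) (fun j => z (1, j)) j).symm

lemma tp_eq_pr (s : Fin 2 → F) (w : Fin n₂ → F) : tp s w = pr (s 0 • w) (s 1 • w) := by
  ext ⟨i, j⟩
  fin_cases i
  · rw [show ((⟨0, by omega⟩ : Fin 2), j) = (0, j) from rfl, pr_zero]; rfl
  · rw [show ((⟨1, by omega⟩ : Fin 2), j) = (1, j) from rfl, pr_one]; rfl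

section

variable (h11 : (1 : F) + 1 = 0)

/-- The element of order three. -/
noncomputable def Z (F : Type*) [Field F] (n₂ : ℕ) : (Fin 2 × Fin n₂ → F) ≃ₗ[F] (Fin 2 × Fin n₂ → F) :=
  glEquiv (kHom (om F, (1 : GL (Fin n₂) F)))

include h11 in
lemma Z_pr (a b : Fin n₂ → F) : Z F n₂ (pr a b) = pr b (a + b) := by
  have hneg : (-1 : F) = 1 := by linear_combination -h11
  unfold Z
  rw [glEquiv_apply, coe_kHom, pr, Matrix.mulVec_add, kron_mulVec_tp, kron_mulVec_tp, coe_om,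
    Units.val_one, Matrix.one_mulVec, Matrix.one_mulVec]
  ext ⟨i, j⟩
  fin_cases i
  · rw [show ((⟨0, by omega⟩ : Fin 2), j) = (0, j) from rfl, pr_zero]
    simp [tp]
  · rw [show ((⟨1, by omega⟩ : Fin 2), j) = (1, j) from rfl, pr_one]
    simp [tp, hneg]

variable {f₂ : (Fin n₂ → F) → (Fin n₂ → F) → F} (hf₂ : IsSymplecticForm f₂)
  {Q : QuadraticForm F (Fin 2 × Fin n₂ → F)} (hQ : ∀ a b, Q (pr a b) = f₂ a b)

include hf₂ hQ in
lemma polar_pr (a b a' b' : Fin n₂ → F) : polar Q (pr a b) (pr a' b') = f₂ a b' + f₂ a' b := by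
  simp only [polar, pr_add, hQ, hf₂.bilinear.add_left, hf₂.bilinear.add_right]
  ring

include h11 in
lemma add_self_eq (z : Fin 2 × Fin n₂ → F) : z + z = 0 := by
  have : z + z = ((1 : F) + 1) • z := by module
  rw [this, h11, zero_smul]

include h11 in
lemma refl_formula {v : Fin 2 × Fin n₂ → F} (hv : Q v = 1) (z : Fin 2 × Fin n₂ → F) :
    (refl Q v).1 z = z + polar Q v z • v := by
  rw [refl_coe_apply, reflLin_apply, hv, inv_one, one_mul, sub_eq_add_neg]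
  congr 1
  have := add_self_eq h11 (polar Q v z • v)
  exact (eq_neg_of_add_eq_zero_left this).symm

include h11 hf₂ in
lemma symm2 (v w : Fin n₂ → F) : f₂ v w = f₂ w v := by
  rw [hf₂.skew v w]
  linear_combination (-f₂ w v) * h11

include h11 hf₂ hQ in
lemma polar_Z (p q : Fin 2 × Fin n₂ → F) : polar Q (Z F n₂ p) (Z F n₂ q) = polar Q p q := by
  obtain ⟨a, b, rfl⟩ := exists_pr p
  obtain ⟨a', b', rfl⟩ := exists_pr q
  rw [Z_pr h11, Z_pr h11, polar_pr hf₂ hQ, polar_pr hf₂ hQ]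
  simp only [hf₂.bilinear.add_right]
  rw [symm2 h11 hf₂ b' b, symm2 h11 hf₂ b' a, symm2 h11 hf₂ b a']
  linear_combination (f₂ b b') * h11

include h11 in
lemma Z_Z (p : Fin 2 × Fin n₂ → F) : Z F n₂ (Z F n₂ p) = p + Z F n₂ p := by
  obtain ⟨a, b, rfl⟩ := exists_pr p
  rw [Z_pr h11, Z_pr h11, pr_add]

include hf₂ in
lemma zero_left (w : Fin n₂ → F) : f₂ 0 w = 0 := by
  simpa using hf₂.bilinear.smul_left 0 0 w

include hf₂ in
lemma zero_right (w : Fin n₂ → F) : f₂ w 0 = 0 := by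
  simpa using hf₂.bilinear.smul_right 0 w 0

lemma pr_sub (a b a' b' : Fin n₂ → F) : pr a b - pr a' b' = pr (a - a') (b - b') := by
  have h1 : pr a b - pr a' b' = pr a b + (-1 : F) • pr a' b' := by module
  rw [h1, pr_smul, pr_add]
  congr 1 <;> module

lemma conj_eq_iff {g w w' : GL (Fin 2 × Fin n₂) F} :
    g * w * g⁻¹ = w' ↔ ∀ z, glEquiv g (glEquiv w z) = glEquiv w' (glEquiv g z) := by
  rw [mul_inv_eq_iff_eq_mul]
  constructor
  · intro h z
    rw [← LinearEquiv.mul_apply, ← LinearEquiv.mul_apply, ← map_mul, ← map_mul, h]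
  · intro h
    apply (glEquiv (ι := Fin 2 × Fin n₂) (F := F)).injective
    ext1 z
    rw [map_mul, map_mul, LinearEquiv.mul_apply, LinearEquiv.mul_apply, h]

variable (h2 : ∀ c : F, c = 0 ∨ c = 1)

include h11 h2 hf₂ hQ in
theorem exists_mem_not_kron {w₁ w₂ w₃ : Fin n₂ → F} (h12 : f₂ w₁ w₂ = 1) (h31 : f₂ w₃ w₁ = 0)
    (h32 : f₂ w₃ w₂ = 0) (hw₃ : w₃ ≠ 0) :
    ∃ g : GL (Fin 2 × Fin n₂) F, g ∈ extCent (kHom (om F, (1 : GL (Fin n₂) F))) ∧
      glEquiv g ∈ omG Q ∧ g ∉ Cfsg.Geo.kroneckerSubgroup 2 n₂ F := by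
  have h21 : f₂ w₂ w₁ = 1 := by rw [symm2 h11 hf₂, h12]
  have h13 : f₂ w₁ w₃ = 0 := by rw [symm2 h11 hf₂, h31]
  have h23 : f₂ w₂ w₃ = 0 := by rw [symm2 h11 hf₂, h32]
  set u := pr w₁ w₂ with hu
  set u' := pr w₂ (w₁ + w₂) with hu'
  have hZu : Z F n₂ u = u' := Z_pr h11 _ _
  have hZu' : Z F n₂ u' = u + u' := by rw [← hZu, Z_Z h11]
  have hQu : Q u = 1 := by rw [hu, hQ, h12]
  have hQu' : Q u' = 1 := by
    rw [hu', hQ, hf₂.bilinear.add_right, h21, hf₂.alternating, add_zero]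
  have hQs : Q (u - u') ≠ 0 := by
    rw [hu, hu', pr_sub, hQ]
    have e1 : w₁ - w₂ = w₁ + (-1 : F) • w₂ := by module
    have e2 : w₂ - (w₁ + w₂) = (-1 : F) • w₁ := by module
    rw [e1, e2, hf₂.bilinear.smul_right, hf₂.bilinear.add_left, hf₂.bilinear.smul_left,
      hf₂.alternating, h21]
    simp
  have huu' : polar Q u u' = 1 := by
    rw [hu, hu', polar_pr hf₂ hQ, hf₂.bilinear.add_right, hf₂.alternating, hf₂.alternating, h12]
    ring
  set s := refl Q u * refl Q u' with hs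
  have hform : ∀ z, s.1 z = z + polar Q u' z • (u' + u) + polar Q u z • u := by
    intro z
    rw [hs, Subgroup.coe_mul, LinearEquiv.mul_apply, refl_formula h11 hQu', refl_formula h11 hQu,
      polar_add_right, polar_smul_right, huu']
    simp only [smul_eq_mul, mul_one]
    module
  have hcomm : ∀ z, s.1 (Z F n₂ z) = Z F n₂ (s.1 z) := by
    intro z
    have e1 : polar Q u' (Z F n₂ z) = polar Q u z := by rw [← hZu, polar_Z h11 hf₂ hQ]
    have e2 : polar Q u (Z F n₂ z) = polar Q u' z + polar Q u z := by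
      rw [← polar_Z h11 hf₂ hQ u, hZu, Z_Z h11, polar_add_right, e1]
    rw [hform, hform, e1, e2]
    simp only [map_add, map_smul, hZu, hZu']
    have e3 := add_self_eq h11 (polar Q u z • u)
    have e4 := add_self_eq h11 (polar Q u' z • u')
    linear_combination (norm := module) e3 - e4
  refine ⟨glEquiv.symm s.1, ?_, ?_, ?_⟩
  · rw [mem_extCent]
    left
    rw [conj_eq_iff]
    intro z
    rw [MulEquiv.apply_symm_apply]
    exact hcomm z
  · rw [MulEquiv.apply_symm_apply]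
    exact refl_mul_refl_mem Q (hQu.trans hQu'.symm) hQs
  · rintro ⟨a, b, hab⟩
    have hm : ∀ t w, s.1 (tp t w) = tp ((a : Matrix _ _ F) *ᵥ t) ((b : Matrix _ _ F) *ᵥ w) := by
      intro t w
      rw [← kron_mulVec_tp, ← hab, glEquiv_symm_mulVec]
    have hfix : s.1 (tp ![0, 1] w₃) = tp ![0, 1] w₃ := by
      rw [hform, tp_eq_pr, hu, hu', polar_pr hf₂ hQ, polar_pr hf₂ hQ]
      simp [hf₂.bilinear.add_right, h13, h23, zero_left hf₂]
    obtain ⟨l, hl⟩ := TensorSymp.tp_prop ((hm _ _).symm.trans hfix) hw₃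
    have hl1 : l = 1 := by
      rcases h2 l with h | h
      · rw [h, zero_smul] at hl
        have := congrFun hl 1
        simp at this
      · exact h
    rw [hl1, one_smul] at hl
    have h5 := hm ![0, 1] w₂
    rw [← hl, hform, tp_eq_pr, hu, hu', polar_pr hf₂ hQ, polar_pr hf₂ hQ] at h5
    simp only [Matrix.cons_val_zero, Matrix.cons_val_one, zero_smul, one_smul, zero_left hf₂,
      hf₂.alternating, h12, add_zero, pr_add] at h5
    have h6 : w₁ = 0 := by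
      ext j
      have := congrFun h5 (0, j)
      rw [pr_zero] at this
      simpa [tp] using this
    rw [h6, zero_left hf₂] at h12
    exact zero_ne_one h12

include h11 hf₂ hQ in
theorem exists_not_mem {w₁ w₂ w₃ w₄ : Fin n₂ → F} (h12 : f₂ w₁ w₂ = 1) (h34 : f₂ w₃ w₄ = 1)
    (h32 : f₂ w₃ w₂ = 0) (h41 : f₂ w₄ w₁ = 0) (h42 : f₂ w₄ w₂ = 0) :
    ∃ g : GL (Fin 2 × Fin n₂) F, glEquiv g ∈ omG Q ∧
      g ∉ extCent (kHom (om F, (1 : GL (Fin n₂) F))) := by
  have h14 : f₂ w₁ w₄ = 0 := by rw [symm2 h11 hf₂, h41]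
  have h24 : f₂ w₂ w₄ = 0 := by rw [symm2 h11 hf₂, h42]
  set u := pr w₁ w₂ with hu
  set v := pr w₃ (w₄ + w₂) with hv
  have hQu : Q u = 1 := by rw [hu, hQ, h12]
  have hQv : Q v = 1 := by
    rw [hv, hQ, hf₂.bilinear.add_right, h34, h32, add_zero]
  have hQs : Q (u - v) ≠ 0 := by
    rw [hu, hv, pr_sub, hQ]
    have e1 : w₁ - w₃ = w₁ + (-1 : F) • w₃ := by module
    have e2 : w₂ - (w₄ + w₂) = (-1 : F) • w₄ := by module
    rw [e1, e2, hf₂.bilinear.smul_right, hf₂.bilinear.add_left, hf₂.bilinear.smul_left, h14, h34]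
    simp
  set s := refl Q u * refl Q v with hs
  have hs1 : s.1 (pr w₂ 0) = pr w₂ 0 := by
    rw [hs, Subgroup.coe_mul, LinearEquiv.mul_apply, refl_formula h11 hQv, hv, polar_pr hf₂ hQ,
      zero_right hf₂, hf₂.bilinear.add_right, h24, hf₂.alternating, add_zero, add_zero, zero_smul,
      add_zero, refl_formula h11 hQu, hu, polar_pr hf₂ hQ, zero_right hf₂, hf₂.alternating, add_zero,
      zero_smul, add_zero]
  have hs2 : s.1 (pr 0 w₂) = pr w₁ (w₂ + w₂) := by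
    rw [hs, Subgroup.coe_mul, LinearEquiv.mul_apply, refl_formula h11 hQv, hv, polar_pr hf₂ hQ,
      zero_left hf₂, h32, add_zero, zero_smul, add_zero, refl_formula h11 hQu, hu, polar_pr hf₂ hQ,
      zero_left hf₂, h12, add_zero, one_smul, pr_add, zero_add]
  have hZ : Z F n₂ (pr w₂ 0) = pr 0 w₂ := by rw [Z_pr h11, add_zero]
  refine ⟨glEquiv.symm s.1, ?_, ?_⟩
  · rw [MulEquiv.apply_symm_apply]
    exact refl_mul_refl_mem Q (hQu.trans hQv.symm) hQs
  rw [mem_extCent]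
  rintro (h | h)
  · rw [conj_eq_iff] at h
    have := h (pr w₂ 0)
    rw [MulEquiv.apply_symm_apply] at this
    change s.1 (Z F n₂ (pr w₂ 0)) = Z F n₂ (s.1 (pr w₂ 0)) at this
    rw [hs1, hZ, hs2] at this
    rw [(pr_inj this).1, zero_left hf₂] at h12
    exact zero_ne_one h12
  · rw [conj_eq_iff] at h
    have := h (pr w₂ 0)
    rw [MulEquiv.apply_symm_apply, map_inv] at this
    change s.1 (Z F n₂ (pr w₂ 0)) = (Z F n₂)⁻¹ (s.1 (pr w₂ 0)) at this
    rw [hs1, hZ, hs2] at this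
    have h5 := congrArg (Z F n₂) this
    rw [← LinearEquiv.mul_apply, mul_inv_cancel, LinearEquiv.coe_one, id_eq, Z_pr h11] at h5
    have h6 := (pr_inj h5).1
    have h7 : w₂ = 0 := by
      have : w₂ + w₂ = w₂ + 0 := by rw [h6, add_zero]
      exact add_left_cancel this
    rw [h7, zero_right hf₂] at h12
    exact zero_ne_one h12

include h11 h2 hf₂ in
lemma exists_quad (hn : 2 < n₂) : ∃ w₁ w₂ w₃ w₄ : Fin n₂ → F, f₂ w₁ w₂ = 1 ∧ f₂ w₃ w₄ = 1 ∧
    f₂ w₃ w₁ = 0 ∧ f₂ w₃ w₂ = 0 ∧ f₂ w₄ w₁ = 0 ∧ f₂ w₄ w₂ = 0 ∧ w₃ ≠ 0 := by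
  have hne : (Pi.single ⟨0, by omega⟩ 1 : Fin n₂ → F) ≠ 0 := by
    intro h0
    have := congrFun h0 ⟨0, by omega⟩
    simp at this
  set w₁ : Fin n₂ → F := Pi.single ⟨0, by omega⟩ 1
  obtain ⟨w₂, hw₂⟩ := (hf₂.nondegenerate w₁ hne).2
  have h12 : f₂ w₁ w₂ = 1 := (h2 _).resolve_left hw₂
  have h21 : f₂ w₂ w₁ = 1 := by rw [symm2 h11 hf₂, h12]
  let φ : (Fin n₂ → F) → Module.Dual F (Fin n₂ → F) := fun v =>
    { toFun := fun w => f₂ w v
      map_add' := fun x y => hf₂.bilinear.add_left x y v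
      map_smul' := fun c x => hf₂.bilinear.smul_left c x v }
  have e1 := Cfsg.Agent.Lib.Helper97.UF.finrank_inf_ker (⊤ : Submodule F (Fin n₂ → F)) (φ w₁)
  have e2 := Cfsg.Agent.Lib.Helper97.UF.finrank_inf_ker
    (⊤ ⊓ LinearMap.ker (φ w₁) : Submodule F (Fin n₂ → F)) (φ w₂)
  rw [finrank_top, Module.finrank_fin_fun] at e1
  have hne' : ((⊤ ⊓ LinearMap.ker (φ w₁)) ⊓ LinearMap.ker (φ w₂) : Submodule F (Fin n₂ → F)) ≠ ⊥ := by
    intro h0
    rw [h0, finrank_bot] at e2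
    omega
  obtain ⟨w₃, hw₃, hw₃0⟩ := Submodule.exists_mem_ne_zero_of_ne_bot hne'
  have h31 : f₂ w₃ w₁ = 0 := hw₃.1.2
  have h32 : f₂ w₃ w₂ = 0 := hw₃.2
  obtain ⟨w₄, hw₄⟩ := (hf₂.nondegenerate w₃ hw₃0).2
  have h34 : f₂ w₃ w₄ = 1 := (h2 _).resolve_left hw₄
  refine ⟨w₁, w₂, w₃, w₄ + f₂ w₄ w₂ • w₁ + f₂ w₄ w₁ • w₂, h12, ?_, h31, h32, ?_, ?_, hw₃0⟩
  · simp only [hf₂.bilinear.add_right, hf₂.bilinear.smul_right, h34, h31, h32]
    ring
  · simp only [hf₂.bilinear.add_left, hf₂.bilinear.smul_left, hf₂.alternating, h21]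
    linear_combination (f₂ w₄ w₁) * h11
  · simp only [hf₂.bilinear.add_left, hf₂.bilinear.smul_left, hf₂.alternating, h12]
    linear_combination (f₂ w₄ w₂) * h11

end

end Cfsg.Agent.Lib.Helper17.TensorO2
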