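import Cfsg.Agent.Lib.Helper17.TensorForm
import Cfsg.Agent.Lib.Helper95.OmGlue

set_option autoImplicit false

/-! Transfer of `Ω` along the coordinate isomorphism of a tensor decomposition, and products of two
reflections in `Ω`. -/

namespace Cfsg.Agent.Lib.Helper17.TensorOmega

open scoped Kronecker MatrixGroups commutatorElement
open Matrix Module QuadraticMap Cfsg.Agent.Lib.Helper17.Tensor Cfsg.Agent.Lib.Helper17.TensorForm
  Cfsg.Agent.Lib.Helper95
open Cfsg.Agent.Lib.Helper49 hiding glEquiv glEquiv_apply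

section abstract

variable {F V W : Type*} [Field F] [AddCommGroup V] [Module F V] [AddCommGroup W] [Module F W]

/-- The pulled back quadratic form. -/
def pullQ (L : W ≃ₗ[F] V) (Q₀ : QuadraticForm F V) : QuadraticForm F W :=
  Q₀.comp (L : W →ₗ[F] V)

lemma pullQ_apply (L : W ≃ₗ[F] V) (Q₀ : QuadraticForm F V) (x : W) : pullQ L Q₀ x = Q₀ (L x) := rfl

lemma polar_pullQ (L : W ≃ₗ[F] V) (Q₀ : QuadraticForm F V) (x y : W) :
    polar (pullQ L Q₀) x y = polar Q₀ (L x) (L y) := by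
  simp only [polar, pullQ_apply, map_add]

/-- Conjugation by `L`. -/
def conjHom (L : W ≃ₗ[F] V) (Q₀ : QuadraticForm F V) : OG (pullQ L Q₀) →* OG Q₀ where
  toFun s := ⟨(L.symm.trans s.1).trans L, fun x => by
    have := s.2 (L.symm x)
    simp only [pullQ_apply, LinearEquiv.apply_symm_apply] at this
    simpa using this⟩
  map_one' := by
    apply Subtype.ext
    ext x
    simp
  map_mul' a b := by
    apply Subtype.ext
    ext x
    simp [LinearEquiv.mul_apply]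

lemma conj_mem_omG (L : W ≃ₗ[F] V) (Q₀ : QuadraticForm F V) {s : W ≃ₗ[F] W}
    (hs : s ∈ omG (pullQ L Q₀)) : (L.symm.trans s).trans L ∈ omG Q₀ := by
  obtain ⟨t, ht, rfl⟩ := hs
  exact ⟨conjHom L Q₀ t, map_mem_commutator (conjHom L Q₀) ht, rfl⟩

lemma omG_le_OG (Q : QuadraticForm F V) : omG Q ≤ OG Q := by
  rintro _ ⟨t, -, rfl⟩
  exact t.2

lemma refl_mul_refl_mem (Q : QuadraticForm F V) {u v : V} (h : Q u = Q v) (hs : Q (u - v) ≠ 0) :
    (refl Q u * refl Q v).1 ∈ omG Q := by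
  refine ⟨refl Q u * refl Q v, ?_, rfl⟩
  have h1 : refl Q v = refl Q (u - v) * refl Q u * (refl Q (u - v))⁻¹ := by
    rw [refl_conj, refl_coe_apply, reflLin_sub_apply Q u v h hs]
  have h2 : refl Q u * refl Q v = ⁅refl Q u, refl Q (u - v)⁆ := by
    rw [h1, commutatorElement_def, refl_inv Q u]
    group
  rw [h2, commutator_def]
  exact Subgroup.commutator_mem_commutator (Subgroup.mem_top _) (Subgroup.mem_top _)

end abstract

section transfer

variable {ι : Type} [Fintype ι] [DecidableEq ι] {F : Type*} [Field F] {n₁ n₂ : ℕ}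

lemma glEquiv_tIso (e : ι ≃ Fin n₁ × Fin n₂) (P : GL ι F) (g : GL (Fin n₁ × Fin n₂) F) :
    glEquiv (tIso e P g) = ((Lmap e P).symm.trans (glEquiv g)).trans (Lmap e P) := by
  ext1 x
  obtain ⟨x, rfl⟩ := (Lmap e P).surjective x
  rw [tIso_Lmap]
  simp

lemma tIso_mem_omegaGL (e : ι ≃ Fin n₁ × Fin n₂) (P : GL ι F) (Q₀ : QuadraticForm F (ι → F))
    {g : GL (Fin n₁ × Fin n₂) F} (hg : glEquiv g ∈ omG (pullQ (Lmap e P) Q₀)) :
    tIso e P g ∈ Cfsg.Geo.omegaGL ⇑Q₀ := by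
  rw [mem_omegaGL_iff, glEquiv_tIso]
  exact conj_mem_omG _ _ hg

lemma mem_OG_of_tIso_mem (e : ι ≃ Fin n₁ × Fin n₂) (P : GL ι F) (Q₀ : QuadraticForm F (ι → F))
    {g : GL (Fin n₁ × Fin n₂) F} (hg : tIso e P g ∈ Cfsg.Geo.omegaGL ⇑Q₀) :
    glEquiv g ∈ OG (pullQ (Lmap e P) Q₀) := by
  rw [mem_omegaGL_iff] at hg
  have h1 := omG_le_OG _ hg
  intro x
  rw [pullQ_apply, pullQ_apply, ← tIso_Lmap]
  exact h1 _

end transfer

end Cfsg.Agent.Lib.Helper17.TensorOmega
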