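import Cfsg.Agent.Lib.Helper97.HermGlue

set_option autoImplicit false

/-! Over the field with four elements the stabiliser of an orthogonal decomposition into
non-degenerate unitary planes permutes the anisotropic points of the planes. -/

namespace Cfsg.Agent.Lib.Helper17.UnitDecTwo

open Cfsg.Agent.Lib.Helper95 Cfsg.Agent.Lib.Helper97 Module

variable {F V : Type*} [Field F] [AddCommGroup V] [Module F V]

/-- The linear automorphisms permuting the anisotropic vectors of the members of `D`. -/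
def PGrp (f : V → V → F) {t : ℕ} (D : Fin t → Submodule F V) : Subgroup (V ≃ₗ[F] V) where
  carrier := {g | ∀ x, (∃ i, g x ∈ D i ∧ f (g x) (g x) ≠ 0) ↔ (∃ i, x ∈ D i ∧ f x x ≠ 0)}
  mul_mem' {a b} ha hb := by
    intro x
    rw [LinearEquiv.mul_apply, ha, hb]
  one_mem' := by intro x; simp
  inv_mem' {a} ha := by
    intro x
    have h := ha (a⁻¹ x)
    rw [← LinearEquiv.mul_apply, mul_inv_cancel] at h
    exact h.symm

variable {σ : F ≃+* F} {f : V → V → F} {t : ℕ} {D : Fin t → Submodule F V}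

lemma mem_PGrp_of_perm {g : V ≃ₗ[F] V} (hg : g ∈ UGrp f)
    (hσ : ∃ τ : Equiv.Perm (Fin t), ∀ i, (D i).map (g : V →ₗ[F] V) = D (τ i)) : g ∈ PGrp f D := by
  obtain ⟨τ, hτ⟩ := hσ
  intro x
  rw [hg]
  constructor
  · rintro ⟨k, hk, h0⟩
    refine ⟨τ.symm k, ?_, h0⟩
    have h1 := hτ (τ.symm k)
    rw [Equiv.apply_symm_apply] at h1
    rw [← h1] at hk
    obtain ⟨y, hy, hyx⟩ := hk
    have : y = x := g.injective hyx
    rwa [← this]
  · rintro ⟨i, hi, h0⟩
    refine ⟨τ i, ?_, h0⟩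
    rw [← hτ i]
    exact ⟨x, hi, rfl⟩

section four

variable (h : UF σ f) (hσ : ∀ a, σ a = a ^ 2) (h11 : (1 : F) + 1 = 0)
  (h3 : ∀ a : F, a ≠ 0 → a ^ 3 = 1)

include hσ in
lemma fixed_eq {a : F} (ha : σ a = a) (ha0 : a ≠ 0) : a = 1 := by
  rw [hσ] at ha
  have : a * (a - 1) = 0 := by linear_combination ha
  rcases mul_eq_zero.1 this with h | h
  · exact absurd h ha0
  · linear_combination h

include h hσ in
lemma self_eq_one {x : V} (hx : f x x ≠ 0) : f x x = 1 := fixed_eq hσ (h.self_fixed x) hx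

include hσ h3 in
lemma norm_eq_one {a : F} (ha : a ≠ 0) : a * σ a = 1 := by
  rw [hσ, ← h3 a ha]; ring

variable [FiniteDimensional F V]

include h hσ in
lemma exists_onb {W : Submodule F V} (hnd : ∀ w ∈ W, w ≠ 0 → ∃ x ∈ W, f x w ≠ 0)
    (hfr : finrank F W = 2) : ∃ x ∈ W, ∃ y ∈ W, f x x = 1 ∧ f y y = 1 ∧ f x y = 0 ∧ f y x = 0 ∧
      ∀ z ∈ W, ∃ α β : F, z = α • x + β • y := by
  have hne : W ≠ ⊥ := by
    intro h0
    rw [h0, finrank_bot] at hfr
    omega
  -- an anisotropic vector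
  obtain ⟨x, hx, hxx⟩ : ∃ x ∈ W, f x x ≠ 0 := by
    by_contra hcon
    push Not at hcon
    obtain ⟨w, hw, hw0⟩ := Submodule.exists_mem_ne_zero_of_ne_bot hne
    obtain ⟨x', hx', hc⟩ := hnd w hw hw0
    obtain ⟨l, hl⟩ := exists_trace σ h.ne_refl h.involutive 1 (map_one σ)
    have h1 := hcon (w + (l / f x' w) • x') (W.add_mem hw (W.smul_mem _ hx'))
    rw [h.expand, hcon w hw, hcon x' hx', div_mul_cancel₀ _ hc] at h1
    have : (1 : F) = 0 := by rw [← hl]; linear_combination h1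
    exact one_ne_zero this
  have hxx1 : f x x = 1 := self_eq_one h hσ hxx
  -- a vector orthogonal to it
  have h1 := UF.finrank_inf_ker W (h.hat x)
  have hpos : 0 < finrank F (W ⊓ LinearMap.ker (h.hat x) : Submodule F V) := by omega
  have hne' : (W ⊓ LinearMap.ker (h.hat x) : Submodule F V) ≠ ⊥ := by
    intro h0
    rw [h0, finrank_bot] at hpos
    omega
  obtain ⟨y, hy, hy0⟩ := Submodule.exists_mem_ne_zero_of_ne_bot hne'
  have hyW : y ∈ W := hy.1
  have hyx : f y x = 0 := by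
    have : y ∈ LinearMap.ker (h.hat x) := hy.2
    rwa [LinearMap.mem_ker, UF.hat_apply] at this
  have hxy : f x y = 0 := by rw [h.herm, hyx, map_zero]
  have hli : LinearIndependent F ![x, y] := by
    rw [LinearIndependent.pair_iff]
    intro s u hsu
    have h2 : f (s • x + u • y) x = 0 := by rw [hsu, h.zero_left]
    rw [h.add_left, h.smul_left, h.smul_left, hxx1, hyx] at h2
    have hs : s = 0 := by linear_combination h2
    rw [hs, zero_smul, zero_add] at hsu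
    exact ⟨hs, (smul_eq_zero.1 hsu).resolve_right hy0⟩
  have hle : Submodule.span F (Set.range ![x, y]) ≤ W := by
    rw [Submodule.span_le]
    rintro _ ⟨i, rfl⟩
    fin_cases i
    · exact hx
    · exact hyW
  have heq : Submodule.span F (Set.range ![x, y]) = W := by
    apply Submodule.eq_of_le_of_finrank_eq hle
    rw [finrank_span_eq_card hli, hfr]
    simp
  have hspan : ∀ z ∈ W, ∃ α β : F, z = α • x + β • y := by
    intro z hz
    rw [← heq] at hz
    have : Set.range ![x, y] = {x, y} := by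
      ext z
      simp [Matrix.range_cons, Matrix.range_empty, eq_comm, or_comm]
    rw [this, Submodule.mem_span_pair] at hz
    obtain ⟨α, β, hz⟩ := hz
    exact ⟨α, β, hz.symm⟩
  have hyy : f y y ≠ 0 := by
    obtain ⟨z, hz, hzy⟩ := hnd y hyW hy0
    obtain ⟨α, β, rfl⟩ := hspan z hz
    rw [h.add_left, h.smul_left, h.smul_left, hxy, mul_zero, zero_add] at hzy
    exact right_ne_zero_of_mul hzy
  exact ⟨x, hx, y, hyW, hxx1, self_eq_one h hσ hyy, hxy, hyx, hspan⟩

variable (hnd : ∀ i, ∀ w ∈ D i, w ≠ 0 → ∃ x ∈ D i, f x w ≠ 0) (hfr : ∀ i, finrank F (D i) = 2)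
  (hperp : ∀ i j, i ≠ j → ∀ x ∈ D i, ∀ y ∈ D j, f x y = 0)

include h h11 in
/-- The transvection with isotropic centre `c` and coefficient one. -/
lemma exists_tv {c : V} (hc : f c c = 0) : ∃ s ∈ UGrp f ⊓ slGrp F V, ∀ x, s x = x + f x c • c := by
  have hl : (1 : F) + σ 1 + 1 * σ 1 * f c c = 0 := by rw [hc, map_one]; linear_combination h11
  obtain ⟨s, hs⟩ := exists_sim h hl
  refine ⟨s, ⟨mem_UGrp_of_formula h hl hs, ?_⟩, fun x => by rw [hs, one_mul]⟩
  change LinearEquiv.det s = 1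
  apply Units.ext
  rw [det_of_formula h hs, hc]; simp

include hσ h11 h3 in
lemma one_zero_of_norm {α β : F} (hn : α * σ α + β * σ β ≠ 0) : α = 0 ∨ β = 0 := by
  by_contra hcon
  push Not at hcon
  apply hn
  rw [norm_eq_one hσ h3 hcon.1, norm_eq_one hσ h3 hcon.2, h11]

include h hσ h11 h3 hnd hfr hperp in
theorem exists_mem_PGrp_not_perm {i j : Fin t} (hij : i ≠ j) :
    ∃ g ∈ UGrp f ⊓ slGrp F V, g ∈ PGrp f D ∧
      ¬ ∃ τ : Equiv.Perm (Fin t), ∀ i, (D i).map (g : V →ₗ[F] V) = D (τ i) := by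
  obtain ⟨x₁, hx₁, y₁, hy₁, hxx₁, hyy₁, hxy₁, hyx₁, hsp₁⟩ := exists_onb h hσ (hnd i) (hfr i)
  obtain ⟨x₂, hx₂, y₂, hy₂, hxx₂, hyy₂, hxy₂, hyx₂, hsp₂⟩ := exists_onb h hσ (hnd j) (hfr j)
  have hc : f (y₁ + x₂) (y₁ + x₂) = 0 := by
    rw [h.add_left, h.add_right, h.add_right, hyy₁, hxx₂, hperp i j hij y₁ hy₁ x₂ hx₂,
      hperp j i hij.symm x₂ hx₂ y₁ hy₁]
    linear_combination h11
  obtain ⟨s, hs, hsx⟩ := exists_tv h h11 hc
  have hss : ∀ x, s (s x) = x := by
    intro x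
    rw [hsx (s x), hsx x, h.add_left, h.smul_left, hc, mul_zero, add_zero, add_assoc, ← add_smul]
    have : f x (y₁ + x₂) + f x (y₁ + x₂) = 0 := by linear_combination f x (y₁ + x₂) * h11
    rw [this, zero_smul, add_zero]
  have key : ∀ x, (∃ k, x ∈ D k ∧ f x x ≠ 0) → (∃ k, s x ∈ D k ∧ f (s x) (s x) ≠ 0) := by
    rintro x ⟨k, hk, h0⟩
    rw [hs.1]
    by_cases hki : k = i
    · subst hki
      obtain ⟨α, β, rfl⟩ := hsp₁ x hk
      have hn : α * σ α + β * σ β ≠ 0 := by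
        intro hn
        apply h0
        simp only [h.add_left, h.add_right, h.smul_left, h.smul_right, hxx₁, hyy₁, hxy₁, hyx₁]
        linear_combination hn
      have e : s (α • x₁ + β • y₁) = α • x₁ + β • x₂ := by
        rw [hsx]
        simp only [h.add_left, h.add_right, h.smul_left, hxy₁, hyy₁,
          hperp k j hij x₁ hx₁ x₂ hx₂, hperp k j hij y₁ hy₁ x₂ hx₂]
        have : α • x₁ + β • y₁ + (α * 0 + α * 0 + (β * 1 + β * 0)) • (y₁ + x₂)
            = α • x₁ + β • x₂ + (β * (1 + 1)) • y₁ := by module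
        rw [this, h11, mul_zero, zero_smul, add_zero]
      rw [e]
      rcases one_zero_of_norm hσ h11 h3 hn with h1 | h1
      · exact ⟨j, by rw [h1, zero_smul, zero_add]; exact (D j).smul_mem _ hx₂, h0⟩
      · exact ⟨k, by rw [h1, zero_smul, add_zero]; exact (D k).smul_mem _ hx₁, h0⟩
    · by_cases hkj : k = j
      · subst hkj
        obtain ⟨α, β, rfl⟩ := hsp₂ x hk
        have hn : α * σ α + β * σ β ≠ 0 := by
          intro hn
          apply h0
          simp only [h.add_left, h.add_right, h.smul_left, h.smul_right, hxx₂, hyy₂, hxy₂, hyx₂]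
          linear_combination hn
        have e : s (α • x₂ + β • y₂) = α • y₁ + β • y₂ := by
          rw [hsx]
          simp only [h.add_left, h.add_right, h.smul_left, hyx₂, hxx₂,
            hperp k i hki x₂ hx₂ y₁ hy₁, hperp k i hki y₂ hy₂ y₁ hy₁]
          have : α • x₂ + β • y₂ + (α * 0 + α * 1 + (β * 0 + β * 0)) • (y₁ + x₂)
              = α • y₁ + β • y₂ + (α * (1 + 1)) • x₂ := by module
          rw [this, h11, mul_zero, zero_smul, add_zero]
        rw [e]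
        rcases one_zero_of_norm hσ h11 h3 hn with h1 | h1
        · exact ⟨k, by rw [h1, zero_smul, zero_add]; exact (D k).smul_mem _ hy₂, h0⟩
        · exact ⟨i, by rw [h1, zero_smul, add_zero]; exact (D i).smul_mem _ hy₁, h0⟩
      · refine ⟨k, ?_, h0⟩
        rw [hsx, h.add_right, hperp k i hki x hk y₁ hy₁, hperp k j hkj x hk x₂ hx₂, add_zero,
          zero_smul, add_zero]
        exact hk
  refine ⟨s, hs, ?_, ?_⟩
  · intro x
    refine ⟨fun hx => ?_, key x⟩
    have := key (s x) hx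
    rwa [hss] at this
  · rintro ⟨τ, hτ⟩
    have e1 : s x₁ = x₁ := by
      rw [hsx, h.add_right, hxy₁, hperp i j hij x₁ hx₁ x₂ hx₂, add_zero, zero_smul, add_zero]
    have e2 : s y₁ = x₂ := by
      rw [hsx, h.add_right, hyy₁, hperp i j hij y₁ hy₁ x₂ hx₂, add_zero, one_smul, ← add_assoc]
      have : y₁ + y₁ = ((1 : F) + 1) • y₁ := by module
      rw [this, h11, zero_smul, zero_add]
    have m1 : x₁ ∈ D (τ i) := by
      rw [← hτ i]; exact ⟨x₁, hx₁, e1⟩
    have m2 : x₂ ∈ D (τ i) := by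
      rw [← hτ i]; exact ⟨y₁, hy₁, e2⟩
    by_cases hk : τ i = i
    · have := hperp (τ i) j (by rw [hk]; exact hij) x₂ m2 x₂ hx₂
      rw [hxx₂] at this
      exact one_ne_zero this
    · have := hperp (τ i) i hk x₁ m1 x₁ hx₁
      rw [hxx₁] at this
      exact one_ne_zero this

include h hσ h11 hnd hfr hperp in
theorem exists_not_mem_PGrp {i j : Fin t} (hij : i ≠ j) :
    ∃ g ∈ UGrp f ⊓ slGrp F V, g ∉ PGrp f D := by
  obtain ⟨x₁, hx₁, y₁, hy₁, hxx₁, hyy₁, hxy₁, hyx₁, hsp₁⟩ := exists_onb h hσ (hnd i) (hfr i)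
  obtain ⟨x₂, hx₂, y₂, hy₂, hxx₂, hyy₂, hxy₂, hyx₂, hsp₂⟩ := exists_onb h hσ (hnd j) (hfr j)
  have hc : f (x₁ + y₁ + x₂ + y₂) (x₁ + y₁ + x₂ + y₂) = 0 := by
    simp only [h.add_left, h.add_right, hxx₁, hyy₁, hxy₁, hyx₁, hxx₂, hyy₂, hxy₂, hyx₂,
      hperp i j hij x₁ hx₁ x₂ hx₂, hperp i j hij x₁ hx₁ y₂ hy₂, hperp i j hij y₁ hy₁ x₂ hx₂,
      hperp i j hij y₁ hy₁ y₂ hy₂, hperp j i hij.symm x₂ hx₂ x₁ hx₁,
      hperp j i hij.symm x₂ hx₂ y₁ hy₁, hperp j i hij.symm y₂ hy₂ x₁ hx₁,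
      hperp j i hij.symm y₂ hy₂ y₁ hy₁]
    linear_combination 2 * h11
  obtain ⟨s, hs, hsx⟩ := exists_tv h h11 hc
  refine ⟨s, hs, fun hP => ?_⟩
  obtain ⟨k, hk, -⟩ := (hP x₁).2 ⟨i, hx₁, by rw [hxx₁]; exact one_ne_zero⟩
  have e : s x₁ = y₁ + x₂ + y₂ := by
    rw [hsx]
    simp only [h.add_right, hxx₁, hxy₁, hperp i j hij x₁ hx₁ x₂ hx₂, hperp i j hij x₁ hx₁ y₂ hy₂,
      add_zero, one_smul]
    have : x₁ + (x₁ + y₁ + x₂ + y₂) = y₁ + x₂ + y₂ + ((1 : F) + 1) • x₁ := by module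
    rw [this, h11, zero_smul, add_zero]
  rw [e] at hk
  by_cases hki : k = i
  · have := hperp k j (by rw [hki]; exact hij) _ hk x₂ hx₂
    simp only [h.add_left, hperp i j hij y₁ hy₁ x₂ hx₂, hxx₂, hyx₂, zero_add, add_zero] at this
    exact one_ne_zero this
  · have := hperp k i hki _ hk y₁ hy₁
    simp only [h.add_left, hyy₁, hperp j i hij.symm x₂ hx₂ y₁ hy₁, hperp j i hij.symm y₂ hy₂ y₁ hy₁,
      add_zero] at this
    exact one_ne_zero this

end four

end Cfsg.Agent.Lib.Helper17.UnitDecTwo
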