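import Cfsg.Agent.Lib.Helper17.TensorForm
import Cfsg.Agent.Lib.Helper17.UnitDecTwo

set_option autoImplicit false

/-! The tensor product of a unitary plane over the field with four elements with another unitary
space: the stabiliser of the tensor decomposition permutes the pure tensors whose first factor is
anisotropic. -/

namespace Cfsg.Agent.Lib.Helper17.TensorUnit

open scoped Kronecker MatrixGroups
open Matrix Module Cfsg.Agent.Lib.Helper17.Tensor Cfsg.Agent.Lib.Helper17.TensorForm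
  Cfsg.Agent.Lib.Helper17.UnitDecTwo Cfsg.Agent.Lib.Helper95 Cfsg.Agent.Lib.Helper97

variable {F : Type*} [Field F] {n₁ n₂ : ℕ}

/-- The pure tensors with anisotropic first factor. -/
def pureSet (f₁ : (Fin n₁ → F) → (Fin n₁ → F) → F) (n₂ : ℕ) : Set (Fin n₁ × Fin n₂ → F) :=
  {z | ∃ u w, f₁ u u ≠ 0 ∧ z = tp u w}

lemma tp_prop {u u' : Fin n₁ → F} {w w' : Fin n₂ → F} (h : tp u w = tp u' w') (hu : u' ≠ 0) :
    ∃ l : F, w' = l • w := by
  obtain ⟨i, hi⟩ : ∃ i, u' i ≠ 0 := by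
    by_contra h'
    push Not at h'
    exact hu (funext h')
  refine ⟨u i / u' i, ?_⟩
  ext j
  have := congrFun h (i, j)
  simp only [tp_apply] at this
  rw [Pi.smul_apply, smul_eq_mul]
  field_simp
  linear_combination -this

variable {σ : F ≃+* F} {f₁ : (Fin n₁ → F) → (Fin n₁ → F) → F}
  {f₂ : (Fin n₂ → F) → (Fin n₂ → F) → F}
  {H : (Fin n₁ × Fin n₂ → F) → (Fin n₁ × Fin n₂ → F) → F}
  (h₁ : UF σ f₁) (h₂ : UF σ f₂) (hH : UF σ H) {c : F} (hc : c ≠ 0)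
  (hT : ∀ u w u' w', H (tp u w) (tp u' w') = c * (f₁ u u' * f₂ w w'))

include h₂ hc hT in
lemma kron_map_pureSet (hn₂ : 0 < n₂) {g : GL (Fin n₁ × Fin n₂) F}
    (hg : g ∈ Cfsg.Geo.kroneckerSubgroup n₁ n₂ F) (hgU : glEquiv g ∈ UGrp H)
    (z : Fin n₁ × Fin n₂ → F) (hz : z ∈ pureSet f₁ n₂) : glEquiv g z ∈ pureSet f₁ n₂ := by
  obtain ⟨a, b, hab⟩ := hg
  obtain ⟨u, w, hu, rfl⟩ := hz
  have hmap : ∀ u w, glEquiv g (tp u w) = tp ((a : Matrix _ _ F) *ᵥ u) ((b : Matrix _ _ F) *ᵥ w) := by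
    intro u w
    rw [glEquiv_apply, hab, kron_mulVec_tp]
  refine ⟨_, _, ?_, hmap u w⟩
  have hne : (Pi.single ⟨0, hn₂⟩ 1 : Fin n₂ → F) ≠ 0 := by
    intro h0
    have := congrFun h0 ⟨0, hn₂⟩
    simp at this
  obtain ⟨w₁, hw₁⟩ := h₂.nondeg _ hne
  have h1 := hgU (tp u w₁) (tp u (Pi.single ⟨0, hn₂⟩ 1))
  rw [hmap, hmap, hT, hT] at h1
  intro h0
  rw [h0, zero_mul, mul_zero] at h1
  exact mul_ne_zero hc (mul_ne_zero hu hw₁) h1.symm

include h₂ hc hT in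
lemma kron_mem_setStab (hn₂ : 0 < n₂) {g : GL (Fin n₁ × Fin n₂) F}
    (hg : g ∈ Cfsg.Geo.kroneckerSubgroup n₁ n₂ F) (hgU : glEquiv g ∈ UGrp H) :
    glEquiv g ∈ setStab F (pureSet f₁ n₂) := by
  apply mem_setStab_of
  · exact kron_map_pureSet h₂ hc hT hn₂ hg hgU
  · rw [← map_inv]
    apply kron_map_pureSet h₂ hc hT hn₂ (inv_mem hg)
    rw [map_inv]
    exact inv_mem hgU

section frame

variable {x y : Fin n₁ → F} (hxx : f₁ x x = 1) (hyy : f₁ y y = 1) (hxy : f₁ x y = 0)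
  (hyx : f₁ y x = 0)

include h₂ hH hc hT hxx hyy hxy hyx in
lemma tp_pair_zero {r r' : Fin n₂ → F} (h : tp x r + tp y r' = 0) : r = 0 ∧ r' = 0 := by
  constructor
  · by_contra hr
    obtain ⟨v, hv⟩ := h₂.nondeg r hr
    have h1 : H (tp x v) (tp x r + tp y r') = 0 := by rw [h, hH.zero_right]
    rw [hH.add_right, hT, hT, hxx, hxy] at h1
    apply mul_ne_zero hc hv
    linear_combination h1
  · by_contra hr
    obtain ⟨v, hv⟩ := h₂.nondeg r' hr
    have h1 : H (tp y v) (tp x r + tp y r') = 0 := by rw [h, hH.zero_right]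
    rw [hH.add_right, hT, hT, hyy, hyx] at h1
    apply mul_ne_zero hc hv
    linear_combination h1

variable (hσ : ∀ a, σ a = a ^ 2) (h11 : (1 : F) + 1 = 0) (h3 : ∀ a : F, a ≠ 0 → a ^ 3 = 1)
  (hspan : ∀ z : Fin n₁ → F, ∃ α β : F, z = α • x + β • y)

include h₁ hxx hyy hxy hyx hσ h11 h3 hspan in
lemma aniso_cases {u : Fin n₁ → F} (hu : f₁ u u ≠ 0) : (∃ α : F, u = α • x) ∨ (∃ β : F, u = β • y) := by
  obtain ⟨α, β, rfl⟩ := hspan u
  have h1 : f₁ (α • x + β • y) (α • x + β • y) = α * σ α + β * σ β := by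
    simp only [h₁.add_left, h₁.add_right, h₁.smul_left, h₁.smul_right, hxx, hyy, hxy, hyx]
    ring
  rw [h1] at hu
  rcases one_zero_of_norm hσ h11 h3 hu with h0 | h0
  · right; exact ⟨β, by rw [h0, zero_smul, zero_add]⟩
  · left; exact ⟨α, by rw [h0, zero_smul, add_zero]⟩

include h₁ h₂ hH hc hT hxx hyy hxy hyx hσ h11 h3 hspan in
theorem exists_mem_not_kron {w₀ : Fin n₂ → F} (hw₀ : w₀ ≠ 0) (hw₀₀ : f₂ w₀ w₀ = 0) :
    ∃ g : GL (Fin n₁ × Fin n₂) F, glEquiv g ∈ setStab F (pureSet f₁ n₂) ∧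
      glEquiv g ∈ UGrp H ⊓ slGrp F (Fin n₁ × Fin n₂ → F) ∧
      g ∉ Cfsg.Geo.kroneckerSubgroup n₁ n₂ F := by
  have hiso : H (tp y w₀) (tp y w₀) = 0 := by rw [hT, hw₀₀]; ring
  obtain ⟨s, hs, hsf⟩ := exists_tv hH h11 hiso
  have hx0 : x ≠ 0 := by
    rintro rfl
    rw [h₁.zero_left] at hxx
    exact zero_ne_one hxx
  have hy0 : y ≠ 0 := by
    rintro rfl
    rw [h₁.zero_left] at hyy
    exact zero_ne_one hyy
  have hsx : ∀ w, s (tp x w) = tp x w := by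
    intro w
    rw [hsf, hT, hxy]
    simp
  have hsy : ∀ w, s (tp y w) = tp y (w + (c * f₂ w w₀) • w₀) := by
    intro w
    rw [hsf, hT, hyy, tp_add_right, tp_smul_right, one_mul]
  have hmap : ∀ z ∈ pureSet f₁ n₂, s z ∈ pureSet f₁ n₂ := by
    rintro _ ⟨u, w, hu, rfl⟩
    rcases aniso_cases h₁ hxx hyy hxy hyx hσ h11 h3 hspan hu with ⟨α, rfl⟩ | ⟨β, rfl⟩
    · rw [tp_smul_left, map_smul, hsx, ← tp_smul_left]
      exact ⟨_, _, hu, rfl⟩
    · rw [tp_smul_left, map_smul, hsy, ← tp_smul_left]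
      exact ⟨_, _, hu, rfl⟩
  have hinv : s⁻¹ = s := by
    rw [inv_eq_iff_mul_eq_one]
    ext1 z
    rw [LinearEquiv.mul_apply, hsf (s z), hsf z, hH.add_left, hH.smul_left, hiso, mul_zero, add_zero,
      add_assoc, ← add_smul]
    have : H z (tp y w₀) + H z (tp y w₀) = 0 := by linear_combination (H z (tp y w₀)) * h11
    rw [this, zero_smul, add_zero]
    rfl
  refine ⟨glEquiv.symm s, ?_, ?_, ?_⟩
  · rw [MulEquiv.apply_symm_apply]
    exact mem_setStab_of hmap (by rw [hinv]; exact hmap)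
  · rw [MulEquiv.apply_symm_apply]
    exact hs
  · rintro ⟨a, b, hab⟩
    have hm : ∀ u w, s (tp u w) = tp ((a : Matrix _ _ F) *ᵥ u) ((b : Matrix _ _ F) *ᵥ w) := by
      intro u w
      rw [← kron_mulVec_tp, ← hab, glEquiv_symm_mulVec]
    obtain ⟨w, hw⟩ := h₂.nondeg w₀ hw₀
    obtain ⟨l, hl⟩ := tp_prop ((hm x w).symm.trans (hsx w)) hx0
    obtain ⟨m, hm'⟩ := tp_prop ((hm y w).symm.trans (hsy w)) hy0
    set v := (b : Matrix (Fin n₂) (Fin n₂) F) *ᵥ w with hv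
    have h4 : f₂ v w₀ ≠ 0 := by
      intro h0
      rw [hl, h₂.smul_left, h0, mul_zero] at hw
      exact hw rfl
    have h5 : (c * f₂ w w₀) • w₀ = (m - l) • v := by
      rw [sub_smul, ← hm', ← hl]
      abel
    have h6 := congrArg (fun t => f₂ t w₀) h5
    simp only [h₂.smul_left, hw₀₀, mul_zero] at h6
    have h7 : m - l = 0 := (mul_eq_zero.1 h6.symm).resolve_right h4
    rw [h7, zero_smul] at h5
    exact (smul_ne_zero (mul_ne_zero hc hw) hw₀) h5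

include h₁ h₂ hH hc hT hxx hyy hxy hyx hσ h11 h3 hspan in
theorem exists_not_mem {w₀ : Fin n₂ → F} (hw₀ : w₀ ≠ 0) (hw₀₀ : f₂ w₀ w₀ = 0) :
    ∃ g : GL (Fin n₁ × Fin n₂) F, glEquiv g ∈ UGrp H ⊓ slGrp F (Fin n₁ × Fin n₂ → F) ∧
      glEquiv g ∉ setStab F (pureSet f₁ n₂) := by
  have hiso : H (tp (x + y) w₀) (tp (x + y) w₀) = 0 := by rw [hT, hw₀₀]; ring
  obtain ⟨s, hs, hsf⟩ := exists_tv hH h11 hiso
  refine ⟨glEquiv.symm s, ?_, ?_⟩
  · rw [MulEquiv.apply_symm_apply]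
    exact hs
  rw [MulEquiv.apply_symm_apply]
  intro hmem
  obtain ⟨w, hw⟩ := h₂.nondeg w₀ hw₀
  have h1 : s (tp x w) ∈ pureSet f₁ n₂ :=
    (hmem _).2 ⟨x, w, by rw [hxx]; exact one_ne_zero, rfl⟩
  have h2 : s (tp x w) = tp x (w + (c * f₂ w w₀) • w₀) + tp y ((c * f₂ w w₀) • w₀) := by
    rw [hsf, hT, h₁.add_right, hxx, hxy, tp_add_left, tp_add_right, tp_smul_right, tp_smul_right]
    simp only [add_zero, one_mul, smul_add]
    abel
  have hne : (c * f₂ w w₀) • w₀ ≠ 0 := smul_ne_zero (mul_ne_zero hc hw) hw₀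
  obtain ⟨u, w', hu, h4⟩ := h1
  rw [h2] at h4
  rcases aniso_cases h₁ hxx hyy hxy hyx hσ h11 h3 hspan hu with ⟨α, rfl⟩ | ⟨β, rfl⟩
  · have h5 : tp x (w + (c * f₂ w w₀) • w₀ + (-α) • w') + tp y ((c * f₂ w w₀) • w₀) = 0 := by
      rw [tp_add_right, tp_smul_right, add_right_comm, h4, tp_smul_left]
      module
    exact hne (tp_pair_zero h₂ hH hc hT hxx hyy hxy hyx h5).2
  · have h5 : tp x (w + (c * f₂ w w₀) • w₀) + tp y ((c * f₂ w w₀) • w₀ + (-β) • w') = 0 := by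
      rw [tp_add_right y, tp_smul_right (-β), ← add_assoc, h4, tp_smul_left]
      module
    have h6 := (tp_pair_zero h₂ hH hc hT hxx hyy hxy hyx h5).1
    have h7 := congrArg (fun t => f₂ t w₀) h6
    simp only [h₂.add_left, h₂.smul_left, hw₀₀, mul_zero, add_zero, h₂.zero_left] at h7
    exact hw h7

end frame

end Cfsg.Agent.Lib.Helper17.TensorUnit
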