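import Cfsg.Agent.Lib.Helper17.TensorOmega
import Cfsg.Agent.Lib.Helper17.TensorSymp
import Cfsg.Agent.Lib.Helper17.TensorUnit

set_option autoImplicit false

/-! The tensor product of an orthogonal space of dimension three over the field with three elements
with another orthogonal space. -/

namespace Cfsg.Agent.Lib.Helper17.TensorOrth3

open scoped Kronecker MatrixGroups
open Matrix Module QuadraticMap Cfsg.Geo Cfsg.Agent.Lib.Helper17.Tensor
  Cfsg.Agent.Lib.Helper17.TensorForm Cfsg.Agent.Lib.Helper17.TensorOmega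
  Cfsg.Agent.Lib.Helper17.FrameThree Cfsg.Agent.Lib.Helper95
open Cfsg.Agent.Lib.Helper49 hiding glEquiv glEquiv_apply

variable {F : Type*} [Field F]

section triple

variable (hF : ∀ a : F, a = 0 ∨ a = 1 ∨ a = -1) (h3 : (3 : F) = 0)

include hF h3 in
lemma exists_triple {n : ℕ} (hn : 3 ≤ n) {f : (Fin n → F) → (Fin n → F) → F}
    (hf : IsSymmetricForm f) : ∃ p p' t, f p p' = 0 ∧ f p t = 0 ∧ f p' t = 0 ∧ f p p = f p' p' ∧
      f p p ≠ 0 ∧ f t t ≠ 0 := by
  have h2 : (2 : F) ≠ 0 := by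
    intro h2
    have : (1 : F) = 0 := by linear_combination h3 - h2
    exact one_ne_zero this
  have : Invertible (2 : F) := invertibleOfNonzero h2
  let B : LinearMap.BilinForm F (Fin n → F) := LinearMap.mk₂ F f hf.bilinear.add_left
    hf.bilinear.smul_left hf.bilinear.add_right hf.bilinear.smul_right
  have hB : ∀ x y, B x y = f x y := fun x y => rfl
  have hsymm : LinearMap.IsSymm B := ⟨fun x y => hf.symm x y⟩
  obtain ⟨v, hv⟩ := LinearMap.BilinForm.exists_orthogonal_basis hsymm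
  have hsep : B.SeparatingLeft := by
    intro x hx
    by_contra hx0
    obtain ⟨y, hy⟩ := (hf.nondegenerate x hx0).2
    exact hy (hx y)
  have hnorm := hv.not_isOrtho_basis_self_of_separatingLeft hsep
  have hfr : finrank F (Fin n → F) = n := by simp
  have hlt : ∀ k, k < 3 → k < finrank F (Fin n → F) := fun k hk => by omega
  let i₀ : Fin (finrank F (Fin n → F)) := ⟨0, hlt 0 (by omega)⟩
  let i₁ : Fin (finrank F (Fin n → F)) := ⟨1, hlt 1 (by omega)⟩
  let i₂ : Fin (finrank F (Fin n → F)) := ⟨2, hlt 2 (by omega)⟩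
  have h01 : i₀ ≠ i₁ := by simp [i₀, i₁]
  have h02 : i₀ ≠ i₂ := by simp [i₀, i₂]
  have h12 : i₁ ≠ i₂ := by simp [i₁, i₂]
  have horth : ∀ i j, i ≠ j → f (v i) (v j) = 0 := fun i j hij => hv hij
  have hn' : ∀ i, f (v i) (v i) ≠ 0 := hnorm
  have hpm : ∀ i, f (v i) (v i) = 1 ∨ f (v i) (v i) = -1 := fun i => (hF _).resolve_left (hn' i)
  have hcases : f (v i₀) (v i₀) = f (v i₁) (v i₁) ∨ f (v i₀) (v i₀) = f (v i₂) (v i₂) ∨
      f (v i₁) (v i₁) = f (v i₂) (v i₂) := by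
    rcases hpm i₀ with h0 | h0 <;> rcases hpm i₁ with h1 | h1 <;> rcases hpm i₂ with h2 | h2 <;>
      simp [h0, h1, h2]
  rcases hcases with h | h | h
  · exact ⟨v i₀, v i₁, v i₂, horth _ _ h01, horth _ _ h02, horth _ _ h12, h, hn' _, hn' _⟩
  · exact ⟨v i₀, v i₂, v i₁, horth _ _ h02, horth _ _ h01, horth _ _ h12.symm, h, hn' _, hn' _⟩
  · exact ⟨v i₁, v i₂, v i₀, horth _ _ h12, horth _ _ h01.symm, horth _ _ h02.symm, h, hn' _, hn' _⟩

end triple

variable {n₂ : ℕ}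

/-- The pure tensors whose first factor belongs to the frame. -/
def pureSet (f₁ : (Fin 3 → F) → (Fin 3 → F) → F) (n₂ : ℕ) : Set (Fin 3 × Fin n₂ → F) :=
  {z | ∃ u w, Fr f₁ u ∧ z = tp u w}

variable {f₁ : (Fin 3 → F) → (Fin 3 → F) → F} {f₂ : (Fin n₂ → F) → (Fin n₂ → F) → F}
  {Q : QuadraticForm F (Fin 3 × Fin n₂ → F)}
  (h₁ : IsSymmetricForm f₁) (h₂ : IsSymmetricForm f₂) {c : F} (hc : c ≠ 0)
  (hT : ∀ u w u' w', polar Q (tp u w) (tp u' w') = c * (f₁ u u' * f₂ w w'))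

include h₂ hc hT in
lemma kron_map_pureSet (hn₂ : 0 < n₂) {g : GL (Fin 3 × Fin n₂) F}
    (hg : g ∈ Cfsg.Geo.kroneckerSubgroup 3 n₂ F) (hgU : glEquiv g ∈ OG Q)
    (z : Fin 3 × Fin n₂ → F) (hz : z ∈ pureSet f₁ n₂) : glEquiv g z ∈ pureSet f₁ n₂ := by
  obtain ⟨a, b, hab⟩ := hg
  obtain ⟨u, w, hu, rfl⟩ := hz
  have hmap : ∀ u w, glEquiv g (tp u w) = tp ((a : Matrix _ _ F) *ᵥ u) ((b : Matrix _ _ F) *ᵥ w) := by
    intro u w
    rw [glEquiv_apply, hab, kron_mulVec_tp]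
  refine ⟨_, _, ?_, hmap u w⟩
  have hne : (Pi.single ⟨0, hn₂⟩ 1 : Fin n₂ → F) ≠ 0 := by
    intro h0
    have := congrFun h0 ⟨0, hn₂⟩
    simp at this
  obtain ⟨w₁, hw₁⟩ := (h₂.nondegenerate _ hne).1
  set w₂ : Fin n₂ → F := Pi.single ⟨0, hn₂⟩ 1
  have h1 : ∀ u u', f₁ ((a : Matrix _ _ F) *ᵥ u) ((a : Matrix _ _ F) *ᵥ u') *
      f₂ ((b : Matrix _ _ F) *ᵥ w₁) ((b : Matrix _ _ F) *ᵥ w₂) = f₁ u u' * f₂ w₁ w₂ := by
    intro u u'
    have := OG_polar Q ⟨_, hgU⟩ (tp u w₁) (tp u' w₂)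
    simp only [] at this
    rw [hmap, hmap, hT, hT] at this
    exact mul_left_cancel₀ hc this
  have hsurj : ∀ v : Fin 3 → F, ∃ v', v = (a : Matrix (Fin 3) (Fin 3) F) *ᵥ v' := by
    intro v
    refine ⟨((a⁻¹ : GL (Fin 3) F) : Matrix (Fin 3) (Fin 3) F) *ᵥ v, ?_⟩
    rw [Matrix.mulVec_mulVec, ← Units.val_mul, mul_inv_cancel, Units.val_one, Matrix.one_mulVec]
  constructor
  · intro h0
    have := h1 u u
    rw [h0, zero_mul] at this
    exact mul_ne_zero hu.1 hw₁ this.symm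
  · intro v hv hvv
    obtain ⟨v', rfl⟩ := hsurj v
    have e1 := h1 v' u
    have e2 := h1 v' v'
    rw [hv, zero_mul] at e1
    rw [hvv, zero_mul] at e2
    have := hu.2 v' ((mul_eq_zero.1 e1.symm).resolve_right hw₁) ((mul_eq_zero.1 e2.symm).resolve_right hw₁)
    rw [this, Matrix.mulVec_zero]

include h₂ hc hT in
lemma kron_mem_setStab (hn₂ : 0 < n₂) {g : GL (Fin 3 × Fin n₂) F}
    (hg : g ∈ Cfsg.Geo.kroneckerSubgroup 3 n₂ F) (hgU : glEquiv g ∈ OG Q) :
    glEquiv g ∈ setStab F (pureSet f₁ n₂) := by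
  apply mem_setStab_of
  · exact kron_map_pureSet h₂ hc hT hn₂ hg hgU
  · rw [← map_inv]
    apply kron_map_pureSet h₂ hc hT hn₂ (inv_mem hg)
    rw [map_inv]
    exact inv_mem hgU

section frame

variable (hF : ∀ a : F, a = 0 ∨ a = 1 ∨ a = -1) (h3 : (3 : F) = 0) {ε : F}
  {y : Fin 3 → (Fin 3 → F)} (hy : Frame f₁ ε y)

include h₁ hF h3 hy in
lemma mem_pureSet_iff (z : Fin 3 × Fin n₂ → F) : z ∈ pureSet f₁ n₂ ↔ ∃ k w, z = tp (y k) w := by
  constructor
  · rintro ⟨u, w, hu, rfl⟩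
    obtain ⟨k, d, rfl⟩ := hy.eq_of_fr hF h3 h₁.bilinear hu
    exact ⟨k, d • w, by rw [tp_smul_left, tp_smul_right]⟩
  · rintro ⟨k, w, rfl⟩
    exact ⟨y k, w, hy.fr hF h3 h₁.bilinear k, rfl⟩

include h₁ hT hF h3 hy in
lemma refl_mem_setStab (k : Fin 3) (w : Fin n₂ → F) :
    (refl Q (tp (y k) w)).1 ∈ setStab F (pureSet f₁ n₂) := by
  have hmap : ∀ z ∈ pureSet f₁ n₂, (refl Q (tp (y k) w)).1 z ∈ pureSet f₁ n₂ := by
    intro z hz
    rw [mem_pureSet_iff h₁ hF h3 hy] at hz ⊢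
    obtain ⟨j, w', rfl⟩ := hz
    rw [refl_coe_apply, reflLin_apply, hT, hy.orth]
    by_cases hkj : k = j
    · subst hkj
      refine ⟨k, w' - ((Q (tp (y k) w))⁻¹ * (c * ((if k = k then ε else 0) * f₂ w w'))) • w, ?_⟩
      rw [sub_eq_add_neg, sub_eq_add_neg, tp_add_right, ← neg_smul, ← neg_smul, tp_smul_right]
    · refine ⟨j, w', ?_⟩
      rw [if_neg hkj]
      simp
  apply mem_setStab_of hmap
  have : ((refl Q (tp (y k) w)).1)⁻¹ = (refl Q (tp (y k) w)).1 := by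
    have := refl_inv Q (tp (y k) w)
    exact congrArg Subtype.val this
  rw [this]
  exact hmap

include h3 in
lemma two_ne : (2 : F) ≠ 0 := by
  intro h2
  have : (1 : F) = 0 := by linear_combination h3 - h2
  exact one_ne_zero this

include hT in
lemma two_Q (u : Fin 3 → F) (w : Fin n₂ → F) : 2 * Q (tp u w) = c * (f₁ u u * f₂ w w) := by
  rw [← hT, polar_self, nsmul_eq_mul]
  norm_num

include h3 in
lemma refl_pair_mem {u v : Fin 3 × Fin n₂ → F} (h : Q u = Q v) (hp : polar Q v u = 0)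
    (hu : Q u ≠ 0) : (refl Q u * refl Q v).1 ∈ omG Q := by
  apply refl_mul_refl_mem Q h
  have := Q_sub_smul Q u v 1
  rw [one_smul] at this
  rw [this, hp, ← h]
  intro h0
  apply mul_ne_zero (two_ne h3) hu
  linear_combination h0

variable {p p' t : Fin n₂ → F} (hpp' : f₂ p p' = 0) (hpt : f₂ p t = 0) (hp't : f₂ p' t = 0)
  (heq : f₂ p p = f₂ p' p') (hp0 : f₂ p p ≠ 0) (ht0 : f₂ t t ≠ 0)

include h₁ h₂ hc hT hF h3 hy hpp' hpt hp't heq hp0 ht0 in
theorem exists_mem_not_kron :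
    ∃ g : GL (Fin 3 × Fin n₂) F, glEquiv g ∈ setStab F (pureSet f₁ n₂) ∧
      glEquiv g ∈ omG Q ∧ g ∉ Cfsg.Geo.kroneckerSubgroup 3 n₂ F := by
  have h2 := two_ne h3
  have hQa : 2 * Q (tp (y 0) p) = c * (ε * f₂ p p) := by
    rw [two_Q hT, hy.orth, if_pos rfl]
  have hQa' : 2 * Q (tp (y 0) p') = c * (ε * f₂ p p) := by
    rw [two_Q hT, hy.orth, if_pos rfl, heq]
  have hQ0 : Q (tp (y 0) p) ≠ 0 := by
    intro h0
    rw [h0, mul_zero] at hQa
    exact mul_ne_zero hc (mul_ne_zero hy.ne hp0) hQa.symm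
  have hQeq : Q (tp (y 0) p) = Q (tp (y 0) p') := mul_left_cancel₀ h2 (hQa.trans hQa'.symm)
  have hp'p : f₂ p' p = 0 := by rw [h₂.symm, hpp']
  set s := refl Q (tp (y 0) p) * refl Q (tp (y 0) p') with hs
  have hs1 : ∀ w, s.1 (tp (y 1) w) = tp (y 1) w := by
    intro w
    rw [hs, Subgroup.coe_mul, LinearEquiv.mul_apply, refl_coe_apply, refl_coe_apply,
      reflLin_of_polar_eq_zero Q (tp (y 0) p') _ (by rw [hT, hy.orth, if_neg (by decide)]; ring),
      reflLin_of_polar_eq_zero Q _ _ (by rw [hT, hy.orth, if_neg (by decide)]; ring)]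
  have hs0 : s.1 (tp (y 0) (p + t)) = tp (y 0) (t - p) := by
    rw [hs, Subgroup.coe_mul, LinearEquiv.mul_apply, refl_coe_apply, refl_coe_apply,
      reflLin_of_polar_eq_zero Q (tp (y 0) p') _ (by
        rw [hT, h₂.bilinear.add_right, hp'p, hp't]; ring),
      reflLin_apply, hT, hy.orth, if_pos rfl, h₂.bilinear.add_right, hpt, add_zero, ← hQa]
    have : (Q (tp (y 0) p))⁻¹ * (2 * Q (tp (y 0) p)) = 2 := by field_simp
    rw [this, tp_add_right, sub_eq_add_neg t p, tp_add_right, ← neg_one_smul F p, tp_smul_right]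
    module
  refine ⟨glEquiv.symm s.1, ?_, ?_, ?_⟩
  · rw [MulEquiv.apply_symm_apply, hs, Subgroup.coe_mul]
    exact mul_mem (refl_mem_setStab h₁ hT hF h3 hy 0 p) (refl_mem_setStab h₁ hT hF h3 hy 0 p')
  · rw [MulEquiv.apply_symm_apply]
    exact refl_pair_mem h3 hQeq (by rw [hT, hp'p]; ring) hQ0
  · rintro ⟨a, b, hab⟩
    have hm : ∀ u w, s.1 (tp u w) = tp ((a : Matrix _ _ F) *ᵥ u) ((b : Matrix _ _ F) *ᵥ w) := by
      intro u w
      rw [← kron_mulVec_tp, ← hab, glEquiv_symm_mulVec]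
    obtain ⟨l, hl⟩ := TensorUnit.tp_prop ((hm (y 1) (p + t)).symm.trans (hs1 _))
      (hy.ne_zero h₁.bilinear 1)
    obtain ⟨m, hm'⟩ := TensorUnit.tp_prop ((hm (y 0) (p + t)).symm.trans hs0)
      (hy.ne_zero h₁.bilinear 0)
    set v := (b : Matrix (Fin n₂) (Fin n₂) F) *ᵥ (p + t) with hv
    have htp : f₂ t p = 0 := by rw [h₂.symm, hpt]
    have e1 := congrArg (fun x => f₂ x p) hl
    have e2 := congrArg (fun x => f₂ x p) hm'
    have e3 := congrArg (fun x => f₂ x t) hl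
    have e4 := congrArg (fun x => f₂ x t) hm'
    have hsub : t - p = t + (-1 : F) • p := by module
    simp only [hsub, h₂.bilinear.add_left, h₂.bilinear.smul_left, htp, hpt, add_zero, zero_add,
      mul_zero] at e1 e2 e3 e4
    have h5 : f₂ v t ≠ 0 := by
      intro h0
      rw [h0, mul_zero] at e3
      exact ht0 e3
    have h6 : l = m := by
      have : (l - m) * f₂ v t = 0 := by linear_combination e4 - e3
      have := (mul_eq_zero.1 this).resolve_right h5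
      linear_combination this
    apply mul_ne_zero h2 hp0
    rw [h6] at e1
    linear_combination e1 - e2

include h₁ h₂ hc hT hF h3 hy hpp' heq hp0 in
theorem exists_not_mem :
    ∃ g : GL (Fin 3 × Fin n₂) F, glEquiv g ∈ omG Q ∧ glEquiv g ∉ setStab F (pureSet f₁ n₂) := by
  have h2 := two_ne h3
  have hp'p : f₂ p' p = 0 := by rw [h₂.symm, hpp']
  have hQa : 2 * Q (tp (y 2) p) = c * (ε * f₂ p p) := by
    rw [two_Q hT, hy.orth, if_pos rfl]
  have hQa' : 2 * Q (tp (y 0 + y 1) (p + p')) = c * (ε * f₂ p p) := by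
    rw [two_Q hT]
    simp only [h₁.bilinear.add_left, h₁.bilinear.add_right, h₂.bilinear.add_left,
      h₂.bilinear.add_right, hy.orth, hpp', hp'p, ← heq]
    simp only [if_true, Fin.isValue, zero_ne_one, one_ne_zero, if_false, add_zero, zero_add]
    linear_combination (c * ε * f₂ p p) * h3
  have hQ0 : Q (tp (y 2) p) ≠ 0 := by
    intro h0
    rw [h0, mul_zero] at hQa
    exact mul_ne_zero hc (mul_ne_zero hy.ne hp0) hQa.symm
  have hQeq : Q (tp (y 2) p) = Q (tp (y 0 + y 1) (p + p')) :=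
    mul_left_cancel₀ h2 (hQa.trans hQa'.symm)
  set s := refl Q (tp (y 2) p) * refl Q (tp (y 0 + y 1) (p + p')) with hs
  refine ⟨glEquiv.symm s.1, ?_, ?_⟩
  · rw [MulEquiv.apply_symm_apply]
    refine refl_pair_mem h3 hQeq ?_ hQ0
    rw [hT, h₁.bilinear.add_left, hy.orth, hy.orth, if_neg (by decide), if_neg (by decide)]
    ring
  rw [MulEquiv.apply_symm_apply]
  intro hmem
  have h4 : (refl Q (tp (y 0 + y 1) (p + p'))).1 ∈ setStab F (pureSet f₁ n₂) := by
    have h5 := mul_mem (inv_mem (refl_mem_setStab h₁ hT hF h3 hy 2 p)) hmem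
    rwa [hs, Subgroup.coe_mul, inv_mul_cancel_left] at h5
  have h5 : (refl Q (tp (y 0 + y 1) (p + p'))).1 (tp (y 0) p) ∈ pureSet f₁ n₂ :=
    (h4 _).2 ((mem_pureSet_iff h₁ hF h3 hy _).2 ⟨0, p, rfl⟩)
  rw [mem_pureSet_iff h₁ hF h3 hy] at h5
  obtain ⟨k, w', h6⟩ := h5
  rw [refl_coe_apply, reflLin_apply, hT, h₁.bilinear.add_left, hy.orth, hy.orth, if_pos rfl,
    if_neg (by decide), h₂.bilinear.add_left, hp'p, add_zero, add_zero] at h6
  set κ := (Q (tp (y 0 + y 1) (p + p')))⁻¹ * (c * (ε * f₂ p p)) with hκ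
  have hκ0 : κ ≠ 0 := by
    apply mul_ne_zero (inv_ne_zero _) (mul_ne_zero hc (mul_ne_zero hy.ne hp0))
    rw [← hQeq]; exact hQ0
  have hpair : ∀ j : Fin 3, j ≠ 2 → polar Q (tp (y 0) p - κ • tp (y 0 + y 1) (p + p')) (tp (y j) p') =
      - (κ * (c * (ε * f₂ p p))) := by
    intro j hj
    rw [polar_sub_left, polar_smul_left, hT, hT, hpp', h₁.bilinear.add_left, h₂.bilinear.add_left,
      hpp', ← heq, hy.orth, hy.orth, smul_eq_mul]
    fin_cases j
    · simp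
    · simp
    · exact absurd rfl hj
  have hne : κ * (c * (ε * f₂ p p)) ≠ 0 := mul_ne_zero hκ0 (mul_ne_zero hc (mul_ne_zero hy.ne hp0))
  by_cases hk : k = 0
  · have := hpair 1 (by decide)
    rw [h6, hT, hy.orth, hk, if_neg (by decide)] at this
    apply hne
    linear_combination this
  · have := hpair 0 (by decide)
    rw [h6, hT, hy.orth, if_neg hk] at this
    apply hne
    linear_combination this

end frame

end Cfsg.Agent.Lib.Helper17.TensorOrth3
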