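import Cfsg.Agent.Lib.Helper17.UnitSimple
import Cfsg.Agent.Lib.Helper17.RootTransfer
import Cfsg.Agent.Lib.Helper50.NormFq2

set_option autoImplicit false

namespace Cfsg.Agent.Lib.Helper17.UnitRoot

open Matrix Cfsg
open Cfsg.Agent.Lib.Helper85
open Cfsg.Agent.Lib.Helper17

variable {F : Type*} [Field F] [Fintype F] {q : ℕ}

theorem card_fixed (hF : Fintype.card F = q ^ 2) : Nat.card {c : F // c ^ q = c} = q := by
  have h2 := two_le_of_card_sq hF
  rw [Cfsg.Agent.Lib.Helper50.card_split (fun c : F => c ^ q = c) (fun c => c = 0)]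
  have h1 : Nat.card {c : F // c ^ q = c ∧ ¬ c = 0} = q - 1 := by
    rw [← Cfsg.Agent.Lib.Helper50.card_fixed_ne_zero hF]
    apply Nat.card_congr
    exact Equiv.subtypeEquivRight (fun c => by rw [and_comm])
  have h0 : Nat.card {c : F // c ^ q = c ∧ c = 0} = 1 := by
    rw [Nat.card_eq_one_iff_unique]
    refine ⟨⟨?_⟩, ⟨⟨0, zero_pow (by omega), rfl⟩⟩⟩
    rintro ⟨a, -, ha⟩ ⟨b, -, hb⟩
    exact Subtype.ext (ha.trans hb.symm)
  rw [h1, h0]
  omega

theorem exists_small_field (hF : Fintype.card F = q ^ 2) :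
    ∃ (L : Type) (_ : Field L) (_ : Fintype L) (ι : L →+* F), Fintype.card L = q ∧
      ∀ x : F, x ^ q = x → ∃ t, ι t = x := by
  let K : Subfield F := RingHom.eqLocusField (frobQ hF) (RingHom.id F)
  have hK : ∀ x : F, x ∈ K ↔ x ^ q = x := fun x => Iff.rfl
  have : Fintype K := Fintype.ofFinite K
  refine ⟨Shrink.{0} K, inferInstance, Fintype.ofEquiv K (equivShrink.{0} K),
    K.subtype.comp (Shrink.ringEquiv.{0} K).toRingHom, ?_, ?_⟩
  · rw [← Nat.card_eq_fintype_card, ← card_fixed hF]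
    exact Nat.card_congr (equivShrink.{0} K).symm
  · intro x hx
    refine ⟨(Shrink.ringEquiv.{0} K).symm ⟨x, (hK x).2 hx⟩, ?_⟩
    simp


variable {n : ℕ}

/-- `g` is the transvection `v ↦ v + c h(v,p) p`. -/
def IsTv (p : Fin n → F) (c : F) (g : ↥(Cfsg.SU n F q)) : Prop :=
  ∀ v, suMat g *ᵥ v = v + (c * Cfsg.hermForm n F q v p) • p

/-- The group of unitary transvections with centre `p`. -/
def T (q : ℕ) (p : Fin n → F) : Subgroup ↥(Cfsg.SU n F q) :=
  Subgroup.closure {g : ↥(Cfsg.SU n F q) |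
    (∀ v : Fin n → F, ∃ c : F,
      ((g : Matrix.SpecialLinearGroup (Fin n) F) : Matrix (Fin n) (Fin n) F) *ᵥ v = v + c • p) ∧
    ∀ v : Fin n → F, Cfsg.hermForm n F q v p = 0 →
      ((g : Matrix.SpecialLinearGroup (Fin n) F) : Matrix (Fin n) (Fin n) F) *ᵥ v = v}

omit [Fintype F] in
theorem IsTv.one (p : Fin n → F) : IsTv p 0 (1 : ↥(Cfsg.SU n F q)) := by
  intro v
  rw [suMat_one, Matrix.one_mulVec]
  simp

omit [Fintype F] in
theorem IsTv.mul {p : Fin n → F} (hp0 : Cfsg.hermForm n F q p p = 0) {c d : F}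
    {g g' : ↥(Cfsg.SU n F q)} (h : IsTv p c g) (h' : IsTv p d g') : IsTv p (c + d) (g * g') := by
  intro v
  rw [suMat_mul_mulVec, h', h, hermForm_add_left, hermForm_smul_left, hp0]
  module

omit [Fintype F] in
theorem IsTv.inv {p : Fin n → F} (hp0 : Cfsg.hermForm n F q p p = 0) {c : F}
    {g : ↥(Cfsg.SU n F q)} (h : IsTv p c g) : IsTv p (-c) g⁻¹ := by
  intro v
  have h1 : suMat g *ᵥ (v + (-c * Cfsg.hermForm n F q v p) • p) = v := by
    rw [h, hermForm_add_left, hermForm_smul_left, hp0]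
    module
  conv_lhs => rw [← h1]
  rw [suMat_inv_mulVec]

omit [Fintype F] in
theorem IsTv.ext {p : Fin n → F} {c : F} {g g' : ↥(Cfsg.SU n F q)} (h : IsTv p c g)
    (h' : IsTv p c g') : g = g' :=
  su_ext fun v => by rw [h, h']

theorem mem_T (hF : Fintype.card F = q ^ 2) {p : Fin n → F} (hp : p ≠ 0)
    (hp0 : Cfsg.hermForm n F q p p = 0) {g : ↥(Cfsg.SU n F q)} :
    g ∈ T q p ↔ ∃ c, IsTv p c g := by
  constructor
  · intro hg
    unfold T at hg
    induction hg using Subgroup.closure_induction with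
    | mem x hx =>
      obtain ⟨h1, h2⟩ := hx
      obtain ⟨w, -, hwp, -⟩ := exists_hyp_partner hF n p hp hp0
      obtain ⟨c, hc⟩ := h1 w
      refine ⟨c, fun v => ?_⟩
      have h3 := h2 (v - Cfsg.hermForm n F q v p • w) (by
        rw [hermForm_sub_left, hermForm_smul_left, hwp]; ring)
      rw [Matrix.mulVec_sub, Matrix.mulVec_smul, hc] at h3
      change ((x : Matrix.SpecialLinearGroup (Fin n) F) : Matrix (Fin n) (Fin n) F) *ᵥ v = _
      linear_combination (norm := module) h3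
    | one => exact ⟨0, IsTv.one p⟩
    | mul x y _ _ hx hy =>
      obtain ⟨s, hs⟩ := hx
      obtain ⟨t, ht⟩ := hy
      exact ⟨s + t, hs.mul hp0 ht⟩
    | inv x _ hx =>
      obtain ⟨s, hs⟩ := hx
      exact ⟨-s, hs.inv hp0⟩
  · rintro ⟨c, hc⟩
    refine Subgroup.subset_closure ⟨fun v => ⟨_, hc v⟩, fun v hv => ?_⟩
    have := hc v
    rw [hv] at this
    rw [this]
    simp

theorem IsTv.skew (hF : Fintype.card F = q ^ 2) {p : Fin n → F} (hp : p ≠ 0)
    (hp0 : Cfsg.hermForm n F q p p = 0) {c : F} {g : ↥(Cfsg.SU n F q)} (h : IsTv p c g) :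
    c ^ q = -c := by
  obtain ⟨w, hpw, hwp, hww⟩ := exists_hyp_partner hF n p hp hp0
  have h1 := su_hermForm g w w
  change Cfsg.hermForm n F q (suMat g *ᵥ w) (suMat g *ᵥ w) = _ at h1
  rw [h w, hwp] at h1
  simp only [hermForm_add_left, hermForm_add_right hF, hermForm_smul_left, hermForm_smul_right,
    hp0, hpw, hwp, hww, mul_one] at h1
  linear_combination h1

omit [Fintype F] in
theorem IsTv.conj {p : Fin n → F} {c : F} {t : ↥(Cfsg.SU n F q)} (h : IsTv p c t)
    (g : ↥(Cfsg.SU n F q)) : IsTv (suMat g *ᵥ p) c (g * t * g⁻¹) := by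
  intro v
  rw [suMat_mul_mulVec, suMat_mul_mulVec, h, Matrix.mulVec_add, Matrix.mulVec_smul,
    suMat_mulVec_inv]
  have h1 := su_hermForm g (suMat g⁻¹ *ᵥ v) p
  change Cfsg.hermForm n F q (suMat g *ᵥ (suMat g⁻¹ *ᵥ v)) (suMat g *ᵥ p) = _ at h1
  rw [suMat_mulVec_inv] at h1
  rw [h1]

omit [Fintype F] in
theorem IsTv.comm {p p' : Fin n → F} (h1 : Cfsg.hermForm n F q p p' = 0)
    (h2 : Cfsg.hermForm n F q p' p = 0) {c d : F} {g g' : ↥(Cfsg.SU n F q)} (h : IsTv p c g)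
    (h' : IsTv p' d g') : g * g' = g' * g := by
  apply su_ext
  intro v
  rw [suMat_mul_mulVec, suMat_mul_mulVec, h', h, h, h']
  simp only [hermForm_add_left, hermForm_smul_left, h1, h2]
  module

omit [Fintype F] in
theorem isTv_smul {p : Fin n → F} {a c : F} {g : ↥(Cfsg.SU n F q)} :
    IsTv (a • p) c g ↔ IsTv p (c * a ^ (q + 1)) g := by
  have key : ∀ v, v + (c * Cfsg.hermForm n F q v (a • p)) • (a • p) =
      v + (c * a ^ (q + 1) * Cfsg.hermForm n F q v p) • p := by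
    intro v
    rw [hermForm_smul_right, pow_succ]
    module
  constructor
  · intro h v
    rw [h v, key]
  · intro h v
    rw [h v, key]

theorem T_smul (hF : Fintype.card F = q ^ 2) {p : Fin n → F} (hp : p ≠ 0)
    (hp0 : Cfsg.hermForm n F q p p = 0) {a : F} (ha : a ≠ 0) : T q (a • p) = T q p := by
  have hp' : a • p ≠ 0 := smul_ne_zero ha hp
  have hp0' : Cfsg.hermForm n F q (a • p) (a • p) = 0 := by
    rw [hermForm_smul_left, hermForm_smul_right, hp0]; ring
  ext x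
  rw [mem_T hF hp hp0, mem_T hF hp' hp0']
  constructor
  · rintro ⟨c, hc⟩
    exact ⟨_, isTv_smul.1 hc⟩
  · rintro ⟨c, hc⟩
    refine ⟨c / a ^ (q + 1), isTv_smul.2 ?_⟩
    rwa [div_mul_cancel₀ _ (pow_ne_zero _ ha)]

omit [Fintype F] in
theorem su_mulVec_ne_zero (g : ↥(Cfsg.SU n F q)) {p : Fin n → F} (hp : p ≠ 0) :
    suMat g *ᵥ p ≠ 0 := by
  intro h0
  apply hp
  have := suMat_inv_mulVec g p
  rw [h0, Matrix.mulVec_zero] at this
  exact this.symm

theorem conjBy_T (hF : Fintype.card F = q ^ 2) {p : Fin n → F} (hp : p ≠ 0)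
    (hp0 : Cfsg.hermForm n F q p p = 0) (g : ↥(Cfsg.SU n F q)) :
    conjBy (T q p) g = T q (suMat g *ᵥ p) := by
  have hp0' : Cfsg.hermForm n F q (suMat g *ᵥ p) (suMat g *ᵥ p) = 0 := by
    rw [← hp0]; exact su_hermForm g p p
  ext x
  rw [mem_conjBy, mem_T hF hp hp0, mem_T hF (su_mulVec_ne_zero g hp) hp0']
  constructor
  · rintro ⟨c, hc⟩
    refine ⟨c, ?_⟩
    have := hc.conj g
    have e : g * (g⁻¹ * x * g) * g⁻¹ = x := by group
    rwa [e] at this
  · rintro ⟨c, hc⟩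
    refine ⟨c, ?_⟩
    have := hc.conj g⁻¹
    rw [suMat_inv_mulVec, inv_inv] at this
    exact this

theorem commutator_T (hF : Fintype.card F = q ^ 2) {p p' : Fin n → F} (hp : p ≠ 0)
    (hp0 : Cfsg.hermForm n F q p p = 0) (hp' : p' ≠ 0) (hp0' : Cfsg.hermForm n F q p' p' = 0)
    (h : Cfsg.hermForm n F q p p' = 0) : ⁅T q p, T q p'⁆ = ⊥ := by
  rw [Subgroup.commutator_eq_bot_iff_le_centralizer]
  intro x hx
  obtain ⟨c, hc⟩ := (mem_T hF hp hp0).1 hx
  rw [Subgroup.mem_centralizer_iff]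
  intro y hy
  obtain ⟨d, hd⟩ := (mem_T hF hp' hp0').1 hy
  exact (hc.comm h (hermForm_eq_zero_comm hF h) hd).symm

theorem isMulCommutative_T (hF : Fintype.card F = q ^ 2) {p : Fin n → F} (hp : p ≠ 0)
    (hp0 : Cfsg.hermForm n F q p p = 0) : IsMulCommutative (T q p) := by
  refine ⟨⟨?_⟩⟩
  rintro ⟨a, ha⟩ ⟨b, hb⟩
  obtain ⟨s, hs⟩ := (mem_T hF hp hp0).1 ha
  obtain ⟨t, ht⟩ := (mem_T hF hp hp0).1 hb
  apply Subtype.ext
  exact hs.comm hp0 hp0 ht

theorem T_ne_bot (hF : Fintype.card F = q ^ 2) {p : Fin n → F} (hp : p ≠ 0)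
    (hp0 : Cfsg.hermForm n F q p p = 0) : T q p ≠ ⊥ := by
  intro h
  obtain ⟨κ, hκ0, hκ⟩ := exists_trace_zero hF
  have h1 : transvSU hF p κ hp0 hκ ∈ T q p :=
    (mem_T hF hp hp0).2 ⟨κ, fun v => transvSU_mulVec hF p κ hp0 hκ v⟩
  rw [h, Subgroup.mem_bot] at h1
  obtain ⟨w, -, hwp, -⟩ := exists_hyp_partner hF n p hp hp0
  have h2 := transvSU_mulVec hF p κ hp0 hκ w
  rw [h1, suMat_one, Matrix.one_mulVec, hwp, mul_one] at h2
  have h3 : κ • p = 0 := by
    have := h2.symm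
    rwa [add_eq_left] at this
  exact smul_ne_zero hκ0 hp h3

/-- The action of a `2 × 2` matrix on the hyperbolic line `⟨e, d⟩`, extended by the identity. -/
def Lu (q : ℕ) (e d : Fin n → F) (α β γ δ : F) : (Fin n → F) →ₗ[F] (Fin n → F) where
  toFun v := v + ((α - 1) * Cfsg.hermForm n F q v d + β * Cfsg.hermForm n F q v e) • e +
    (γ * Cfsg.hermForm n F q v d + (δ - 1) * Cfsg.hermForm n F q v e) • d
  map_add' u v := by
    simp only [hermForm_add_left]
    module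
  map_smul' c v := by
    simp only [hermForm_smul_left, RingHom.id_apply]
    module

omit [Fintype F] in
theorem Lu_apply (e d : Fin n → F) (α β γ δ : F) (v : Fin n → F) :
    Lu q e d α β γ δ v =
      v + ((α - 1) * Cfsg.hermForm n F q v d + β * Cfsg.hermForm n F q v e) • e +
    (γ * Cfsg.hermForm n F q v d + (δ - 1) * Cfsg.hermForm n F q v e) • d := rfl

theorem Lu_form (hF : Fintype.card F = q ^ 2) {e d : Fin n → F}
    (he0 : Cfsg.hermForm n F q e e = 0) (hd0 : Cfsg.hermForm n F q d d = 0)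
    (hed : Cfsg.hermForm n F q e d = 1) (hde : Cfsg.hermForm n F q d e = 1) {α β γ δ : F}
    (hα : α ^ q = α) (hβ : β ^ q = -β) (hγ : γ ^ q = -γ) (hδ : δ ^ q = δ)
    (hdet : α * δ - β * γ = 1) (u v : Fin n → F) :
    Cfsg.hermForm n F q (Lu q e d α β γ δ u) (Lu q e d α β γ δ v) = Cfsg.hermForm n F q u v := by
  simp only [Lu_apply, hermForm_add_left, hermForm_add_right hF, hermForm_smul_left,
    hermForm_smul_right, add_pow_q hF, sub_pow_q hF, mul_pow, one_pow, hermForm_conj hF, hα, hβ,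
    hγ, hδ, he0, hd0, hed, hde]
  linear_combination (Cfsg.hermForm n F q u d * Cfsg.hermForm n F q e v +
    Cfsg.hermForm n F q u e * Cfsg.hermForm n F q d v) * hdet

omit [Fintype F] in
theorem Lu_comp {e d : Fin n → F}
    (he0 : Cfsg.hermForm n F q e e = 0) (hd0 : Cfsg.hermForm n F q d d = 0)
    (hed : Cfsg.hermForm n F q e d = 1) (hde : Cfsg.hermForm n F q d e = 1)
    (α β γ δ α' β' γ' δ' : F) (v : Fin n → F) :
    Lu q e d α β γ δ (Lu q e d α' β' γ' δ' v) =
      Lu q e d (α * α' + β * γ') (α * β' + β * δ') (γ * α' + δ * γ') (γ * β' + δ * δ') v := by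
  simp only [Lu_apply, hermForm_add_left, hermForm_smul_left, he0, hd0, hed, hde]
  module

/-- The data for the embedding of `SL₂(q)` attached to a hyperbolic pair. -/
structure Dat (F : Type*) [Field F] [Fintype F] (q n : ℕ) (L : Type) [Field L] [Fintype L] where
  hF : Fintype.card F = q ^ 2
  hL : Fintype.card L = q
  ι : L →+* F
  hsurj : ∀ x : F, x ^ q = x → ∃ t, ι t = x
  κ : F
  hκ0 : κ ≠ 0
  hκ : κ ^ q = -κ
  e : Fin n → F
  d : Fin n → F
  he0 : Cfsg.hermForm n F q e e = 0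
  hd0 : Cfsg.hermForm n F q d d = 0
  hed : Cfsg.hermForm n F q e d = 1
  hde : Cfsg.hermForm n F q d e = 1

namespace Dat

variable {L : Type} [Field L] [Fintype L] (D : Dat F q n L)

theorem ι_pow (t : L) : D.ι t ^ q = D.ι t := by
  have := FiniteField.pow_card t
  rw [D.hL] at this
  rw [← map_pow, this]

theorem hk : D.κ * D.κ⁻¹ = 1 := mul_inv_cancel₀ D.hκ0

theorem he : D.e ≠ 0 := by
  intro h
  have := D.hed
  rw [h, hermForm_zero_left] at this
  exact zero_ne_one this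

theorem hd : D.d ≠ 0 := by
  intro h
  have := D.hde
  rw [h, hermForm_zero_left] at this
  exact zero_ne_one this

/-- the linear map attached to `M`. -/
def LM (M : SpecialLinearGroup (Fin 2) L) : (Fin n → F) →ₗ[F] (Fin n → F) :=
  Lu q D.e D.d (D.ι (M 0 0)) (D.κ * D.ι (M 0 1)) (D.κ⁻¹ * D.ι (M 1 0)) (D.ι (M 1 1))

theorem LM_form (M : SpecialLinearGroup (Fin 2) L) (u v : Fin n → F) :
    Cfsg.hermForm n F q (D.LM M u) (D.LM M v) = Cfsg.hermForm n F q u v := by
  apply Lu_form D.hF D.he0 D.hd0 D.hed D.hde (D.ι_pow _)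
  · rw [mul_pow, D.hκ, D.ι_pow]; ring
  · rw [mul_pow, inv_pow, D.hκ, D.ι_pow, inv_neg]; ring
  · exact D.ι_pow _
  · have h2 := congrArg D.ι (SL2.det_eq M)
    simp only [map_sub, map_mul, map_one] at h2
    linear_combination h2 - D.ι (M 0 1) * D.ι (M 1 0) * D.hk

theorem LM_mul (M N : SpecialLinearGroup (Fin 2) L) (v : Fin n → F) :
    D.LM (M * N) v = D.LM M (D.LM N v) := by
  have hk := D.hk
  have e1 : D.ι ((M * N) 0 0) = D.ι (M 0 0) * D.ι (N 0 0) +
      (D.κ * D.ι (M 0 1)) * (D.κ⁻¹ * D.ι (N 1 0)) := by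
    rw [SL2.mul_entry, map_add, map_mul, map_mul]
    linear_combination (-(D.ι (M 0 1) * D.ι (N 1 0))) * hk
  have e2 : D.κ * D.ι ((M * N) 0 1) = D.ι (M 0 0) * (D.κ * D.ι (N 0 1)) +
      (D.κ * D.ι (M 0 1)) * D.ι (N 1 1) := by
    rw [SL2.mul_entry, map_add, map_mul, map_mul]
    ring
  have e3 : D.κ⁻¹ * D.ι ((M * N) 1 0) = (D.κ⁻¹ * D.ι (M 1 0)) * D.ι (N 0 0) +
      D.ι (M 1 1) * (D.κ⁻¹ * D.ι (N 1 0)) := by
    rw [SL2.mul_entry, map_add, map_mul, map_mul]
    ring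
  have e4 : D.ι ((M * N) 1 1) = (D.κ⁻¹ * D.ι (M 1 0)) * (D.κ * D.ι (N 0 1)) +
      D.ι (M 1 1) * D.ι (N 1 1) := by
    rw [SL2.mul_entry, map_add, map_mul, map_mul]
    linear_combination (-(D.ι (M 1 0) * D.ι (N 0 1))) * hk
  unfold LM
  rw [e1, e2, e3, e4, Lu_comp D.he0 D.hd0 D.hed D.hde]

theorem LM_up (t : L) (v : Fin n → F) :
    D.LM (SL2.up t) v = v + (D.κ * D.ι t * Cfsg.hermForm n F q v D.e) • D.e := by
  unfold LM
  rw [Lu_apply]
  simp only [SL2.up_00, SL2.up_01, SL2.up_10, SL2.up_11, map_one, map_zero]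
  module

theorem LM_lo (t : L) (v : Fin n → F) :
    D.LM (SL2.lo t) v = v + (D.κ⁻¹ * D.ι t * Cfsg.hermForm n F q v D.d) • D.d := by
  unfold LM
  rw [Lu_apply]
  simp only [SL2.lo_00, SL2.lo_01, SL2.lo_10, SL2.lo_11, map_one, map_zero]
  module

theorem LM_one (v : Fin n → F) : D.LM 1 v = v := by
  rw [← SL2.up_zero, LM_up]
  simp

/-- the matrix-valued homomorphism -/
noncomputable def phi0 : SpecialLinearGroup (Fin 2) L →* Matrix (Fin n) (Fin n) F where
  toFun M := LinearMap.toMatrix' (D.LM M)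
  map_one' := by
    rw [Matrix.ext_iff_mulVec]
    intro v
    rw [LinearMap.toMatrix'_mulVec, LM_one, Matrix.one_mulVec]
  map_mul' M N := by
    rw [Matrix.ext_iff_mulVec]
    intro v
    rw [← Matrix.mulVec_mulVec, LinearMap.toMatrix'_mulVec, LinearMap.toMatrix'_mulVec,
      LinearMap.toMatrix'_mulVec, LM_mul]

theorem phi0_mulVec (M : SpecialLinearGroup (Fin 2) L) (v : Fin n → F) :
    D.phi0 M *ᵥ v = D.LM M v := LinearMap.toMatrix'_mulVec _ _

theorem phi0_det (M : SpecialLinearGroup (Fin 2) L) : (D.phi0 M).det = 1 := by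
  have h1 : lowerUnipotentSL2 L ⊔ upperUnipotentSL2 L ≤
      (Matrix.detMonoidHom.comp D.phi0).eqLocus 1 := by
    refine sup_le ?_ ?_
    · intro x hx
      obtain ⟨t, rfl⟩ := SL2.mem_lower_iff.1 hx
      change (D.phi0 (SL2.lo t)).det = 1
      have : D.phi0 (SL2.lo t) = Cfsg.unitaryTransvection n q D.d (D.κ⁻¹ * D.ι t) := by
        rw [Matrix.ext_iff_mulVec]
        intro v
        rw [phi0_mulVec, LM_lo, unitaryTransvection_mulVec]
      rw [this, unitaryTransvection_det, D.hd0, mul_zero, add_zero]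
    · intro x hx
      obtain ⟨t, rfl⟩ := SL2.mem_upper_iff.1 hx
      change (D.phi0 (SL2.up t)).det = 1
      have : D.phi0 (SL2.up t) = Cfsg.unitaryTransvection n q D.e (D.κ * D.ι t) := by
        rw [Matrix.ext_iff_mulVec]
        intro v
        rw [phi0_mulVec, LM_up, unitaryTransvection_mulVec]
      rw [this, unitaryTransvection_det, D.he0, mul_zero, add_zero]
  rw [SL2.sup_eq_top] at h1
  exact h1 (Subgroup.mem_top M)

/-- the embedding of `SL₂(q)` in `SU`. -/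
noncomputable def phi : SpecialLinearGroup (Fin 2) L →* ↥(Cfsg.SU n F q) :=
  MonoidHom.mk' (fun M => ⟨⟨D.phi0 M, D.phi0_det M⟩, by
    intro x y
    change Cfsg.hermForm n F q (D.phi0 M *ᵥ x) (D.phi0 M *ᵥ y) = _
    rw [phi0_mulVec, phi0_mulVec, LM_form]⟩) (by
    intro M N
    apply suMat_injective
    exact D.phi0.map_mul M N)

theorem phi_mulVec (M : SpecialLinearGroup (Fin 2) L) (v : Fin n → F) :
    suMat (D.phi M) *ᵥ v = D.LM M v := D.phi0_mulVec M v

theorem phi_up (t : L) : IsTv D.e (D.κ * D.ι t) (D.phi (SL2.up t)) := by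
  intro v
  rw [phi_mulVec, LM_up]

theorem phi_lo (t : L) : IsTv D.d (D.κ⁻¹ * D.ι t) (D.phi (SL2.lo t)) := by
  intro v
  rw [phi_mulVec, LM_lo]

theorem exists_param {c κ' : F} (hκ0 : κ' ≠ 0) (hκ : κ' ^ q = -κ') (hc : c ^ q = -c) :
    ∃ t, κ' * D.ι t = c := by
  obtain ⟨t, ht⟩ := D.hsurj (c / κ') (by rw [div_pow, hc, hκ, neg_div_neg_eq])
  exact ⟨t, by rw [ht, mul_div_cancel₀ _ hκ0]⟩

theorem map_upper : (upperUnipotentSL2 L).map D.phi = T q D.e := by
  ext x
  rw [Subgroup.mem_map, mem_T D.hF D.he D.he0]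
  constructor
  · rintro ⟨y, hy, rfl⟩
    obtain ⟨t, rfl⟩ := SL2.mem_upper_iff.1 hy
    exact ⟨_, D.phi_up t⟩
  · rintro ⟨c, hc⟩
    obtain ⟨t, ht⟩ := D.exists_param D.hκ0 D.hκ (hc.skew D.hF D.he D.he0)
    refine ⟨SL2.up t, SL2.up_mem _, ?_⟩
    have := D.phi_up t
    rw [ht] at this
    exact this.ext hc

theorem map_lower : (lowerUnipotentSL2 L).map D.phi = T q D.d := by
  ext x
  rw [Subgroup.mem_map, mem_T D.hF D.hd D.hd0]
  constructor
  · rintro ⟨y, hy, rfl⟩
    obtain ⟨t, rfl⟩ := SL2.mem_lower_iff.1 hy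
    exact ⟨_, D.phi_lo t⟩
  · rintro ⟨c, hc⟩
    obtain ⟨t, ht⟩ := D.exists_param (inv_ne_zero D.hκ0) (by rw [inv_pow, D.hκ, inv_neg])
      (hc.skew D.hF D.hd D.hd0)
    refine ⟨SL2.lo t, SL2.lo_mem _, ?_⟩
    have := D.phi_lo t
    rw [ht] at this
    exact this.ext hc

theorem phi_injective : Function.Injective D.phi := by
  rw [injective_iff_map_eq_one]
  intro M hM
  have h1 := D.phi_mulVec M D.e
  have h2 := D.phi_mulVec M D.d
  rw [hM, suMat_one, Matrix.one_mulVec] at h1 h2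
  unfold LM at h1 h2
  rw [Lu_apply] at h1 h2
  simp only [D.he0, D.hd0, D.hed, D.hde] at h1 h2
  have a1 := congrArg (fun x => Cfsg.hermForm n F q x D.d) h1
  have a2 := congrArg (fun x => Cfsg.hermForm n F q x D.e) h1
  have a3 := congrArg (fun x => Cfsg.hermForm n F q x D.d) h2
  have a4 := congrArg (fun x => Cfsg.hermForm n F q x D.e) h2
  simp only [hermForm_add_left, hermForm_smul_left, D.he0, D.hd0, D.hed, D.hde] at a1 a2 a3 a4
  have o00 : (1 : SpecialLinearGroup (Fin 2) L) 0 0 = 1 := by simp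
  have o01 : (1 : SpecialLinearGroup (Fin 2) L) 0 1 = 0 := by simp
  have o10 : (1 : SpecialLinearGroup (Fin 2) L) 1 0 = 0 := by simp
  have o11 : (1 : SpecialLinearGroup (Fin 2) L) 1 1 = 1 := by simp
  have hinj := D.ι.injective
  apply SL2.ext2
  · rw [o00]
    apply hinj
    rw [map_one]
    linear_combination -a1
  · rw [o01]
    apply hinj
    rw [map_zero]
    have : D.κ * D.ι (M 0 1) = 0 := by linear_combination -a3
    exact (mul_eq_zero.1 this).resolve_left D.hκ0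
  · rw [o10]
    apply hinj
    rw [map_zero]
    have : D.κ⁻¹ * D.ι (M 1 0) = 0 := by linear_combination -a2
    exact (mul_eq_zero.1 this).resolve_left (inv_ne_zero D.hκ0)
  · rw [o11]
    apply hinj
    rw [map_one]
    linear_combination -a4

theorem rankOne : IsRankOnePair (T q D.e) (T q D.d) := by
  have h := RankOne.map D.phi (RankOnePair_symm (SL2.isRankOnePair (k := L)))
    (fun h => SL2.isRankOnePair.ne (Subgroup.map_injective D.phi_injective h).symm)
  rwa [map_upper, map_lower] at h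

theorem psl2 : IsPSL2PairOver L (T q D.e) (T q D.d) := by
  refine ⟨D.phi, ?_, ?_, D.map_upper, D.map_lower⟩
  · rw [MonoidHom.range_eq_map, ← SL2.sup_eq_top, Subgroup.map_sup, map_upper, map_lower, sup_comm]
  · rw [(MonoidHom.ker_eq_bot_iff _).2 D.phi_injective]
    exact bot_le

end Dat


/-- The set of all unitary transvection subgroups. -/
def rootSet (q n : ℕ) (F : Type*) [Field F] : Set (Subgroup ↥(Cfsg.SU n F q)) :=
  {A | ∃ p : Fin n → F, p ≠ 0 ∧ Cfsg.hermForm n F q p p = 0 ∧ A = T q p}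

theorem pair_T (hF : Fintype.card F = q ^ 2) {L : Type} [Field L] [Fintype L]
    (hL : Fintype.card L = q) (ι : L →+* F) (hsurj : ∀ x : F, x ^ q = x → ∃ t, ι t = x)
    {p p' : Fin n → F}
    (hp0 : Cfsg.hermForm n F q p p = 0) (hp' : p' ≠ 0) (hp0' : Cfsg.hermForm n F q p' p' = 0)
    (h : Cfsg.hermForm n F q p p' ≠ 0) :
    IsRankOnePair (T q p) (T q p') ∧ IsPSL2PairOver L (T q p) (T q p') := by
  obtain ⟨κ, hκ0, hκ⟩ := exists_trace_zero hF
  obtain ⟨b, hb⟩ : ∃ b, b = ((Cfsg.hermForm n F q p p')⁻¹) ^ q := ⟨_, rfl⟩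
  have hb0 : b ≠ 0 := by rw [hb]; exact pow_ne_zero _ (inv_ne_zero h)
  have hed : Cfsg.hermForm n F q p (b • p') = 1 := by
    rw [hermForm_smul_right, hb, pow_q_pow_q hF, inv_mul_cancel₀ h]
  let D : Dat F q n L :=
    { hF := hF, hL := hL, ι := ι, hsurj := hsurj, κ := κ, hκ0 := hκ0, hκ := hκ, e := p, d := b • p'
      he0 := hp0
      hd0 := by rw [hermForm_smul_left, hermForm_smul_right, hp0']; ring
      hed := hed
      hde := hermForm_eq_one_comm hF hed }
  have h1 := D.rankOne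
  have h2 := D.psl2
  have e1 : T q D.d = T q p' := T_smul hF hp' hp0' hb0
  rw [e1] at h1 h2
  exact ⟨h1, h2⟩

theorem connected (hF : Fintype.card F = q ^ 2)
    (hr : ∀ p p' : Fin n → F, p ≠ 0 → Cfsg.hermForm n F q p p = 0 → p' ≠ 0 →
      Cfsg.hermForm n F q p' p' = 0 → Cfsg.hermForm n F q p p' ≠ 0 →
      IsRankOnePair (T q p) (T q p')) :
    IsConnectedFamily (FAdj (rootSet q n F)) (rootSet q n F) := by
  have hq : q ≠ 0 := by have := two_le_of_card_sq hF; omega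
  have edge : ∀ p p' : Fin n → F, p ≠ 0 → Cfsg.hermForm n F q p p = 0 → p' ≠ 0 →
      Cfsg.hermForm n F q p' p' = 0 → Cfsg.hermForm n F q p p' ≠ 0 →
      Relation.ReflTransGen (FAdj (rootSet q n F)) (T q p) (T q p') := by
    intro p p' hp hp0 hp' hp0' h
    exact Relation.ReflTransGen.single ⟨⟨p, hp, hp0, rfl⟩, ⟨p', hp', hp0', rfl⟩,
      hr p p' hp hp0 hp' hp0' h⟩
  have swap : ∀ {x y : Fin n → F}, Cfsg.hermForm n F q x y ≠ 0 → Cfsg.hermForm n F q y x ≠ 0 :=
    fun h h0 => h (hermForm_eq_zero_comm hF h0)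
  rintro _ ⟨p, hp, hp0, rfl⟩ _ ⟨p', hp', hp0', rfl⟩
  by_cases h : Cfsg.hermForm n F q p p' = 0
  · by_cases h1 : ∃ a : F, p = a • p'
    · obtain ⟨a, rfl⟩ := h1
      have ha : a ≠ 0 := by
        rintro rfl
        exact hp (zero_smul _ _)
      rw [T_smul hF hp' hp0' ha]
    · by_cases h2 : ∃ a : F, p' = a • p
      · obtain ⟨a, rfl⟩ := h2
        have ha : a ≠ 0 := by
          rintro rfl
          exact hp' (zero_smul _ _)
        rw [T_smul hF hp hp0 ha]
      · push Not at h1 h2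
        obtain ⟨w, hw0, hwp, hwp'⟩ := exists_isotropic_perp_not_perp hF n p p' hp' hp0' h h1
        obtain ⟨w', hw0', hwp2, hwp2'⟩ := exists_isotropic_perp_not_perp hF n p' p hp hp0
          (hermForm_eq_zero_comm hF h) h2
        have hw : w ≠ 0 := by
          rintro rfl
          exact hwp' (hermForm_zero_left n p')
        have hw' : w' ≠ 0 := by
          rintro rfl
          exact hwp2' (hermForm_zero_left n p)
        by_cases h3 : Cfsg.hermForm n F q w w' = 0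
        · have hz0 : Cfsg.hermForm n F q (w + w') (w + w') = 0 := by
            simp only [hermForm_add_left, hermForm_add_right hF, hw0, hw0', h3,
              hermForm_eq_zero_comm hF h3]
            ring
          have hz1 : Cfsg.hermForm n F q (w + w') p ≠ 0 := by
            rw [hermForm_add_left, hwp, zero_add]; exact hwp2'
          have hz2 : Cfsg.hermForm n F q (w + w') p' ≠ 0 := by
            rw [hermForm_add_left, hwp2, add_zero]; exact hwp'
          have hz : w + w' ≠ 0 := by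
            intro h0
            rw [h0] at hz1
            exact hz1 (hermForm_zero_left n p)
          exact (edge p (w + w') hp hp0 hz hz0 (swap hz1)).trans
            (edge (w + w') p' hz hz0 hp' hp0' hz2)
        · exact ((edge p w' hp hp0 hw' hw0' (swap hwp2')).trans
            (edge w' w hw' hw0' hw hw0 (swap h3))).trans (edge w p' hw hw0 hp' hp0' hwp')
  · exact edge p p' hp hp0 hp' hp0' h

theorem main (hF : Fintype.card F = q ^ 2) (m : ℕ) :
    IsRootSubgroupClass ((fun A : Subgroup ↥(Cfsg.SU (m + 2) F q) =>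
      A.subgroupOf (⨆ B ∈ rootSet q (m + 2) F, B)) '' rootSet q (m + 2) F) ∧
    IsDegenerateRootSet ((fun A : Subgroup ↥(Cfsg.SU (m + 2) F q) =>
      A.subgroupOf (⨆ B ∈ rootSet q (m + 2) F, B)) '' rootSet q (m + 2) F) ∧
    (∃ (L : Type) (_ : Field L) (_ : Fintype L), Fintype.card L = q ∧
      IsKRootSubgroupSet L ((fun A : Subgroup ↥(Cfsg.SU (m + 2) F q) =>
      A.subgroupOf (⨆ B ∈ rootSet q (m + 2) F, B)) '' rootSet q (m + 2) F)) ∧
    IsConnectedFamily (FAdj ((fun A : Subgroup ↥(Cfsg.SU (m + 2) F q) =>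
      A.subgroupOf (⨆ B ∈ rootSet q (m + 2) F, B)) '' rootSet q (m + 2) F))
      ((fun A : Subgroup ↥(Cfsg.SU (m + 2) F q) =>
      A.subgroupOf (⨆ B ∈ rootSet q (m + 2) F, B)) '' rootSet q (m + 2) F) := by
  obtain ⟨L, i1, i2, ι, hL, hsurj⟩ := exists_small_field hF
  have key := RootTransfer.transfer (k := L) (S := rootSet q (m + 2) F)
    (by
      rintro _ ⟨p, hp, hp0, rfl⟩
      exact isMulCommutative_T hF hp hp0)
    (by
      rintro _ ⟨p, hp, hp0, rfl⟩
      exact T_ne_bot hF hp hp0)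
    (by
      rintro _ ⟨p, hp, hp0, rfl⟩ g
      exact ⟨suMat g *ᵥ p, su_mulVec_ne_zero g hp, by rw [← hp0]; exact su_hermForm g p p,
        conjBy_T hF hp hp0 g⟩)
    (by
      rintro _ ⟨p, hp, hp0, rfl⟩ _ ⟨p', hp', hp0', rfl⟩
      by_cases h : Cfsg.hermForm (m + 2) F q p p' = 0
      · exact Or.inl (commutator_T hF hp hp0 hp' hp0' h)
      · exact Or.inr (pair_T hF hL ι hsurj hp0 hp' hp0' h))
    (by
      obtain ⟨v, hv, hv0⟩ := exists_isotropic_ne_zero hF (n := m + 2) (by omega)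
      exact ⟨T q v, v, hv, hv0, rfl⟩)
    (connected hF fun p p' _ hp0 hp' hp0' h => (pair_T hF hL ι hsurj hp0 hp' hp0' h).1)
  exact ⟨key.1, key.2.1, ⟨L, i1, i2, hL, key.2.2.1⟩, key.2.2.2⟩

end Cfsg.Agent.Lib.Helper17.UnitRoot
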