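import Cfsg.Agent.Lib.Helper17.UnitHyp
import Cfsg.Agent.Lib.Helper17.UnitIso
import Cfsg.Agent.Lib.Helper17.SympFrame

set_option autoImplicit false

namespace Cfsg.Agent.Lib.Helper17

open Matrix

section
variable {F : Type*} [Field F] {q : ℕ}

/-- the pointwise stabiliser in `GU` of a family of vectors -/
def fixFrameU (q : ℕ) {n : ℕ} {ι : Type*} (x : ι → (Fin n → F)) : Subgroup ↥(Cfsg.GU n F q) where
  carrier := {g | ∀ i, ((g : Matrix.GeneralLinearGroup (Fin n) F) : Matrix (Fin n) (Fin n) F) *ᵥ x i = x i}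
  mul_mem' := by
    intro a b ha hb i
    rw [gu_coe_mul_mulVec, hb i, ha i]
  one_mem' := fun i => by simp
  inv_mem' := by
    intro a ha i
    conv_lhs => rw [← ha i]
    rw [gu_inv_mulVec]

theorem fixFrameU_span {n : ℕ} {ι : Type*} {x : ι → (Fin n → F)} {g : ↥(Cfsg.GU n F q)}
    (hg : g ∈ fixFrameU q x) (w : Fin n → F) (hw : w ∈ Submodule.span F (Set.range x)) :
    ((g : Matrix.GeneralLinearGroup (Fin n) F) : Matrix (Fin n) (Fin n) F) *ᵥ w = w := by
  induction hw using Submodule.span_induction with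
  | mem w hw =>
    obtain ⟨i, rfl⟩ := hw
    exact hg i
  | zero => simp
  | add a b _ _ ha hb => rw [Matrix.mulVec_add, ha, hb]
  | smul c a _ ha => rw [Matrix.mulVec_smul, ha]

theorem gu_linearIndependent {n : ℕ} {ι : Type*} {x : ι → (Fin n → F)} (g : ↥(Cfsg.GU n F q))
    (hx : LinearIndependent F x) :
    LinearIndependent F (fun i => ((g : Matrix.GeneralLinearGroup (Fin n) F) : Matrix (Fin n) (Fin n) F) *ᵥ x i) :=
  hx.map' (guEquiv g).toLinearMap (LinearMap.ker_eq_bot.mpr (guEquiv g).injective)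

end

section
variable {F : Type*} [Field F] [Fintype F] {q : ℕ}

/-- `|GU_n(q)|` is the number of isotropic `k`-frames times the order of the pointwise stabiliser of one. -/
theorem card_GU_eq_frames_mul (hF : Fintype.card F = q ^ 2) (n k : ℕ) (b : Fin k → (Fin n → F))
    (hb : LinearIndependent F b) (hiso : ∀ i j, Cfsg.hermForm n F q (b i) (b j) = 0) :
    Nat.card ↥(Cfsg.GU n F q) = Nat.card (IsoFrame (Cfsg.hermForm n F q) k) * Nat.card (fixFrameU q b) := by
  rw [← Subgroup.card_top (G := ↥(Cfsg.GU n F q))]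
  apply orbit_count (fun (g : ↥(Cfsg.GU n F q)) (s : Fin k → (Fin n → F)) =>
      fun i => ((g : Matrix.GeneralLinearGroup (Fin n) F) : Matrix (Fin n) (Fin n) F) *ᵥ s i)
      (fun g h s => funext fun i => gu_coe_mul_mulVec g h (s i))
      (fun s => funext fun i => by simp) ⊤ (fixFrameU q b) b
      {x : Fin k → (Fin n → F) | LinearIndependent F x ∧ ∀ i j, Cfsg.hermForm n F q (x i) (x j) = 0}
  · intro g
    constructor
    · intro hg
      exact ⟨Subgroup.mem_top g, funext fun i => hg i⟩
    · rintro ⟨-, h2⟩ i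
      exact congrFun h2 i
  · intro y
    constructor
    · rintro ⟨hy1, hy2⟩
      obtain ⟨A, hA⟩ := gu_witt_frame hF n b y hb hy1 (by
        intro i j
        rw [hiso, hy2])
      exact ⟨A, Subgroup.mem_top A, funext hA⟩
    · rintro ⟨g, -, rfl⟩
      refine ⟨gu_linearIndependent g hb, fun i j => ?_⟩
      rw [gu_hermForm, hiso]

/-- the stabiliser in `GU_n(q)` of a totally isotropic subspace with basis `b` -/
theorem card_stab_GU_eq (hF : Fintype.card F = q ^ 2) (n k : ℕ) (W : Submodule F (Fin n → F))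
    (hWk : Module.finrank F W = k) (hW : ∀ u ∈ W, ∀ v ∈ W, Cfsg.hermForm n F q u v = 0)
    (b : Fin k → (Fin n → F)) (hb : LinearIndependent F b) (hspan : Submodule.span F (Set.range b) = W) :
    Nat.card ↥((Cfsg.stabilizing (Cfsg.glToMat (Fin n) F) (W : Set (Fin n → F))).subgroupOf (Cfsg.GU n F q)) =
      (∏ i : Fin k, ((q ^ 2) ^ k - (q ^ 2) ^ (i : ℕ))) * Nat.card (fixFrameU q b) := by
  have hbW : ∀ i, b i ∈ W := fun i => hspan ▸ Submodule.subset_span ⟨i, rfl⟩
  have hGL : Nat.card {s : Fin k → (Fin n → F) | LinearIndependent F s ∧ ∀ i, s i ∈ W} =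
      ∏ i : Fin k, ((q ^ 2) ^ k - (q ^ 2) ^ (i : ℕ)) := by
    have h1 := card_linearIndependent (K := F) (V := W) (k := k) hWk.ge
    rw [hWk, hF] at h1
    rw [← h1]
    apply Nat.card_congr
    refine
      { toFun := fun s => ⟨fun i => ⟨s.1 i, s.2.2 i⟩, ?_⟩
        invFun := fun s => ⟨fun i => (s.1 i : Fin n → F), ?_, fun i => (s.1 i).2⟩
        left_inv := fun s => rfl
        right_inv := fun s => rfl }
    · apply LinearIndependent.of_comp W.subtype
      exact s.2.1
    · exact s.2.map' W.subtype (Submodule.ker_subtype W)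
  rw [← hGL]
  apply orbit_count (fun (g : ↥(Cfsg.GU n F q)) (s : Fin k → (Fin n → F)) =>
      fun i => ((g : Matrix.GeneralLinearGroup (Fin n) F) : Matrix (Fin n) (Fin n) F) *ᵥ s i)
      (fun g h s => funext fun i => gu_coe_mul_mulVec g h (s i))
      (fun s => funext fun i => by simp) _ _ b
  · intro g
    rw [Subgroup.mem_subgroupOf]
    constructor
    · intro hg
      refine ⟨?_, funext fun i => hg i⟩
      apply mem_stabilizing_of_forall
      intro v hv
      change ((g : Matrix.GeneralLinearGroup (Fin n) F) : Matrix (Fin n) (Fin n) F) *ᵥ v ∈ W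
      rw [fixFrameU_span hg v (hspan ▸ hv)]
      exact hv
    · rintro ⟨-, h2⟩ i
      exact congrFun h2 i
  · intro y
    constructor
    · rintro ⟨hy1, hy2⟩
      obtain ⟨A, hA⟩ := gu_witt_frame hF n b y hb hy1 (by
        intro i j
        rw [hW _ (hbW i) _ (hbW j), hW _ (hy2 i) _ (hy2 j)])
      refine ⟨A, ?_, funext hA⟩
      rw [Subgroup.mem_subgroupOf]
      apply mem_stabilizing_of_forall
      intro v hv
      change ((A : Matrix.GeneralLinearGroup (Fin n) F) : Matrix (Fin n) (Fin n) F) *ᵥ v ∈ W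
      rw [← hspan] at hv
      induction hv using Submodule.span_induction with
      | mem w hw =>
        obtain ⟨i, rfl⟩ := hw
        rw [hA]
        exact hy2 i
      | zero => simp
      | add a c _ _ ha hc =>
        rw [Matrix.mulVec_add]
        exact W.add_mem ha hc
      | smul c a _ ha =>
        rw [Matrix.mulVec_smul]
        exact W.smul_mem c ha
    · rintro ⟨g, hg, rfl⟩
      rw [Subgroup.mem_subgroupOf] at hg
      exact ⟨gu_linearIndependent g hb, fun i => (hg (b i)).mp (hbW i)⟩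

/-- The order of the stabiliser in `GU_n(q)` of a totally isotropic `k`-subspace. -/
theorem card_stab_GU_mul (hF : Fintype.card F = q ^ 2) (n k : ℕ) (hk : 2 * k ≤ n + 1) (W : Submodule F (Fin n → F))
    (hWk : Module.finrank F W = k) (hW : ∀ u ∈ W, ∀ v ∈ W, Cfsg.hermForm n F q u v = 0) :
    Nat.card ↥((Cfsg.stabilizing (Cfsg.glToMat (Fin n) F) (W : Set (Fin n → F))).subgroupOf (Cfsg.GU n F q)) *
      ∏ i ∈ Finset.range k, (q ^ (2 * i) * isoCount q (n - 2 * i)) =
      (∏ i : Fin k, ((q ^ 2) ^ k - (q ^ 2) ^ (i : ℕ))) * Nat.card ↥(Cfsg.GU n F q) := by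
  let bW := Module.finBasisOfFinrankEq F W hWk
  let b : Fin k → (Fin n → F) := fun i => (bW i : Fin n → F)
  have hb : LinearIndependent F b := bW.linearIndependent.map' W.subtype (Submodule.ker_subtype W)
  have hbW : ∀ i, b i ∈ W := fun i => (bW i).2
  have hspan : Submodule.span F (Set.range b) = W := by
    apply Submodule.eq_of_le_of_finrank_eq
    · rw [Submodule.span_le]
      rintro _ ⟨i, rfl⟩
      exact hbW i
    · rw [finrank_span_eq_card hb, Fintype.card_fin, hWk]
  rw [card_stab_GU_eq hF n k W hWk hW b hb hspan,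
    card_GU_eq_frames_mul hF n k b hb (fun i j => hW _ (hbW i) _ (hbW j)), card_isoFrame_herm hF n k hk]
  ring

/-- the determinant is onto the norm one group on the stabiliser of a totally isotropic subspace -/
theorem exists_stab_GU_det (hF : Fintype.card F = q ^ 2) (n : ℕ) (hn : 1 ≤ n) (W : Submodule F (Fin n → F))
    (hW : ∀ u ∈ W, ∀ v ∈ W, Cfsg.hermForm n F q u v = 0) (μ : Fˣ) (hμ : μ ^ (q + 1) = 1) :
    ∃ g : ↥(Cfsg.GU n F q), (g : Matrix.GeneralLinearGroup (Fin n) F) ∈
      Cfsg.stabilizing (Cfsg.glToMat (Fin n) F) (W : Set (Fin n → F)) ∧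
      ((g : Matrix.GeneralLinearGroup (Fin n) F) : Matrix (Fin n) (Fin n) F).det = μ := by
  classical
  have hq := two_le_of_card_sq hF
  by_cases hbot : W = ⊥
  · subst hbot
    let i₀ : Fin n := ⟨0, hn⟩
    refine ⟨diagGU (fun i => if i = i₀ then μ else 1) (by
      intro i
      split_ifs
      · exact hμ
      · exact one_pow _), ?_, ?_⟩
    · apply mem_stabilizing_of_forall
      intro v hv
      rw [Submodule.mem_bot] at hv
      rw [hv, Matrix.mulVec_zero]
      exact Submodule.zero_mem _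
    · rw [diagGU_coe, Matrix.det_diagonal]
      have : ∀ i : Fin n, (((if i = i₀ then μ else 1 : Fˣ)) : F) = if i = i₀ then (μ : F) else 1 := by
        intro i
        split_ifs <;> simp
      simp only [this]
      rw [Finset.prod_ite_eq' Finset.univ i₀ (fun _ => (μ : F))]
      simp
  · obtain ⟨w, hwW, hw⟩ := Submodule.exists_mem_ne_zero_of_ne_bot hbot
    have hw0 := hW w hwW w hwW
    obtain ⟨w', h1, h1', hw0'⟩ := exists_hyp_partner hF n w hw hw0
    obtain ⟨ν, hν⟩ := exists_pow_sub_one_eq hF μ hμ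
    refine ⟨hypDil hF w w' (ν : F) ν.ne_zero hw0 hw0' h1 h1', ?_, ?_⟩
    · apply mem_stabilizing_of_forall
      intro v hv
      change hypDilMat q w w' (ν : F) *ᵥ v ∈ W
      rw [hypDilMat_mulVec w w' _ hw0, hW v hv w hwW, mul_zero, zero_smul, add_zero]
      exact W.add_mem hv (W.smul_mem _ hwW)
    · rw [hypDil_coe, hypDilMat_det w w' _ ν.ne_zero h1 h1' (by omega), ← hν]
      simp

/-- passing from `GU` to `SU` for the stabiliser of a totally isotropic subspace -/
theorem card_stab_SU_mul (hF : Fintype.card F = q ^ 2) (n : ℕ) (hn : 1 ≤ n) (W : Submodule F (Fin n → F))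
    (hW : ∀ u ∈ W, ∀ v ∈ W, Cfsg.hermForm n F q u v = 0) :
    (q + 1) * Nat.card ↥((Cfsg.stabilizing (Cfsg.slToMat n F) (W : Set (Fin n → F))).subgroupOf (Cfsg.SU n F q)) =
      Nat.card ↥((Cfsg.stabilizing (Cfsg.glToMat (Fin n) F) (W : Set (Fin n → F))).subgroupOf (Cfsg.GU n F q)) := by
  classical
  have hq := two_le_of_card_sq hF
  let P := (Cfsg.stabilizing (Cfsg.glToMat (Fin n) F) (W : Set (Fin n → F))).subgroupOf (Cfsg.GU n F q)
  let detP : ↥P →* Fˣ := (Matrix.GeneralLinearGroup.det).comp ((Subgroup.subtype _).comp (Subgroup.subtype P))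
  have hdetP : ∀ g : ↥P, ((detP g : Fˣ) : F) =
      (((g : ↥(Cfsg.GU n F q)) : Matrix.GeneralLinearGroup (Fin n) F) : Matrix (Fin n) (Fin n) F).det := fun g => rfl
  have hrange : detP.range = (powMonoidHom (q + 1) : Fˣ →* Fˣ).ker := by
    ext μ
    rw [MonoidHom.mem_ker, powMonoidHom_apply]
    constructor
    · rintro ⟨g, rfl⟩
      apply Units.ext
      rw [Units.val_pow_eq_pow_val, hdetP]
      exact GU_det_pow hF g.1.2
    · intro hμ
      obtain ⟨g, hg1, hg2⟩ := exists_stab_GU_det hF n hn W hW μ hμ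
      refine ⟨⟨g, Subgroup.mem_subgroupOf.mpr hg1⟩, ?_⟩
      apply Units.ext
      rw [hdetP]
      exact hg2
  have hcardU : Nat.card Fˣ = (q - 1) * (q + 1) := by
    rw [Nat.card_eq_fintype_card, Fintype.card_units, hF]
    obtain ⟨t, rfl⟩ : ∃ t, q = t + 1 := ⟨q - 1, by omega⟩
    simp only [Nat.add_sub_cancel]
    have : (t + 1) ^ 2 = t * (t + 1 + 1) + 1 := by ring
    omega
  have hcr : Nat.card detP.range = q + 1 := by
    rw [hrange, IsCyclic.card_powMonoidHom_ker, hcardU, Nat.gcd_eq_right (Dvd.intro_left _ rfl)]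
  have hker : Nat.card detP.ker =
      Nat.card ↥((Cfsg.stabilizing (Cfsg.slToMat n F) (W : Set (Fin n → F))).subgroupOf (Cfsg.SU n F q)) := by
    apply Nat.card_congr
    refine
      { toFun := fun g => ⟨⟨⟨(g.1.1.1 : Matrix (Fin n) (Fin n) F), ?_⟩, ?_⟩, ?_⟩
        invFun := fun s => ⟨⟨⟨Matrix.SpecialLinearGroup.toGL s.1.1, ?_⟩, ?_⟩, ?_⟩
        left_inv := fun g => by
          apply Subtype.ext; apply Subtype.ext; apply Subtype.ext; apply Units.ext; rfl
        right_inv := fun s => by
          apply Subtype.ext; apply Subtype.ext; apply Subtype.ext; rfl }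
    · have := g.2
      rw [MonoidHom.mem_ker] at this
      exact congrArg Units.val this
    · intro u v
      exact g.1.1.2 u v
    · rw [Subgroup.mem_subgroupOf]
      intro v
      exact (Subgroup.mem_subgroupOf.mp g.1.2) v
    · intro u v
      exact s.1.2 u v
    · rw [Subgroup.mem_subgroupOf]
      intro v
      exact (Subgroup.mem_subgroupOf.mp s.2) v
    · rw [MonoidHom.mem_ker]
      apply Units.ext
      exact s.1.1.2
  rw [← hker, ← hcr, ← Subgroup.index_ker, mul_comm, Subgroup.card_mul_index]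

end

end Cfsg.Agent.Lib.Helper17
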